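import Mathlib

set_option autoImplicit false
set_option maxHeartbeats 400000

/-!
Piece S1415-CYCSYL: a cyclic Sylow `p`-subgroup lies in the commutator subgroup as soon as `p`
divides the order of the commutator subgroup.
-/

namespace Cfsg.Agent.H69.BG

universe u

open scoped IsMulCommutative in
theorem sylow_le_commutator_of_cyclic {M : Type u} [Group M] [Finite M] (p : ℕ) [Fact p.Prime]
    (P : Sylow p M) (hc : IsCyclic (P : Subgroup M)) (hd : p ∣ Nat.card (commutator M)) :
    (P : Subgroup M) ≤ commutator M := by
  have hc' : IsCyclic P := hc
  rcases Sylow.normalizer_le_centralizer_or_le_commutator P with hP | hP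
  · exfalso
    have h1 := MonoidHom.not_dvd_card_ker_transferSylow P hP
    exact h1 (hd.trans (Subgroup.card_dvd_of_le (Abelianization.commutator_subset_ker _)))
  · exact hP

end Cfsg.Agent.H69.BG
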