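import Mathlib

set_option autoImplicit false
set_option maxHeartbeats 400000

/-!
Piece S1415-HALLUNIQ: in a finite nilpotent group a subgroup whose order is coprime to its index
is determined by its order.
-/

namespace Cfsg.Agent.H69.BG

universe u

/-- In a finite nilpotent group, a subgroup of order coprime to its index contains the Sylow
`p`-subgroups for the primes `p` dividing its order. -/
theorem sylow_le_of_coprime_index {D : Type u} [Group D] [Finite D] [Group.IsNilpotent D]
    (A : Subgroup D) (hcop : (Nat.card A).Coprime A.index) (p : ℕ) [hp : Fact p.Prime]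
    (hpA : p ∣ Nat.card A) (P : Sylow p D) : (P : Subgroup D) ≤ A := by
  have htfae : Group.IsNilpotent D ↔
      ∀ (p : ℕ) (_hp : Fact p.Prime) (P : Sylow p D), (↑P : Subgroup D).Normal :=
    (Group.isNilpotent_of_finite_tfae (G := D)).out 0 3
  have hPn : (P : Subgroup D).Normal := htfae.1 inferInstance p hp P
  obtain ⟨Q⟩ : Nonempty (Sylow p A) := inferInstance
  have hQ' : IsPGroup p ((Q : Subgroup A).map A.subtype) := Q.2.map _
  obtain ⟨P', hP'⟩ := hQ'.exists_le_sylow
  have hPP : P' = P := by
    have hu := Sylow.unique_of_normal P hPn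
    exact Subsingleton.elim _ _
  subst hPP
  have hidx : A.index ≠ 0 := Subgroup.index_ne_zero_of_finite
  have hcard : Nat.card ((Q : Subgroup A).map A.subtype) = Nat.card (P' : Subgroup D) := by
    rw [Subgroup.card_map_of_injective A.subtype_injective, Sylow.card_eq_multiplicity,
      Sylow.card_eq_multiplicity]
    have h1 : Nat.card D = Nat.card A * A.index := (Subgroup.card_mul_index A).symm
    rw [h1, Nat.factorization_mul Nat.card_pos.ne' hidx]
    have h2 : A.index.factorization p = 0 :=
      Nat.factorization_eq_zero_of_not_dvd (fun h =>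
        hp.out.one_lt.ne' (Nat.eq_one_of_dvd_coprimes hcop hpA h))
    simp [h2]
  have heq : (Q : Subgroup A).map A.subtype = P' := Subgroup.eq_of_le_of_card_ge hP' hcard.ge
  rw [← heq]
  exact Subgroup.map_subtype_le _

theorem hall_unique_of_nilpotent {D : Type u} [Group D] [Finite D] [Group.IsNilpotent D]
    (A B : Subgroup D) (hcard : Nat.card A = Nat.card B)
    (hcop : (Nat.card A).Coprime A.index) : A = B := by
  have hidx : A.index = B.index := by
    have h1 := Subgroup.card_mul_index A
    have h2 := Subgroup.card_mul_index B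
    rw [hcard] at h1
    exact Nat.eq_of_mul_eq_mul_left Nat.card_pos (h1.trans h2.symm)
  have hcopB : (Nat.card B).Coprime B.index := by
    rw [← hcard, ← hidx]
    exact hcop
  have hle : A ≤ B := by
    by_contra hnot
    have hne : (A ⊓ B).relIndex A ≠ 1 := by
      intro h
      rw [Subgroup.relIndex_eq_one] at h
      exact hnot (h.trans inf_le_right)
    obtain ⟨p, hp, hpd⟩ := Nat.exists_prime_and_dvd hne
    have : Fact p.Prime := ⟨hp⟩
    have hpA : p ∣ Nat.card A := hpd.trans (Subgroup.relIndex_dvd_card _ _)
    obtain ⟨P⟩ : Nonempty (Sylow p D) := inferInstance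
    have hPA := sylow_le_of_coprime_index A hcop p hpA P
    have hPB := sylow_le_of_coprime_index B hcopB p (hcard ▸ hpA) P
    have hPle : (P : Subgroup D) ≤ A ⊓ B := le_inf hPA hPB
    have hd1 : Nat.card (P : Subgroup D) ∣ Nat.card (A ⊓ B : Subgroup D) :=
      Subgroup.card_dvd_of_le hPle
    rw [Sylow.card_eq_multiplicity] at hd1
    have hd2 : p ^ ((Nat.card D).factorization p + 1) ∣ Nat.card D := by
      have h3 : Nat.card (A ⊓ B : Subgroup D) * ((A ⊓ B).relIndex A * A.index) = Nat.card D := by
        rw [Subgroup.relIndex_mul_index inf_le_left, Subgroup.card_mul_index]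
      have h4 : p ^ ((Nat.card D).factorization p + 1) ∣
          Nat.card (A ⊓ B : Subgroup D) * ((A ⊓ B).relIndex A * A.index) := by
        rw [pow_succ, ← mul_assoc]
        exact Dvd.dvd.mul_right (Nat.mul_dvd_mul hd1 hpd) _
      rwa [h3] at h4
    exact Nat.pow_succ_factorization_not_dvd Nat.card_pos.ne' hp hd2
  exact Subgroup.eq_of_le_of_card_ge hle hcard.ge

end Cfsg.Agent.H69.BG
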