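import Mathlib
import Cfsg.Prelude.Def_GeometricClasses
import Cfsg.Agent.H17.HermBasis
import Cfsg.Agent.H7.Herm

/-!
S5982-ONB piece (helper99's team project): an orthonormal basis for a unitary form
(`Cfsg.Geo.IsUnitaryFormPow`) on `Fin n → F`, `|F| = q₀²`, in matrix form.
-/

set_option autoImplicit false

open scoped MatrixGroups

namespace Cfsg.Agent.H69.Uni

variable {F : Type*} [Field F] [Fintype F]

/-- `x ↦ x ^ q₀` is not the identity on a field with `q₀ ^ 2` elements. -/
theorem exists_pow_q_ne {q₀ : ℕ} (hF : Fintype.card F = q₀ ^ 2) : ∃ x : F, x ^ q₀ ≠ x := by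
  classical
  by_contra hcon
  have hall : ∀ x : F, x ^ q₀ = x := by
    intro x
    by_contra hx
    exact hcon ⟨x, hx⟩
  have hq := Cfsg.Agent.H7.two_le_of_card_sq hF
  have h1 : (Polynomial.X ^ q₀ - Polynomial.X : Polynomial F) ≠ 0 :=
    FiniteField.X_pow_card_sub_X_ne_zero F (by omega)
  have h2 : (Polynomial.X ^ q₀ - Polynomial.X : Polynomial F).natDegree = q₀ :=
    FiniteField.X_pow_card_sub_X_natDegree_eq F (by omega)
  have h3 : Fintype.card F ≤ q₀ := by
    calc Fintype.card F = (Finset.univ : Finset F).card := Finset.card_univ.symm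
      _ ≤ (Polynomial.X ^ q₀ - Polynomial.X : Polynomial F).roots.toFinset.card := by
          apply Finset.card_le_card
          intro x _
          rw [Multiset.mem_toFinset, Polynomial.mem_roots h1, Polynomial.IsRoot.def]
          simp [hall x]
      _ ≤ Multiset.card (Polynomial.X ^ q₀ - Polynomial.X : Polynomial F).roots :=
          Multiset.toFinset_card_le _
      _ ≤ (Polynomial.X ^ q₀ - Polynomial.X : Polynomial F).natDegree :=
          Polynomial.card_roots' _
      _ = q₀ := h2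
  rw [hF] at h3
  nlinarith

theorem exists_orthonormal_basis {q₀ n : ℕ} (hF : Fintype.card F = q₀ ^ 2)
    (f : (Fin n → F) → (Fin n → F) → F) (hf : Cfsg.Geo.IsUnitaryFormPow q₀ f) :
    ∃ B : Matrix (Fin n) (Fin n) F, IsUnit B.det ∧
      ∀ u v : Fin n → F, f (B.mulVec u) (B.mulVec v) = ∑ i, u i * (v i) ^ q₀ := by
  classical
  obtain ⟨σ, hσ⟩ := Cfsg.Agent.H7.exists_frobQ hF
  have hσ2 : ∀ a : F, σ (σ a) = a := fun a => by
    rw [hσ, hσ, Cfsg.Agent.H7.pow_q_pow_q hF]
  have hσne : σ ≠ RingHom.id F := by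
    intro h
    obtain ⟨x, hx⟩ := exists_pow_q_ne hF
    apply hx
    rw [← hσ, h]
    rfl
  let B₀ : (Fin n → F) →ₛₗ[σ] (Fin n → F) →ₗ[F] F :=
    LinearMap.mk₂'ₛₗ σ (RingHom.id F) (fun x y => f y x)
      (fun x x' y => by
        show f y (x + x') = f y x + f y x'
        rw [hf.herm y (x + x'), hf.add_left, ← hσ, map_add, hσ, hσ, ← hf.herm, ← hf.herm])
      (fun c x y => by
        show f y (c • x) = σ c • f y x
        rw [hf.herm y (c • x), hf.smul_left, mul_pow, ← hf.herm, hσ]
        rfl)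
      (fun x y y' => hf.add_left y y' x)
      (fun c x y => hf.smul_left c y x)
  have hB₀ : ∀ x y, B₀ x y = f y x := fun x y => rfl
  have hS : B₀.IsSymm := by
    refine ⟨fun x y => ?_⟩
    show σ (f y x) = f x y
    rw [hσ, ← hf.herm]
  have hN : B₀.Nondegenerate := by
    refine ⟨fun x hx => ?_, fun y hy => ?_⟩
    · by_contra hx0
      obtain ⟨z, hz⟩ := (hf.nondegenerate x hx0).1
      exact hz (hx z)
    · by_contra hy0
      obtain ⟨z, hz⟩ := (hf.nondegenerate y hy0).2
      exact hz (hy z)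
  have hfin : Module.finrank F (Fin n → F) = n := by
    rw [Module.finrank_fintype_fun_eq_card, Fintype.card_fin]
  obtain ⟨b, hb⟩ := Cfsg.Agent.H17.herm_onb_aux σ hσne hσ2 n (Fin n → F) B₀ hS hN hfin
  let g : (Fin n → F) ≃ₗ[F] (Fin n → F) := b.equivFun.symm
  have hg : ∀ u : Fin n → F, g u = ∑ i, u i • b i := fun u => b.equivFun_symm_apply u
  refine ⟨LinearMap.toMatrix' g.toLinearMap, ?_, fun u v => ?_⟩
  · rw [LinearMap.det_toMatrix']
    exact g.isUnit_det'
  · rw [LinearMap.toMatrix'_mulVec, LinearMap.toMatrix'_mulVec]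
    show f (g u) (g v) = _
    rw [← hB₀, hg, hg]
    simp only [map_sum, LinearMap.sum_apply, LinearMap.map_smulₛₗ₂, map_smul, smul_eq_mul, hb,
      mul_ite, mul_one, mul_zero, Finset.sum_ite_eq', Finset.mem_univ, if_true, hσ]

end Cfsg.Agent.H69.Uni
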