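import Mathlib
import Cfsg.Agent.Lib.Helper30.BG12TDefs

/-!
BG12T-DERU piece (helper30's team project, S1423): the derived subgroup of a `p`-group `S`
centralizes every normal elementary abelian subgroup of order `p²` of `S`.
-/

set_option autoImplicit false

namespace Cfsg.Agent.H69.BG12T

open Cfsg Subgroup Cfsg.Agent.Lib.Helper30.BG12T

universe u

/-- A nontrivial normal subgroup of a finite `p`-group contains a nontrivial central element
(as in helper64's `BaerT6`). -/
theorem normal_inf_center_aux {Q : Type*} [Group Q] [Finite Q] {p : ℕ} [Fact p.Prime]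
    (hQ : IsPGroup p Q) (N : Subgroup Q) [hN : N.Normal] (hne : N ≠ ⊥) :
    ∃ c ∈ N, c ≠ 1 ∧ ∀ g : Q, g * c = c * g := by
  have hNp : IsPGroup p N := hQ.to_subgroup N
  have hnt : Nontrivial N := (Subgroup.nontrivial_iff_ne_bot N).mpr hne
  have hdvd : p ∣ Nat.card N := by
    obtain ⟨k, hk⟩ := IsPGroup.iff_card.mp hNp
    rw [hk]
    have hk0 : k ≠ 0 := by
      rintro rfl
      rw [pow_zero] at hk
      have := Finite.one_lt_card (α := N)
      omega
    exact dvd_pow_self p hk0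
  have hC : IsPGroup p (ConjAct Q) := hQ
  have h1 : (1 : N) ∈ MulAction.fixedPoints (ConjAct Q) N := fun g => smul_one g
  obtain ⟨b, hb, hb1⟩ := hC.exists_fixed_point_of_prime_dvd_card_of_fixed_point (α := N) hdvd h1
  refine ⟨b, b.2, fun h => hb1 (Subtype.ext h.symm), fun g => ?_⟩
  have h2 := hb (ConjAct.toConjAct g)
  have h3 : g * (b : Q) * g⁻¹ = b := by
    have h4 := congrArg Subtype.val h2
    rw [ConjAct.Subgroup.val_conj_smul, ConjAct.smul_def, ConjAct.ofConjAct_toConjAct] at h4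
    exact h4
  calc g * (b : Q) = (g * (b : Q) * g⁻¹) * g := by group
    _ = (b : Q) * g := by rw [h3]

/-- Subgroup version. -/
theorem exists_central_aux {H : Type*} [Group H] [Finite H] {p : ℕ} [Fact p.Prime]
    (S N : Subgroup H) (hS : IsPGroup p S) (hN : N ≤ S)
    (hnorm : ∀ g ∈ S, ∀ x ∈ N, g * x * g⁻¹ ∈ N)
    (hne : N ≠ ⊥) : ∃ c ∈ N, c ≠ 1 ∧ ∀ g ∈ S, g * c = c * g := by
  have hn : (N.subgroupOf S).Normal := ⟨fun x hx g => by
    rw [Subgroup.mem_subgroupOf] at hx ⊢
    exact hnorm g.1 g.2 x.1 hx⟩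
  have hne' : N.subgroupOf S ≠ ⊥ := by
    intro hb
    apply hne
    rw [eq_bot_iff]
    intro x hx
    have h1 : (⟨x, hN hx⟩ : S) ∈ N.subgroupOf S := Subgroup.mem_subgroupOf.mpr hx
    rw [hb, Subgroup.mem_bot] at h1
    exact congrArg Subtype.val h1
  obtain ⟨c, hc, hc1, hcc⟩ := normal_inf_center_aux hS (N.subgroupOf S) hne'
  exact ⟨c.1, Subgroup.mem_subgroupOf.mp hc, fun h => hc1 (Subtype.ext h),
    fun g hg => congrArg Subtype.val (hcc ⟨g, hg⟩)⟩

/-- A `p`-element normalizing a subgroup of order `p` centralizes it. -/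
theorem conj_eq_of_card_prime {G : Type u} [Group G] {p : ℕ} [Fact p.Prime] (s : G) (k : ℕ)
    (hs : s ^ p ^ k = 1) (R : Subgroup G) (hR : Nat.card R = p)
    (hnorm : ∀ w ∈ R, s * w * s⁻¹ ∈ R) : ∀ w ∈ R, s * w * s⁻¹ = w := by
  have hcyc : IsCyclic R := isCyclic_of_prime_card hR
  let σ : R →* R :=
    { toFun := fun w => ⟨s * w * s⁻¹, hnorm w w.2⟩
      map_one' := by
        apply Subtype.ext
        simp
      map_mul' := by
        intro a b
        apply Subtype.ext
        simp [mul_assoc] }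
  have hσ : ∀ w : R, ((σ w : R) : G) = s * w * s⁻¹ := fun w => rfl
  obtain ⟨m, hm⟩ := MonoidHom.map_cyclic σ
  have hiter : ∀ (j : ℕ) (w : R), s ^ j * (w : G) * (s ^ j)⁻¹ = ((w ^ (m ^ j) : R) : G) := by
    intro j
    induction j with
    | zero =>
      intro w
      simp
    | succ j ih =>
      intro w
      have h1 : s ^ (j + 1) * (w : G) * (s ^ (j + 1))⁻¹ =
          s * (s ^ j * (w : G) * (s ^ j)⁻¹) * s⁻¹ := by
        rw [pow_succ']
        group
      rw [h1, ih, ← hσ, hm, ← zpow_mul, pow_succ]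
  intro w hw
  have h1 := hiter (p ^ k) ⟨w, hw⟩
  rw [hs] at h1
  simp only [one_mul, inv_one, mul_one] at h1
  by_cases hw1 : w = 1
  · rw [hw1]
    group
  · have hord : orderOf (⟨w, hw⟩ : R) = p := by
      apply orderOf_eq_prime
      · have := pow_card_eq_one' (G := R) (x := ⟨w, hw⟩)
        rwa [hR] at this
      · intro h
        apply hw1
        exact congrArg Subtype.val h
    have h2 : (⟨w, hw⟩ : R) ^ (m ^ p ^ k - 1) = 1 := by
      have h3 : (⟨w, hw⟩ : R) ^ (m ^ p ^ k) = ⟨w, hw⟩ := Subtype.ext h1.symm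
      rw [zpow_sub, zpow_one, h3, mul_inv_cancel]
    have h3 : (p : ℤ) ∣ m ^ p ^ k - 1 := by
      have h3' := orderOf_dvd_iff_zpow_eq_one.mpr h2
      rwa [hord] at h3'
    have h4 : (m : ZMod p) = 1 := by
      have h5 : ((m ^ p ^ k - 1 : ℤ) : ZMod p) = 0 :=
        (ZMod.intCast_zmod_eq_zero_iff_dvd _ p).mpr h3
      push_cast at h5
      rw [ZMod.pow_card_pow] at h5
      exact sub_eq_zero.mp h5
    have h6 : (p : ℤ) ∣ m - 1 := by
      apply (ZMod.intCast_zmod_eq_zero_iff_dvd _ p).mp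
      push_cast
      rw [h4, sub_self]
    have h7 : (⟨w, hw⟩ : R) ^ (m - 1) = 1 := by
      apply orderOf_dvd_iff_zpow_eq_one.mp
      rw [hord]
      exact h6
    have h8 : σ ⟨w, hw⟩ = ⟨w, hw⟩ := by
      rw [hm]
      have h9 : m = (m - 1) + 1 := by ring
      rw [h9, zpow_add, h7, one_mul, zpow_one]
    exact congrArg Subtype.val h8

variable {G : Type u} [Group G] [Finite G]

theorem derU : StDerU G := by
  intro p _ S U hS hUS hnorm hU hcard
  obtain ⟨hUc, hUexp⟩ := hU
  have hconj : ∀ s ∈ S, ∀ u ∈ U, s * u * s⁻¹ ∈ U := fun s hs u hu =>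
    (mem_normalizer_iff.mp (hnorm hs) u).mp hu
  have hUcomm : ∀ a ∈ U, ∀ b ∈ U, a * b = b * a := by
    intro a ha b hb
    have := hUc.is_comm.comm (⟨a, ha⟩ : U) ⟨b, hb⟩
    exact congrArg Subtype.val this
  have hSpow : ∀ s ∈ S, ∃ k : ℕ, s ^ p ^ k = 1 := by
    intro s hs
    obtain ⟨k, hk⟩ := hS ⟨s, hs⟩
    exact ⟨k, congrArg Subtype.val hk⟩
  have hp : p.Prime := Fact.out
  have hUne : U ≠ ⊥ := by
    intro h
    rw [h, Subgroup.card_bot] at hcard
    have : 1 < p ^ 2 := Nat.one_lt_pow (by norm_num) hp.one_lt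
    omega
  obtain ⟨z, hzU, hz1, hzc⟩ := exists_central_aux S U hS hUS hconj hUne
  have hzZ : z ∈ U ⊓ centralizer (S : Set G) :=
    ⟨hzU, mem_centralizer_iff.mpr fun g hg => hzc g hg⟩
  have key : ∀ s ∈ S, ∀ u ∈ U, s * u * s⁻¹ * u⁻¹ ∈ U ⊓ centralizer (S : Set G) := by
    intro s hs u hu
    by_cases hZU : U ⊓ centralizer (S : Set G) = U
    · have hu' : u ∈ centralizer (S : Set G) := by
        rw [← hZU] at hu
        exact hu.2
      have h1 : s * u = u * s := (mem_centralizer_iff.mp hu') s hs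
      have h2 : s * u * s⁻¹ * u⁻¹ = 1 := by
        rw [h1]
        group
      rw [h2]
      exact one_mem _
    · have hZle : U ⊓ centralizer (S : Set G) ≤ U := inf_le_left
      have hcardZ : Nat.card ↥(U ⊓ centralizer (S : Set G)) = p := by
        have hdvd : Nat.card ↥(U ⊓ centralizer (S : Set G)) ∣ p ^ 2 :=
          hcard ▸ Subgroup.card_dvd_of_le hZle
        obtain ⟨i, hi, hZi⟩ := (Nat.dvd_prime_pow hp).mp hdvd
        have hi0 : i ≠ 0 := by
          rintro rfl
          rw [pow_zero] at hZi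
          have h1 := Subgroup.card_eq_one.mp hZi
          rw [h1, mem_bot] at hzZ
          exact hz1 hzZ
        have hi2 : i ≠ 2 := by
          rintro rfl
          apply hZU
          exact Subgroup.eq_of_le_of_card_ge hZle (by rw [hZi, hcard])
        have hi1 : i = 1 := by omega
        rw [hZi, hi1, pow_one]
      let ψ : U →* U :=
        { toFun := fun u => ⟨s * u * s⁻¹ * (u : G)⁻¹,
            U.mul_mem (hconj s hs u u.2) (U.inv_mem u.2)⟩
          map_one' := by
            apply Subtype.ext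
            simp
          map_mul' := by
            intro a b
            apply Subtype.ext
            show s * ((a : G) * (b : G)) * s⁻¹ * ((a : G) * (b : G))⁻¹ =
              (s * a * s⁻¹ * (a : G)⁻¹) * (s * b * s⁻¹ * (b : G)⁻¹)
            have hc := hUcomm _ (U.inv_mem a.2) _
              (U.mul_mem (hconj s hs b b.2) (U.inv_mem b.2))
            calc s * ((a : G) * (b : G)) * s⁻¹ * ((a : G) * (b : G))⁻¹
                = s * a * s⁻¹ * ((s * b * s⁻¹ * (b : G)⁻¹) * (a : G)⁻¹) := by group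
              _ = s * a * s⁻¹ * ((a : G)⁻¹ * (s * b * s⁻¹ * (b : G)⁻¹)) := by rw [hc]
              _ = (s * a * s⁻¹ * (a : G)⁻¹) * (s * b * s⁻¹ * (b : G)⁻¹) := by group }
      have hψ : ∀ u : U, ((ψ u : U) : G) = s * u * s⁻¹ * (u : G)⁻¹ := fun u => rfl
      have hKR : Nat.card ψ.ker * Nat.card ψ.range = p ^ 2 := by
        rw [← hcard, ← Subgroup.index_ker]
        exact Subgroup.card_mul_index _
      have hZK : (U ⊓ centralizer (S : Set G)).subgroupOf U ≤ ψ.ker := by
        intro w hw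
        rw [mem_subgroupOf] at hw
        rw [MonoidHom.mem_ker]
        apply Subtype.ext
        rw [hψ]
        have h1 : s * (w : G) = w * s := (mem_centralizer_iff.mp hw.2) s hs
        rw [h1]
        simp
      have hcardZ' : Nat.card ((U ⊓ centralizer (S : Set G)).subgroupOf U) = p := by
        rw [← hcardZ]
        exact Nat.card_congr (Subgroup.subgroupOfEquivOfLe hZle).toEquiv
      have hpK : p ∣ Nat.card ψ.ker := hcardZ' ▸ Subgroup.card_dvd_of_le hZK
      have hRdvd : Nat.card ψ.range ∣ p := by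
        obtain ⟨c, hc⟩ := hpK
        rw [hc, pow_two, mul_assoc] at hKR
        have := Nat.eq_of_mul_eq_mul_left hp.pos hKR
        exact Dvd.intro_left _ this
      rcases (Nat.dvd_prime hp).mp hRdvd with hR1 | hRp
      · have hbot : ψ.range = ⊥ := Subgroup.card_eq_one.mp hR1
        have h1 : ψ ⟨u, hu⟩ = 1 := by
          have h1 : ψ ⟨u, hu⟩ ∈ ψ.range := ⟨_, rfl⟩
          rwa [hbot, mem_bot] at h1
        have h2 := congrArg Subtype.val h1
        rw [hψ] at h2
        have h3 : s * u * s⁻¹ * u⁻¹ = 1 := h2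
        rw [h3]
        exact one_mem _
      · have hKp : Nat.card ψ.ker = p := by
          rw [hRp, pow_two] at hKR
          exact Nat.eq_of_mul_eq_mul_right hp.pos hKR
        have hKeq : (U ⊓ centralizer (S : Set G)).subgroupOf U = ψ.ker :=
          Subgroup.eq_of_le_of_card_ge hZK (by rw [hKp, hcardZ'])
        obtain ⟨k, hk⟩ := hSpow s hs
        have hR'card : Nat.card (ψ.range.map U.subtype) = p := by
          rw [Subgroup.card_map_of_injective U.subtype_injective]
          exact hRp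
        have hR'norm : ∀ w ∈ ψ.range.map U.subtype, s * w * s⁻¹ ∈ ψ.range.map U.subtype := by
          rintro _ ⟨w, hw, rfl⟩
          refine ⟨ψ w * w, ψ.range.mul_mem ⟨w, rfl⟩ hw, ?_⟩
          show ((ψ w : U) : G) * (w : G) = s * (w : G) * s⁻¹
          rw [hψ]
          group
        have hfix := conj_eq_of_card_prime s k hk _ hR'card hR'norm
        have h1 : ((ψ ⟨u, hu⟩ : U) : G) ∈ ψ.range.map U.subtype :=
          ⟨ψ ⟨u, hu⟩, ⟨_, rfl⟩, rfl⟩
        have h2 := hfix _ h1
        have h3 : ψ ⟨u, hu⟩ ∈ ψ.ker := by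
          rw [MonoidHom.mem_ker]
          apply Subtype.ext
          rw [hψ, h2]
          simp
        rw [← hKeq, mem_subgroupOf] at h3
        exact h3
  rw [Subgroup.commutator_le]
  intro a ha b hb
  rw [mem_centralizer_iff]
  intro u hu
  have hstar : ∀ a ∈ S, ∀ b ∈ S, a * b * u * b⁻¹ * a⁻¹ = b * a * u * a⁻¹ * b⁻¹ := by
    intro a ha b hb
    have hca := key a ha u hu
    have hcb := key b hb u hu
    have h1 : a * (b * u * b⁻¹ * u⁻¹) = (b * u * b⁻¹ * u⁻¹) * a :=
      (mem_centralizer_iff.mp hcb.2) a ha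
    have h2 : b * (a * u * a⁻¹ * u⁻¹) = (a * u * a⁻¹ * u⁻¹) * b :=
      (mem_centralizer_iff.mp hca.2) b hb
    have h3 : (a * u * a⁻¹ * u⁻¹) * (b * u * b⁻¹ * u⁻¹) =
        (b * u * b⁻¹ * u⁻¹) * (a * u * a⁻¹ * u⁻¹) := hUcomm _ hca.1 _ hcb.1
    calc a * b * u * b⁻¹ * a⁻¹ = (a * (b * u * b⁻¹ * u⁻¹)) * u * a⁻¹ := by group
      _ = (b * u * b⁻¹ * u⁻¹) * a * u * a⁻¹ := by rw [h1]
      _ = (b * u * b⁻¹ * u⁻¹) * (a * u * a⁻¹ * u⁻¹) * u := by group
      _ = (a * u * a⁻¹ * u⁻¹) * (b * u * b⁻¹ * u⁻¹) * u := by rw [h3]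
      _ = (b * (a * u * a⁻¹ * u⁻¹)) * u * b⁻¹ := by
          rw [h2]
          group
      _ = b * a * u * a⁻¹ * b⁻¹ := by group
  have h := hstar a⁻¹ (S.inv_mem ha) b⁻¹ (S.inv_mem hb)
  simp only [inv_inv] at h
  show u * (a * b * a⁻¹ * b⁻¹) = (a * b * a⁻¹ * b⁻¹) * u
  calc u * (a * b * a⁻¹ * b⁻¹) = a * b * (b⁻¹ * a⁻¹ * u * a * b) * a⁻¹ * b⁻¹ := by group
    _ = a * b * (a⁻¹ * b⁻¹ * u * b * a) * a⁻¹ * b⁻¹ := by rw [h]
    _ = (a * b * a⁻¹ * b⁻¹) * u := by group

example : StDerU G := derU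

end Cfsg.Agent.H69.BG12T
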