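import Mathlib
import Cfsg.Agent.Lib.Helper30.BG12TDefs

/-!
BG12T-FOC piece (helper30's team project, S1423): if `H` has a normal `p`-complement and `T` is
a Sylow `p`-subgroup of `H`, every `p`-subgroup of `H'` is `H`-conjugate into `T'`.
-/

set_option autoImplicit false

namespace Cfsg.Agent.H69.BG12T

open Cfsg Subgroup Cfsg.Agent.Lib.Helper30.BG12T

open scoped commutatorElement

universe u

/-- The focal subgroup statement in a group with a normal `p`-complement. -/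
theorem foc_aux {K : Type u} [Group K] [Finite K] {p : ℕ} [Fact p.Prime]
    (h : HasNormalPComplement p K) (T X : Subgroup K) (hT : IsPGroup p T)
    (hTi : ¬ p ∣ T.index) (hX : X ≤ commutator K) (hXp : IsPGroup p X) :
    ∃ g : K, ∀ x ∈ X, g * x * g⁻¹ ∈ ⁅T, T⁆ := by
  obtain ⟨P, N, hNn, hcompl⟩ := h
  have hp : p.Prime := Fact.out
  have hNcard : ¬ p ∣ Nat.card N := by
    rw [← hcompl.index_eq_card]
    exact P.not_dvd_index
  let Q : Sylow p K := hT.toSylow hTi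
  have hQ : (Q : Subgroup K) = T := rfl
  have hcardT : Nat.card T = Nat.card P := by
    have h1 := Q.card_eq_multiplicity
    have h2 := P.card_eq_multiplicity
    rw [h2]
    exact h1
  have hmul : Nat.card N * Nat.card T = Nat.card K := by
    rw [hcardT]
    exact hcompl.card_mul_card
  have hcop : Nat.Coprime (Nat.card N) (Nat.card T) := by
    obtain ⟨k, hk⟩ := IsPGroup.iff_card.mp hT
    rw [hk]
    exact Nat.Coprime.pow_right k ((Nat.Prime.coprime_iff_not_dvd hp).mpr hNcard).symm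
  have hc' : IsComplement' N T := isComplement'_of_coprime hmul hcop
  have hTK : ⁅T, T⁆ ≤ T := by
    rw [Subgroup.commutator_le]
    intro a ha b hb
    rw [commutatorElement_def]
    exact T.mul_mem (T.mul_mem (T.mul_mem ha hb) (T.inv_mem ha)) (T.inv_mem hb)
  have hcomm : commutator K ≤ N ⊔ ⁅T, T⁆ := by
    rw [commutator_def, Subgroup.commutator_le]
    intro x _ y _
    obtain ⟨⟨⟨n₁, hn₁⟩, ⟨t₁, ht₁⟩⟩, rfl⟩ := hc'.2 x
    obtain ⟨⟨⟨n₂, hn₂⟩, ⟨t₂, ht₂⟩⟩, rfl⟩ := hc'.2 y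
    show ⁅n₁ * t₁, n₂ * t₂⁆ ∈ N ⊔ ⁅T, T⁆
    have hq : (QuotientGroup.mk' N) (⁅n₁ * t₁, n₂ * t₂⁆ * ⁅t₁, t₂⁆⁻¹) = 1 := by
      have e1 : (QuotientGroup.mk' N) n₁ = 1 := (QuotientGroup.eq_one_iff n₁).mpr hn₁
      have e2 : (QuotientGroup.mk' N) n₂ = 1 := (QuotientGroup.eq_one_iff n₂).mpr hn₂
      simp only [map_mul, map_inv, map_commutatorElement, e1, e2, one_mul, mul_inv_cancel]
    have hmem : ⁅n₁ * t₁, n₂ * t₂⁆ * ⁅t₁, t₂⁆⁻¹ ∈ N := (QuotientGroup.eq_one_iff _).mp hq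
    have e3 : ⁅n₁ * t₁, n₂ * t₂⁆ = (⁅n₁ * t₁, n₂ * t₂⁆ * ⁅t₁, t₂⁆⁻¹) * ⁅t₁, t₂⁆ := by group
    rw [e3]
    exact (N ⊔ ⁅T, T⁆).mul_mem (mem_sup_left hmem)
      (mem_sup_right (commutator_mem_commutator ht₁ ht₂))
  have hinter : ∀ x ∈ T, x ∈ N ⊔ ⁅T, T⁆ → x ∈ ⁅T, T⁆ := by
    intro x hxT hx
    have hx' : x ∈ ((N ⊔ ⁅T, T⁆ : Subgroup K) : Set K) := hx
    rw [Subgroup.normal_mul] at hx'
    obtain ⟨n, hn, c, hc, hnc⟩ := hx'
    have hnc' : n * c = x := hnc
    have hnT : n ∈ T := by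
      have e : n = x * c⁻¹ := by
        rw [← hnc']
        group
      rw [e]
      exact T.mul_mem hxT (T.inv_mem (hTK hc))
    have hn1 : n = 1 := (Subgroup.disjoint_def.mp hc'.disjoint) hn hnT
    rw [← hnc', hn1, one_mul]
    exact hc
  obtain ⟨Q₁, hXQ₁⟩ := hXp.exists_le_sylow
  obtain ⟨g, hg⟩ := MulAction.exists_smul_eq K Q₁ Q
  refine ⟨g, fun x hx => ?_⟩
  have h1 : g * x * g⁻¹ ∈ T := by
    have h2 : g * x * g⁻¹ ∈ ((g • Q₁ : Sylow p K) : Subgroup K) := by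
      rw [Sylow.coe_subgroup_smul, Subgroup.pointwise_smul_def]
      exact ⟨x, hXQ₁ hx, rfl⟩
    rw [hg] at h2
    exact h2
  have h2 : g * x * g⁻¹ ∈ commutator K :=
    (inferInstance : (commutator K).Normal).conj_mem x (hX hx) g
  exact hinter _ h1 (hcomm h2)

variable {G : Type u} [Group G] [Finite G]

theorem foc : StFoc G := by
  intro p _ H T X hH hTH hT hTi hX hXp
  have hHH : ⁅H, H⁆ ≤ H := by
    rw [Subgroup.commutator_le]
    intro a ha b hb
    rw [commutatorElement_def]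
    exact H.mul_mem (H.mul_mem (H.mul_mem ha hb) (H.inv_mem ha)) (H.inv_mem hb)
  have hXH : X ≤ H := hX.trans hHH
  have hT' : IsPGroup p (T.subgroupOf H) := hT.comap_subtype
  have hTi' : ¬ p ∣ (T.subgroupOf H).index := hTi
  have hX' : X.subgroupOf H ≤ commutator ↥H := by
    intro x hx
    rw [mem_subgroupOf] at hx
    have h1 := hX hx
    have h2 : ⁅H, H⁆ = (commutator ↥H).map H.subtype := by
      rw [commutator_def, Subgroup.map_commutator, ← MonoidHom.range_eq_map,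
        Subgroup.range_subtype]
    rw [h2] at h1
    obtain ⟨y, hy, hyx⟩ := h1
    have e : y = x := Subtype.ext hyx
    rw [← e]
    exact hy
  have hXp' : IsPGroup p (X.subgroupOf H) := hXp.comap_subtype
  obtain ⟨g, hg⟩ := foc_aux hH (T.subgroupOf H) (X.subgroupOf H) hT' hTi' hX' hXp'
  refine ⟨g.1, g.2, ?_⟩
  rintro _ ⟨x, hx, rfl⟩
  have h1 := hg ⟨x, hXH hx⟩ (mem_subgroupOf.mpr hx)
  have h2 : (⁅T.subgroupOf H, T.subgroupOf H⁆).map H.subtype = ⁅T, T⁆ := by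
    rw [Subgroup.map_commutator, Subgroup.map_subgroupOf_eq_of_le hTH]
  rw [← h2]
  exact ⟨_, h1, rfl⟩

example : StFoc G := foc

end Cfsg.Agent.H69.BG12T
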