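import Mathlib
import Cfsg.Agent.H77.TpDefs
import Cfsg.Agent.H42.AltRank

/-!
# S5980-PARITY (piece for helper77)

An orthogonal matrix of odd order moves an even-dimensional space.
-/

set_option autoImplicit false
open scoped MatrixGroups
open scoped Matrix
open scoped Kronecker

namespace Cfsg.Agent.H69.Tp

universe u

theorem parity : Cfsg.Agent.H77.Tp.StParity.{u} := by
  intro F _ b G Y r hG hGu hY hr hYr
  obtain ⟨k, rfl⟩ := hr
  have hYi : Y * Y ^ (2 * k) = 1 := by rw [← pow_succ', hYr]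
  have hYi' : Y ^ (2 * k) * Y = 1 := by rw [← pow_succ, hYr]
  have hYu : IsUnit Y.det := by
    have h1 : IsUnit Y := IsUnit.of_mul_eq_one _ hYi
    exact (Matrix.isUnit_iff_isUnit_det Y).mp h1
  have hGYi : G * Y ^ (2 * k) = Yᵀ * G := by
    calc G * Y ^ (2 * k) = (Yᵀ * G * Y) * Y ^ (2 * k) := by rw [hY]
      _ = Yᵀ * G * (Y * Y ^ (2 * k)) := by rw [Matrix.mul_assoc]
      _ = Yᵀ * G := by rw [hYi, Matrix.mul_one]
  have hΩ1 : G * (Y - Y ^ (2 * k)) = G * Y - (G * Y)ᵀ := by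
    rw [Matrix.mul_sub, hGYi, Matrix.transpose_mul, hG]
  have halt : ∀ x : Fin b → F, x ⬝ᵥ (G * (Y - Y ^ (2 * k))) *ᵥ x = 0 := by
    intro x
    rw [hΩ1, Matrix.sub_mulVec, dotProduct_sub, Matrix.mulVec_transpose,
      dotProduct_comm x (x ᵥ* (G * Y)), ← Matrix.dotProduct_mulVec, sub_self]
  have hev := Cfsg.Agent.H42.even_rank_of_alt (G * (Y - Y ^ (2 * k))) halt
  have hΩY : G * (Y - Y ^ (2 * k)) * Y = G * (Y * Y - 1) := by
    rw [Matrix.mul_assoc, Matrix.sub_mul, hYi']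
  have h1 : (G * (Y - Y ^ (2 * k))).rank = (Y * Y - 1).rank := by
    rw [← Matrix.rank_mul_eq_left_of_isUnit_det Y (G * (Y - Y ^ (2 * k))) hYu, hΩY,
      Matrix.rank_mul_eq_right_of_isUnit_det G _ hGu]
  have h2 : (Y * Y - 1).rank = (Y - 1).rank := by
    apply le_antisymm
    · have h3 : Y * Y - 1 = (Y - 1) * (Y + 1) := by noncomm_ring
      rw [h3]; exact Matrix.rank_mul_le_left _ _
    · have h3 : Y - 1 = (Y * Y - 1) * ∑ i ∈ Finset.range (k + 1), (Y * Y) ^ i := by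
        rw [mul_geom_sum, ← pow_two, ← pow_mul, show 2 * (k + 1) = (2 * k + 1) + 1 by ring,
          pow_succ, hYr, one_mul]
      calc (Y - 1).rank = ((Y * Y - 1) * ∑ i ∈ Finset.range (k + 1), (Y * Y) ^ i).rank := by
            rw [← h3]
        _ ≤ (Y * Y - 1).rank := Matrix.rank_mul_le_left _ _
  rw [← h2, ← h1]; exact hev

example : Cfsg.Agent.H77.Tp.StParity.{u} := parity

end Cfsg.Agent.H69.Tp
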