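import Mathlib
import Cfsg.Agent.H48.SPCDefs

/-!
SPC-DBMUL piece for S2676 (helper48's team project): the diagonal blocks are multiplicative
on the commutant of the nilpotent Jordan matrix.
-/

set_option autoImplicit false

namespace Cfsg.Agent.H69.SPC

open Finset Cfsg.Agent.H61 Cfsg.Agent.H48.SPC

universe u

theorem dbMul : DBMulStmt.{u} := by
  intro F _ t d hd g g' hg hg' i
  ext k l
  rw [Matrix.mul_apply]
  simp only [diagBlock, Matrix.of_apply]
  rw [Matrix.mul_apply]
  symm
  refine Finset.sum_of_injOn (fun l' : {k : Fin t // d k = i} => jtop hd l'.1) ?_ ?_ ?_ ?_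
  · intro a _ b _ hab
    have h1 : (jtop hd a.1).1 = (jtop hd b.1).1 := congrArg Sigma.fst hab
    exact Subtype.ext h1
  · intro a _
    exact Finset.mem_coe.mpr (Finset.mem_univ _)
  · intro y _ hy
    by_cases hy0 : y.2.val = 0
    · have hyt : y = jtop hd y.1 := by
        rw [JI_ext_iff]
        exact ⟨rfl, hy0⟩
      have hne : d y.1 ≠ i := by
        intro hdy
        apply hy
        refine ⟨⟨y.1, hdy⟩, Finset.mem_coe.mpr (Finset.mem_univ _), ?_⟩
        exact hyt.symm
      rcases lt_or_gt_of_ne hne with hlt | hgt
      · have hz : g (jtop hd k.1) (jtop hd y.1) = 0 := by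
          apply comm_apply_zero hd g hg
          have := k.2
          simp only [jtop_fst, jtop_snd]
          omega
        rw [hyt, hz, zero_mul]
      · have hz : g' (jtop hd y.1) (jtop hd l.1) = 0 := by
          apply comm_apply_zero hd g' hg'
          have := l.2
          simp only [jtop_fst, jtop_snd]
          omega
        rw [hyt, hz, mul_zero]
    · have hz : g (jtop hd k.1) y = 0 := by
        rw [comm_apply_eq hd g hg, if_neg]
        simp only [jtop_snd]
        omega
      rw [hz, zero_mul]
  · intro a _
    rfl

example : DBMulStmt.{u} := dbMul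

end Cfsg.Agent.H69.SPC
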