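import Mathlib
import Cfsg.Agent.H48.SPCDefs

/-!
SPC-LBSYM piece for S2676 (helper48's team project): the leading block of size class `i` of
an alternating skew-invariant form is `(-1)^i`-symmetric.
-/

set_option autoImplicit false

namespace Cfsg.Agent.H69.SPC

open Finset Cfsg.Agent.H61 Cfsg.Agent.H48.SPC

universe u

/-- Entries of `Nᵀ * A`. -/
theorem transNil_mul_apply {F : Type u} [Field F] {t : ℕ} {d : Fin t → ℕ}
    (A : Matrix (JI d) (JI d) F) (x y : JI d) :
    ((jordanNil d F).transpose * A) x y =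
      if h : x.2.val + 1 < d x.1 then A ⟨x.1, ⟨x.2.val + 1, h⟩⟩ y else 0 := by
  have h1 : (jordanNil d F).transpose * A = (A.transpose * jordanNil d F).transpose := by
    rw [Matrix.transpose_mul, Matrix.transpose_transpose]
  rw [h1, Matrix.transpose_apply, mul_jordanNil_apply]
  split_ifs with h
  · rfl
  · rfl

/-- Shifting along an anti-diagonal of a skew-invariant form. -/
theorem skew_shift {F : Type u} [Field F] {t : ℕ} {d : Fin t → ℕ}
    (A : Matrix (JI d) (JI d) F)
    (hA : (jordanNil d F).transpose * A = -(A * jordanNil d F)) (x' y' : JI d)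
    (hy' : y'.2.val = 0) (hx' : x'.2.val + 1 = d x'.1) :
    ∀ (b : ℕ) (x y : JI d), x.1 = x'.1 → y.1 = y'.1 → y.2.val = b →
      x.2.val + b + 1 = d x.1 → A x y = (-1 : F) ^ b * A x' y' := by
  intro b
  induction b with
  | zero =>
    intro x y hx hy hyb hxb
    have e1 : x = x' := by
      rw [JI_ext_iff]
      refine ⟨hx, ?_⟩
      have := congrArg d hx
      omega
    have e2 : y = y' := by
      rw [JI_ext_iff]
      exact ⟨hy, by omega⟩
    rw [e1, e2, pow_zero, one_mul]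
  | succ b ih =>
    intro x y hx hy hyb hxb
    have hyb' : b < d y.1 := by
      have := y.2.2
      omega
    have hxb' : x.2.val + 1 < d x.1 := by omega
    have h1 := congrFun (congrFun hA x) (⟨y.1, ⟨b, hyb'⟩⟩ : JI d)
    rw [transNil_mul_apply, Matrix.neg_apply, mul_jordanNil_apply] at h1
    have hyb2 : b + 1 < d y.1 := by
      have := y.2.2
      omega
    rw [dif_pos hxb', dif_pos (show (⟨y.1, ⟨b, hyb'⟩⟩ : JI d).2.val + 1 < d y.1 from hyb2)]
      at h1
    have e3 : (⟨y.1, ⟨b + 1, hyb2⟩⟩ : JI d) = y := by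
      rw [JI_ext_iff]
      exact ⟨rfl, hyb.symm⟩
    rw [e3] at h1
    have h2 := ih (⟨x.1, ⟨x.2.val + 1, hxb'⟩⟩ : JI d) (⟨y.1, ⟨b, hyb'⟩⟩ : JI d) hx hy rfl
      (by
        show x.2.val + 1 + b + 1 = d x.1
        omega)
    rw [h2] at h1
    have h3 : A x y = -((-1 : F) ^ b * A x' y') := by
      rw [h1, neg_neg]
    rw [h3, pow_succ]
    ring

theorem lbSym : LBSymStmt.{u} := by
  intro F _ t d hd A hAt hA i
  ext k l
  rw [Matrix.transpose_apply, Matrix.smul_apply, leadBlock_apply, leadBlock_apply, smul_eq_mul]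
  have hk := k.2
  have hl := l.2
  have hdk := hd k.1
  have hdl := hd l.1
  -- `A (l, i-1) (k, 0) = - A (k, 0) (l, i-1)`
  have h1 : A (⟨l.1, ⟨d l.1 - 1, by omega⟩⟩ : JI d) (jtop hd k.1) =
      -A (jtop hd k.1) (⟨l.1, ⟨d l.1 - 1, by omega⟩⟩ : JI d) := by
    have := congrFun (congrFun hAt (jtop hd k.1)) (⟨l.1, ⟨d l.1 - 1, by omega⟩⟩ : JI d)
    rw [Matrix.transpose_apply, Matrix.neg_apply] at this
    exact this
  have h2 := skew_shift A hA (⟨k.1, ⟨d k.1 - 1, by omega⟩⟩ : JI d) (jtop hd l.1) rfl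
    (by
      show d k.1 - 1 + 1 = d k.1
      omega) (d l.1 - 1) (jtop hd k.1) (⟨l.1, ⟨d l.1 - 1, by omega⟩⟩ : JI d) rfl rfl rfl
    (by
      show 0 + (d l.1 - 1) + 1 = d k.1
      omega)
  rw [h1, h2]
  have h3 : (-1 : F) ^ i = (-1 : F) ^ (d l.1 - 1) * (-1) := by
    rw [← pow_succ]
    congr 1
    omega
  rw [h3]
  ring

example : LBSymStmt.{u} := lbSym

end Cfsg.Agent.H69.SPC
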