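import Mathlib
import Cfsg.Prelude.Def_GeometricClasses

/-!
Team project S5970 (helper69): basic facts on field subalgebras of degree `n` of `n × n` matrices.
-/

set_option autoImplicit false
open scoped MatrixGroups
open Matrix

namespace Cfsg.Agent.H69.Singer

/-- Non-zero elements of a field subalgebra act injectively. -/
theorem mulVec_eq_zero {F : Type*} [Field F] {n r : ℕ} (K : Subalgebra F (Matrix (Fin n) (Fin n) F))
    (hK : Cfsg.Geo.IsFieldSubalgebra r K) (k : Matrix (Fin n) (Fin n) F) (hk : k ∈ K)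
    (hk0 : k ≠ 0) (v : Fin n → F) (hv : k *ᵥ v = 0) : v = 0 := by
  obtain ⟨y, hyK, hy⟩ := hK.inv _ hk hk0
  have hy' : y * k = 1 := by rw [hK.comm y hyK _ hk]; exact hy
  have h1 : (y * k) *ᵥ v = 0 := by
    rw [← Matrix.mulVec_mulVec, hv, Matrix.mulVec_zero]
  rwa [hy', Matrix.one_mulVec] at h1

/-- S5970-ORB -/
theorem exists_mulVec_eq {F : Type*} [Field F] {n : ℕ} (K : Subalgebra F (Matrix (Fin n) (Fin n) F))
    (hK : Cfsg.Geo.IsFieldSubalgebra n K) (v : Fin n → F) (hv : v ≠ 0) (w : Fin n → F) :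
    ∃ k ∈ K, k *ᵥ v = w := by
  let e : ↥K →ₗ[F] (Fin n → F) :=
    { toFun := fun k => (k : Matrix (Fin n) (Fin n) F) *ᵥ v
      map_add' := fun a b => by simp [Matrix.add_mulVec]
      map_smul' := fun c a => by simp [Matrix.smul_mulVec] }
  have hinj : Function.Injective e := by
    rw [← LinearMap.ker_eq_bot, LinearMap.ker_eq_bot']
    intro k hk
    by_contra hk0
    have hk0' : (k : Matrix (Fin n) (Fin n) F) ≠ 0 := fun h => hk0 (Subtype.ext h)
    exact hv (mulVec_eq_zero K hK _ k.2 hk0' v hk)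
  have hfr : Module.finrank F ↥K = Module.finrank F (Fin n → F) := by
    rw [hK.finrank_eq, Module.finrank_fin_fun]
  have hfd : FiniteDimensional F ↥K := by
    by_cases hn : n = 0
    · subst hn
      exfalso
      exact hv (Subsingleton.elim _ _)
    · exact Module.finite_of_finrank_pos (by rw [hK.finrank_eq]; omega)
  have hsurj : Function.Surjective e :=
    (LinearMap.injective_iff_surjective_of_finrank_eq_finrank hfr).mp hinj
  obtain ⟨k, hk⟩ := hsurj w
  exact ⟨k, k.2, hk⟩

end Cfsg.Agent.H69.Singer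

section VerbatimChecks
open Cfsg.Agent.H69.Singer

example {F : Type*} [Field F] {n : ℕ} (K : Subalgebra F (Matrix (Fin n) (Fin n) F))
    (hK : Cfsg.Geo.IsFieldSubalgebra n K) (v : Fin n → F) (hv : v ≠ 0) (w : Fin n → F) :
    ∃ k ∈ K, k *ᵥ v = w :=
  exists_mulVec_eq K hK v hv w

end VerbatimChecks
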