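import Mathlib
import Cfsg.Agent.H38.BG161Defs

/-!
# S1421-BASIC (piece for helper38)

Basic facts in the setting `AbS` of B&G Lemma 16.1, Case B, from S1417 and S1418.
-/

set_option autoImplicit false

namespace Cfsg.Agent.H69.BG161

open Cfsg Subgroup Cfsg.Agent.H58.BG10 Cfsg.Agent.H58.BG12 Cfsg.Agent.H38.BG161

universe u

variable {G : Type u} [Group G]

theorem basic [Finite G] (hG : IsMinSimpleOddOrder G) (h17 : St1417 G) (h18 : St1418 G) :
    StBasic G := by
  intro M E S A p _ h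
  have hpp : p.Prime := Fact.out
  have hEM : E ≤ M := h.compl.1
  have hAE : A ≤ E := h.AS.trans h.le
  have hAM : A ≤ M := hAE.trans hEM
  have hSM : S ≤ M := h.le.trans hEM
  obtain ⟨_, hSyl, _, _, _, hA1⟩ := h17 M h.coatom p h.tau A ⟨hAM, h.elem, h.card⟩
  obtain ⟨⟨hEnA, _⟩, ⟨hCA, hMNA, _⟩, hX⟩ :=
    h18 M h.coatom E h.compl p h.tau A ⟨hAE, h.elem, h.card⟩
  obtain ⟨P0, hP0⟩ := h.syl
  have hP0M : (P0 : Subgroup G) ≤ M := hP0 ▸ hSM
  have hPS : (((P0.subtype hP0M : Sylow p M) : Subgroup M).map M.subtype : Subgroup G) = S := by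
    rw [Sylow.coe_subtype, Subgroup.map_subgroupOf_eq_of_le hP0M, hP0]
  obtain ⟨_, hPA⟩ := hSyl (P0.subtype hP0M)
  rw [hPS] at hPA
  obtain ⟨hOm, hNS⟩ := hPA h.AS
  have h1 : ∀ s ∈ S, s ^ p = 1 → s ∈ A := fun s hs hsp => (hOm s hs).mp hsp
  have h4 : normalizer (S : Set G) ≤ normalizer (A : Set G) := by
    have key : ∀ g ∈ normalizer (S : Set G), ∀ a ∈ A, g * a * g⁻¹ ∈ A := by
      intro g hg a ha
      have haS : a ∈ S := h.AS ha
      have h2 : g * a * g⁻¹ ∈ S := (mem_normalizer_iff.mp hg a).mp haS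
      apply h1 _ h2
      rw [conj_pow, h.elem.2 a ha, mul_one, mul_inv_cancel]
    intro g hg
    rw [mem_normalizer_iff]
    intro a
    refine ⟨fun ha => key g hg a ha, fun ha => ?_⟩
    have h3 := key g⁻¹ (inv_mem hg) _ ha
    simpa [mul_assoc] using h3
  refine ⟨h1, hCA.trans (le_of_eq hMNA), hEnA, h4, ?_, hA1⟩
  intro X hXA' hXc hNX
  by_contra hne
  obtain ⟨_, huniq⟩ := hX X hXA' hXc hne
  have hX1 : X ≠ ⊥ := by
    intro h0
    rw [h0, Subgroup.card_bot] at hXc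
    exact hpp.one_lt.ne hXc
  have hXtop : X ≠ ⊤ := by
    intro h0
    have h5 : M = ⊤ := top_le_iff.mp (h0 ▸ hXA'.trans hAM)
    exact h.coatom.1 h5
  have hNtop : normalizer (X : Set G) ≠ ⊤ := by
    intro h0
    have hs : IsSimpleGroup G := hG.2.1
    have hn : X.Normal := Subgroup.normalizer_eq_top_iff.mp h0
    rcases hn.eq_bot_or_eq_top with h5 | h5
    · exact hX1 h5
    · exact hXtop h5
  obtain ⟨L, hL, hNL⟩ :=
    (eq_top_or_exists_le_coatom (normalizer (X : Set G))).resolve_left hNtop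
  have hLM : L = M := huniq L hL ((Subgroup.centralizer_le_normalizer _).trans hNL)
  exact hNS (hNX.trans (hLM ▸ hNL))

example [Finite G] (hG : IsMinSimpleOddOrder G) (h17 : St1417 G) (h18 : St1418 G) :
    Cfsg.Agent.H38.BG161.StBasic G := basic hG h17 h18

end Cfsg.Agent.H69.BG161
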