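import Mathlib
import Cfsg.Agent.H38.BG161Defs
import Cfsg.Agent.S1450
import Cfsg.Agent.H14.Cores

/-!
# S1421-WAB (piece for helper38)

In the setting `AbS` of B&G Lemma 16.1, Case B: `N_G(S)/C_G(S)` is abelian
(S1450 applied to `N_G(S)`).
-/

set_option autoImplicit false

namespace Cfsg.Agent.H69.BG161

open Cfsg Subgroup Cfsg.Agent.H58.BG10 Cfsg.Agent.H58.BG12 Cfsg.Agent.H38.BG161
open scoped commutatorElement Pointwise

universe u

variable {G : Type u} [Group G]

/-- If `M` contains a Sylow `p`-subgroup of `G` and has `p`-rank at most `k`, then every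
elementary abelian `p`-subgroup of `G` has order at most `p ^ k`. -/
theorem wab_prank_transfer [Finite G] {p k : ℕ} [Fact p.Prime] (P : Sylow p G) (M : Subgroup G)
    (hPM : (P : Subgroup G) ≤ M) (hr : PRankLE p k ↥M) (B : Subgroup G)
    (hBc : ∀ a ∈ B, ∀ b ∈ B, a * b = b * a) (hBp : ∀ b ∈ B, b ^ p = 1) :
    Nat.card B ≤ p ^ k := by
  have hBpg : IsPGroup p B := by
    intro b
    exact ⟨1, Subtype.ext (by rw [pow_one, Subgroup.coe_pow]; exact hBp b b.2)⟩
  obtain ⟨Q, hQ⟩ := hBpg.exists_le_sylow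
  obtain ⟨g, hg⟩ := MulAction.exists_smul_eq G Q P
  have hconj : ∀ b ∈ B, g * b * g⁻¹ ∈ M := by
    intro b hb
    have h1 : MulAut.conj g • b ∈ MulAut.conj g • (Q : Subgroup G) :=
      Subgroup.smul_mem_pointwise_smul b (MulAut.conj g) Q (hQ hb)
    rw [← Sylow.coe_subgroup_smul, hg] at h1
    exact hPM h1
  let f : ↥B →* ↥M :=
    { toFun := fun b => ⟨g * b * g⁻¹, hconj b b.2⟩
      map_one' := by ext; simp
      map_mul' := by intro a b; ext; simp [mul_assoc] }
  have hf : Function.Injective f := by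
    intro a b hab
    have h1 : g * (a : G) * g⁻¹ = g * (b : G) * g⁻¹ := congrArg Subtype.val hab
    exact Subtype.ext (by simpa using h1)
  have hcard : Nat.card f.range = Nat.card B :=
    (Nat.card_congr (MonoidHom.ofInjective hf).toEquiv).symm
  rw [← hcard]
  apply hr
  · refine ⟨⟨?_⟩⟩
    rintro ⟨_, a, rfl⟩ ⟨_, b, rfl⟩
    apply Subtype.ext
    show f a * f b = f b * f a
    rw [← map_mul, ← map_mul]
    congr 1
    exact Subtype.ext (hBc a a.2 b b.2)
  · rintro _ ⟨a, rfl⟩
    rw [← map_pow]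
    have h1 : a ^ p = 1 := Subtype.ext (by rw [Subgroup.coe_pow]; exact hBp a a.2)
    rw [h1, map_one]

/-- In a finite group with a normal abelian Sylow `p`-subgroup `S`, `O_{p',p}` centralizes
`S`. -/
theorem wab_core {W : Type u} [Group W] [Finite W] (p : ℕ) [Fact p.Prime] (S : Subgroup W)
    [S.Normal] (hSp : IsPGroup p S) (hSi : ¬ p ∣ S.index)
    (hSc : ∀ a ∈ S, ∀ b ∈ S, a * b = b * a) :
    pPrimePCore p W ≤ centralizer (S : Set W) := by
  have hpp : p.Prime := Fact.out
  have hKn : (pPrimeCore p W).Normal := Cfsg.Agent.H14.pPrimeCore_normal p W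
  have hKc : (Nat.card (pPrimeCore p W)).Coprime p := Cfsg.Agent.H14.pPrimeCore_coprime p W
  have h1 : pPrimeCore p W ≤ centralizer (S : Set W) := by
    rw [← Subgroup.commutator_eq_bot_iff_le_centralizer, eq_bot_iff]
    refine (Subgroup.commutator_le_inf _ _).trans ?_
    obtain ⟨n, hn⟩ := IsPGroup.iff_card.mp hSp
    have hdis : Disjoint (pPrimeCore p W) S :=
      Subgroup.disjoint_of_coprime_natCard (by rw [hn]; exact Nat.Coprime.pow_right n hKc)
    exact le_of_eq hdis.eq_bot
  have h2 : S ≤ centralizer (S : Set W) := by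
    intro a ha
    rw [Subgroup.mem_centralizer_iff]
    intro b hb
    exact hSc b hb a ha
  have h3 : pPrimePCore p W ≤ pPrimeCore p W ⊔ S := by
    intro x hx
    have hx' : (QuotientGroup.mk' (pPrimeCore p W)) x ∈ pCore p (W ⧸ pPrimeCore p W) := hx
    obtain ⟨k, hk⟩ := (Cfsg.Agent.H14.pCore_isPGroup p (W ⧸ pPrimeCore p W)) ⟨_, hx'⟩
    have hk' : ((QuotientGroup.mk' (pPrimeCore p W)) x) ^ (p ^ k) = 1 := by
      have h4 := congrArg Subtype.val hk
      simpa using h4
    have hxK : x ^ (p ^ k) ∈ pPrimeCore p W := by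
      rw [← QuotientGroup.eq_one_iff, ← hk']
      rfl
    have hTi : ((pPrimeCore p W ⊔ S).index).Coprime p := by
      have hd : (pPrimeCore p W ⊔ S).index ∣ S.index := Subgroup.index_dvd_of_le le_sup_right
      have h5 : ¬ p ∣ (pPrimeCore p W ⊔ S).index := fun h => hSi (h.trans hd)
      exact ((Nat.Prime.coprime_iff_not_dvd hpp).mpr h5).symm
    rw [← QuotientGroup.eq_one_iff (N := pPrimeCore p W ⊔ S)]
    have e1 : ((x : W ⧸ (pPrimeCore p W ⊔ S))) ^ (p ^ k) = 1 := by
      rw [← QuotientGroup.mk_pow, QuotientGroup.eq_one_iff]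
      exact le_sup_left (a := pPrimeCore p W) hxK
    have e2 : orderOf (x : W ⧸ (pPrimeCore p W ⊔ S)) ∣ p ^ k := orderOf_dvd_of_pow_eq_one e1
    have e3 : orderOf (x : W ⧸ (pPrimeCore p W ⊔ S)) ∣ (pPrimeCore p W ⊔ S).index := by
      rw [Subgroup.index_eq_card]
      exact orderOf_dvd_natCard _
    have hc : Nat.gcd (pPrimeCore p W ⊔ S).index (p ^ k) = 1 := Nat.Coprime.pow_right k hTi
    have e4 : orderOf (x : W ⧸ (pPrimeCore p W ⊔ S)) = 1 :=
      Nat.dvd_one.mp (hc ▸ Nat.dvd_gcd e3 e2)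
    exact orderOf_eq_one_iff.mp e4
  exact h3.trans (sup_le h1 h2)

theorem wab [Finite G] (hG : IsMinSimpleOddOrder G) : StWAb G := by
  intro M E S A p _ h w hw w' hw'
  have hpp : p.Prime := Fact.out
  have hEM : E ≤ M := h.compl.1
  have hSM : S ≤ M := h.le.trans hEM
  obtain ⟨P0, hP0⟩ := h.syl
  have hP0M : (P0 : Subgroup G) ≤ M := hP0 ▸ hSM
  have hSpg : IsPGroup p S := hP0 ▸ P0.isPGroup'
  have hcardA : Nat.card A = p ^ 2 := h.card
  have hS1 : S ≠ ⊥ := by
    intro h0
    have hA0 : A = ⊥ := le_bot_iff.mp (h0 ▸ h.AS)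
    rw [hA0, Subgroup.card_bot] at hcardA
    have h5 : 1 < p ^ 2 := Nat.one_lt_pow (by norm_num) hpp.one_lt
    omega
  have hStop : S ≠ ⊤ := by
    intro h0
    exact h.coatom.1 (top_le_iff.mp (h0 ▸ hSM))
  have hWtop : normalizer (S : Set G) ≠ ⊤ := by
    intro h0
    have hs : IsSimpleGroup G := hG.2.1
    have hn : S.Normal := Subgroup.normalizer_eq_top_iff.mp h0
    rcases hn.eq_bot_or_eq_top with h5 | h5
    · exact hS1 h5
    · exact hStop h5
  have hsolv : Group.IsSolvable ↥(normalizer (S : Set G)) := hG.2.2.2 _ hWtop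
  have hodd : Odd (Nat.card ↥(normalizer (S : Set G))) := by
    obtain ⟨k, hk⟩ := Subgroup.card_subgroup_dvd_card (normalizer (S : Set G))
    have h' := hG.1
    rw [hk] at h'
    exact (Nat.odd_mul.mp h').1
  have hpW : p ∣ Nat.card ↥(normalizer (S : Set G)) := by
    have h1 : Nat.card A ∣ Nat.card ↥(normalizer (S : Set G)) :=
      Subgroup.card_dvd_of_le (h.AS.trans Subgroup.le_normalizer)
    rw [hcardA] at h1
    exact (dvd_pow_self p (by norm_num)).trans h1
  have hrM : PRankLE p 2 ↥M := h.tau.2.2.1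
  have hrW : PRankLE p 2 ↥(normalizer (S : Set G)) := by
    intro B hBc hBp
    have hc : Nat.card (B.map (normalizer (S : Set G)).subtype) = Nat.card B :=
      Subgroup.card_map_of_injective (Subgroup.subtype_injective _)
    rw [← hc]
    apply wab_prank_transfer P0 M hP0M hrM
    · rintro _ ⟨a, ha, rfl⟩ _ ⟨b, hb, rfl⟩
      have h1 := hBc.is_comm.comm ⟨a, ha⟩ ⟨b, hb⟩
      have h2 := congrArg (fun z : B => ((z : ↥(normalizer (S : Set G))) : G)) h1
      simpa using h2
    · rintro _ ⟨a, ha, rfl⟩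
      have h1 := hBp a ha
      have h2 := congrArg (fun z : ↥(normalizer (S : Set G)) => (z : G)) h1
      simpa using h2
  obtain ⟨_, _, _, _, hcomm, _⟩ := Cfsg.Agent.S1450.result hodd p hpW hrW
  have hSWp : IsPGroup p (S.subgroupOf (normalizer (S : Set G))) := hSpg.comap_subtype
  have hSWi : ¬ p ∣ (S.subgroupOf (normalizer (S : Set G))).index := by
    intro hdvd
    have h1 : S.relIndex (normalizer (S : Set G)) ∣ S.index :=
      Dvd.intro _ (Subgroup.relIndex_mul_index Subgroup.le_normalizer)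
    have h2 : ¬ p ∣ (P0 : Subgroup G).index := P0.not_dvd_index
    rw [hP0] at h2
    exact h2 (hdvd.trans h1)
  have hSWc : ∀ a ∈ S.subgroupOf (normalizer (S : Set G)),
      ∀ b ∈ S.subgroupOf (normalizer (S : Set G)), a * b = b * a := by
    intro a ha b hb
    exact Subtype.ext (h.comm a ha b hb)
  have hcen := wab_core p (S.subgroupOf (normalizer (S : Set G))) hSWp hSWi hSWc
  have hmem : ⁅(⟨w, hw⟩ : ↥(normalizer (S : Set G))), (⟨w', hw'⟩ : ↥(normalizer (S : Set G)))⁆ ∈
      centralizer (↑(S.subgroupOf (normalizer (S : Set G))) : Set ↥(normalizer (S : Set G))) := by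
    apply hcen
    apply hcomm
    rw [commutator_def]
    exact Subgroup.commutator_mem_commutator (Subgroup.mem_top _) (Subgroup.mem_top _)
  rw [Subgroup.mem_centralizer_iff]
  intro s hs
  have h1 := (Subgroup.mem_centralizer_iff.mp hmem) ⟨s, Subgroup.le_normalizer hs⟩ hs
  have h2 := congrArg Subtype.val h1
  simpa [commutatorElement_def] using h2

example [Finite G] (hG : IsMinSimpleOddOrder G) : Cfsg.Agent.H38.BG161.StWAb G := wab hG

end Cfsg.Agent.H69.BG161
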