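import Mathlib

/-!
BRM-W1 piece (helper21's Brauer–Reynolds master theorem team project, S0996 / S4700):
the parameter `w` of type B equals `1`.
-/

set_option autoImplicit false

namespace Cfsg.Agent.H69.BR

theorem w_eq_one (p e t w n a : ℕ) (hp : p.Prime) (het : e * t = p - 1) (he2 : 2 ≤ e)
    (hw1 : 1 ≤ w) (hn : n + 1 = t * w) (hcard : w * (a * t + 1) = e - 1)
    (hdvd : (n + 1) * e ∣ p * (p - 1) * (w * p - e)) : w = 1 := by
  have hp2 := hp.two_le
  have hp1 : 0 < p - 1 := by omega
  have ht : 1 ≤ t := by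
    rcases Nat.eq_zero_or_pos t with h | h
    · rw [h, Nat.mul_zero] at het; omega
    · exact h
  have hep : e ≤ p - 1 := by rw [← het]; exact Nat.le_mul_of_pos_right e ht
  have h1 : (n + 1) * e = w * (p - 1) := by rw [hn, ← het]; ring
  rw [h1] at hdvd
  have h2 : w ∣ p * (w * p - e) := by
    have h3 : w * (p - 1) ∣ (p * (w * p - e)) * (p - 1) := by
      have h4 : p * (p - 1) * (w * p - e) = (p * (w * p - e)) * (p - 1) := by ring
      rw [← h4]; exact hdvd
    exact (Nat.mul_dvd_mul_iff_right hp1).mp h3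
  have hwp : e ≤ w * p := by
    have h5 : p ≤ w * p := Nat.le_mul_of_pos_left p hw1
    omega
  have h4 : w ∣ p * e := by
    have h5 : p * (w * p - e) + p * e = w * (p * p) := by
      have h6 : w * p - e + e = w * p := Nat.sub_add_cancel hwp
      calc p * (w * p - e) + p * e = p * (w * p - e + e) := by ring
        _ = p * (w * p) := by rw [h6]
        _ = w * (p * p) := by ring
    have h6 : w ∣ p * (w * p - e) + p * e := by rw [h5]; exact Dvd.intro _ rfl
    exact (Nat.dvd_add_right h2).mp h6
  have he : e = w * (a * t + 1) + 1 := by omega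
  have hcop : Nat.Coprime w e := by
    rw [he]
    exact (Nat.coprime_mul_left_add_right w 1 (a * t + 1)).mpr (Nat.coprime_one_right w)
  have h7 : w ∣ p := hcop.dvd_of_dvd_mul_right h4
  rcases (Nat.dvd_prime hp).mp h7 with h | h
  · exact h
  · exfalso
    have h8 : w ≤ w * (a * t + 1) := Nat.le_mul_of_pos_right w (by omega)
    omega

example (p e t w n a : ℕ) (hp : p.Prime) (het : e * t = p - 1) (he2 : 2 ≤ e)
    (hw1 : 1 ≤ w) (hn : n + 1 = t * w) (hcard : w * (a * t + 1) = e - 1)
    (hdvd : (n + 1) * e ∣ p * (p - 1) * (w * p - e)) : w = 1 :=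
  w_eq_one p e t w n a hp het he2 hw1 hn hcard hdvd

end Cfsg.Agent.H69.BR
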