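import Cfsg.Agent.H79.BrDefs
import Cfsg.Agent.H81.Reg
import Cfsg.Agent.H81.Counting

/-!
S4504-CCP piece (helper79's Brauer `(p-1)/2` team project): class multiplication constants,
the general version of `H81.card_conj_pairs`.
-/

set_option autoImplicit false

namespace Cfsg.Agent.H69.Br

open Cfsg

open scoped ComplexConjugate

universe u

theorem ccp_filter {G : Type u} [Group G] [Fintype G] [DecidableEq G] (z w y : G) :
    ((Finset.univ.filter (fun ab : G × G =>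
        ab.1 * z * ab.1⁻¹ * (ab.2 * w * ab.2⁻¹) = y)).card : ℂ) =
      (Nat.card G : ℂ) * ∑ᶠ χ : IrrCharacter G,
        (χ : G → ℂ) z * (χ : G → ℂ) w * (χ : G → ℂ) y⁻¹ / (χ : G → ℂ) 1 := by
  classical
  have hreg := Cfsg.Agent.H81.regIdentity G
  have : Finite (IrrCharacter G) := Cfsg.Agent.H80.irr_finite G
  have : Fintype (IrrCharacter G) := Fintype.ofFinite _
  have hG : (Nat.card G : ℂ) ≠ 0 := by exact_mod_cast Nat.card_pos.ne'
  rw [finsum_eq_sum_of_fintype]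
  have hind : ∀ ab : G × G,
      (if ab.1 * z * ab.1⁻¹ * (ab.2 * w * ab.2⁻¹) = y then (1 : ℂ) else 0) =
        (Nat.card G : ℂ)⁻¹ * ∑ χ : IrrCharacter G, (χ : G → ℂ) 1 *
          (χ : G → ℂ) (ab.1 * z * ab.1⁻¹ * (ab.2 * w * ab.2⁻¹ * y⁻¹)) := by
    intro ab
    have hiff : ab.1 * z * ab.1⁻¹ * (ab.2 * w * ab.2⁻¹ * y⁻¹) = 1 ↔
        ab.1 * z * ab.1⁻¹ * (ab.2 * w * ab.2⁻¹) = y := by
      rw [← mul_assoc, mul_inv_eq_one]
    by_cases hc : ab.1 * z * ab.1⁻¹ * (ab.2 * w * ab.2⁻¹) = y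
    · rw [if_pos hc, hiff.mpr hc]
      have h := hreg.1
      rw [finsum_eq_sum_of_fintype] at h
      rw [h, inv_mul_cancel₀ hG]
    · rw [if_neg hc]
      have h := hreg.2 _ (fun h => hc (hiff.mp h))
      rw [finsum_eq_sum_of_fintype] at h
      rw [h, mul_zero]
  rw [Finset.card_filter]
  push_cast
  rw [Finset.sum_congr rfl (fun ab _ => hind ab), ← Finset.mul_sum, Finset.sum_comm,
    Finset.mul_sum, Finset.mul_sum]
  apply Finset.sum_congr rfl
  intro χ _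
  rw [Fintype.sum_prod_type, Finset.sum_comm]
  have h1 : ∀ b : G, ∑ a : G, (χ : G → ℂ) 1 *
      (χ : G → ℂ) (a * z * a⁻¹ * (b * w * b⁻¹ * y⁻¹)) =
      (Nat.card G : ℂ) * (χ : G → ℂ) z * (χ : G → ℂ) (b * w * b⁻¹ * y⁻¹) := by
    intro b
    rw [← Finset.mul_sum, Cfsg.Agent.H81.irr_sum_conj_mul]
    field_simp [Cfsg.Agent.H81.irr_one_ne_zero χ]
  rw [Finset.sum_congr rfl (fun b _ => h1 b), ← Finset.mul_sum,
    Cfsg.Agent.H81.irr_sum_conj_mul]
  field_simp [Cfsg.Agent.H81.irr_one_ne_zero χ]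

/-- **S4504-CCP**. -/
theorem ccp : Cfsg.Agent.H79.Br.StCCP.{u} := by
  intro G _ _ z w y
  classical
  have : Fintype G := Fintype.ofFinite G
  have h := ccp_filter z w y
  have hcard : Nat.card {ab : G × G // ab.1 * z * ab.1⁻¹ * (ab.2 * w * ab.2⁻¹) = y} =
      (Finset.univ.filter (fun ab : G × G =>
        ab.1 * z * ab.1⁻¹ * (ab.2 * w * ab.2⁻¹) = y)).card := by
    rw [Nat.card_eq_fintype_card, Fintype.card_subtype]
  rw [hcard, h]
  congr 1
  apply finsum_congr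
  intro ψ
  rw [Cfsg.Agent.H81.irr_inv]

example : ∀ {G : Type u} [Group G] [Finite G] (z w y : G),
    (Nat.card {ab : G × G // ab.1 * z * ab.1⁻¹ * (ab.2 * w * ab.2⁻¹) = y} : ℂ) =
      (Nat.card G : ℂ) *
        ∑ᶠ ψ : IrrCharacter G, ψ.1 z * ψ.1 w * conj (ψ.1 y) / ψ.1 1 := ccp

end Cfsg.Agent.H69.Br
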