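import Cfsg.Agent.H79.BrDefs
import Cfsg.Agent.H4.Irr
import Cfsg.Agent.H4.CharBasic
import Cfsg.Agent.H4.Blich1
import Cfsg.Agent.H80.Basic

/-!
S4504-NOPGL piece (helper79's Brauer `(p-1)/2` team project): for a faithful character of degree
`< p - 1` and a Sylow `p`-subgroup `P` of order `p`, the non-identity elements of `P` are not all
conjugate.
-/

set_option autoImplicit false

namespace Cfsg.Agent.H69.Br

open Cfsg

open scoped ComplexConjugate

universe u

/-- Integer arithmetic behind `noPGL`. -/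
theorem noPGL_arith (p d m : ℕ) (z : ℤ) (hd : d + 1 < p)
    (h1 : (d : ℤ) + ((p : ℤ) - 1) * z = (p : ℤ) * m) (h2 : z ≤ d) : z = d := by
  have key : (d : ℤ) - m = ((p : ℤ) - 1) * (m - z) := by linear_combination h1
  have hp1 : (0 : ℤ) < (p : ℤ) - 1 := by omega
  rcases lt_trichotomy ((m : ℤ) - z) 0 with ht | ht | ht
  · have h3 : ((p : ℤ) - 1) * (m - z) ≤ ((p : ℤ) - 1) * (-1) :=
      mul_le_mul_of_nonneg_left (by omega) hp1.le
    omega
  · rw [ht, mul_zero] at key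
    omega
  · have h3 : ((p : ℤ) - 1) * 1 ≤ ((p : ℤ) - 1) * (m - z) :=
      mul_le_mul_of_nonneg_left (by omega) hp1.le
    omega

/-- **S4504-NOPGL**. -/
theorem noPGL : Cfsg.Agent.H79.Br.StNoPGL.{u} := by
  intro G _ _ p _ P hP χ hχ hfaith hdeg hconj
  classical
  have hp := (Fact.out : p.Prime)
  set d := charDegree χ with hd
  have hχ1 : χ 1 = (d : ℂ) := Cfsg.Agent.H4.isCharacter_one_eq hχ
  have hnt : Nontrivial (P : Subgroup G) :=
    Finite.one_lt_card_iff_nontrivial.mp (by rw [hP]; exact hp.one_lt)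
  obtain ⟨x₀, hx₀⟩ := exists_ne (1 : (P : Subgroup G))
  have hx₀' : (x₀ : G) ≠ 1 := fun h => hx₀ (Subtype.ext h)
  set a := χ x₀ with ha
  have hclass := Cfsg.Agent.H4.isClassFunction_of_isCharacter hχ
  have hconst : ∀ x : (P : Subgroup G), x ≠ 1 → χ x = a := by
    intro x hx
    have hx' : (x : G) ≠ 1 := fun h => hx (Subtype.ext h)
    obtain ⟨c, hc⟩ := isConj_iff.mp (hconj x₀ x₀.2 x x.2 hx₀' hx')
    rw [← hc, hclass]
  have : Fintype (P : Subgroup G) := Fintype.ofFinite _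
  obtain ⟨m, hm⟩ := Cfsg.Agent.H80.sum_subgroup_character (P : Subgroup G) χ hχ
  rw [finsum_eq_sum_of_fintype, hP] at hm
  have hsum : ∑ x : (P : Subgroup G), χ x = (d : ℂ) + ((p : ℂ) - 1) * a := by
    rw [← Finset.add_sum_erase Finset.univ _ (Finset.mem_univ (1 : (P : Subgroup G)))]
    congr 1
    rw [Finset.sum_congr rfl (fun x hx => hconst x (Finset.ne_of_mem_erase hx)),
      Finset.sum_const, Finset.card_erase_of_mem (Finset.mem_univ _), Finset.card_univ,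
      ← Nat.card_eq_fintype_card, hP, nsmul_eq_mul, Nat.cast_sub hp.one_le, Nat.cast_one]
  rw [hsum] at hm
  have hp1 : ((p : ℂ) - 1) ≠ 0 := by
    have h2 : (1 : ℕ) < p := hp.one_lt
    have h3 : ((p : ℂ) - 1) = ((p - 1 : ℕ) : ℂ) := by
      rw [Nat.cast_sub hp.one_le, Nat.cast_one]
    rw [h3]
    exact_mod_cast (by omega : p - 1 ≠ 0)
  have haq : a = ((((p : ℚ) * m - d) / ((p : ℚ) - 1) : ℚ) : ℂ) := by
    push_cast
    rw [eq_div_iff hp1]
    linear_combination hm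
  have hint : IsIntegral ℤ a := by
    obtain ⟨n, ρ, hρ⟩ := id hχ
    rw [ha, ← hρ]
    exact Cfsg.Agent.H4.character_isIntegral ρ (x₀ : G)
  obtain ⟨z, hz⟩ : ∃ z : ℤ, a = (z : ℂ) := by
    rw [haq] at hint
    have h2 : IsIntegral ℤ (((p : ℚ) * m - d) / ((p : ℚ) - 1) : ℚ) :=
      (isIntegral_algebraMap_iff (algebraMap ℚ ℂ).injective).mp hint
    obtain ⟨y, hy⟩ := IsIntegrallyClosed.isIntegral_iff.mp h2
    refine ⟨y, ?_⟩
    rw [haq, ← hy]
    simp
  have hnorm : ‖a‖ ≤ (d : ℝ) := by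
    obtain ⟨n, ρ, hρ⟩ := id hχ
    have h1 := Cfsg.Agent.H4.character_norm_le ρ (x₀ : G)
    have h2 : ρ.character 1 = (Module.finrank ℂ (Fin n → ℂ) : ℂ) := Representation.char_one ρ
    rw [hρ, hχ1] at h2
    have h3 : d = Module.finrank ℂ (Fin n → ℂ) := by exact_mod_cast h2
    rw [hρ, ← h3] at h1
    exact h1
  have hzd : z ≤ d := by
    rw [hz, Complex.norm_intCast] at hnorm
    have h2 : (z : ℝ) ≤ (d : ℝ) := le_trans (le_abs_self _) hnorm
    exact_mod_cast h2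
  have hz1 : (d : ℤ) + ((p : ℤ) - 1) * z = (p : ℤ) * m := by
    rw [hz] at hm
    exact_mod_cast hm
  have hzeq := noPGL_arith p d m z hdeg hz1 hzd
  have hfin : χ x₀ = χ 1 := by
    rw [← ha, hz, hzeq, hχ1]
    push_cast
    rfl
  exact hx₀' (hfaith _ hfin)

example : ∀ {G : Type u} [Group G] [Finite G] (p : ℕ) [Fact p.Prime] (P : Sylow p G),
    Nat.card (P : Subgroup G) = p →
    ∀ χ : G → ℂ, IsCharacter G χ → (∀ g : G, χ g = χ 1 → g = 1) →
      charDegree χ + 1 < p →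
      ¬ (∀ x ∈ (P : Subgroup G), ∀ x' ∈ (P : Subgroup G), x ≠ 1 → x' ≠ 1 → IsConj x x') := noPGL

end Cfsg.Agent.H69.Br
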