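import Cfsg.Agent.H79.BrDefs
import Cfsg.Agent.H4.Irr
import Cfsg.Agent.H4.CharBasic

/-!
S4504-SCHUR piece (helper79's Brauer `(p-1)/2` team project): an element centralizing a subgroup
on which a faithful character restricts irreducibly is central.
-/

set_option autoImplicit false

namespace Cfsg.Agent.H69.Br

open Cfsg

open scoped ComplexConjugate

universe u

/-- **S4504-SCHUR**. -/
theorem schur : Cfsg.Agent.H79.Br.StSchur.{u} := by
  intro G _ _ G₁ χ hχ hfaith hirr c hc
  classical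
  have : Fintype G₁ := Fintype.ofFinite G₁
  obtain ⟨n, ρ, rfl⟩ := hχ
  set ρ₁ : Representation ℂ G₁ (Fin n → ℂ) := ρ.comp G₁.subtype with hρ₁
  have hchar : ρ₁.character = fun g : G₁ => ρ.character g := rfl
  have h1 : Cfsg.classInner ρ₁.character ρ₁.character = 1 := by
    rw [hchar]; exact Cfsg.Agent.H4.irr_inner_self ⟨_, hirr⟩
  rw [Cfsg.Agent.H4.classInner_character] at h1
  have hfr : Module.finrank ℂ (Representation.IntertwiningMap ρ₁ ρ₁) = 1 := by exact_mod_cast h1
  obtain ⟨v, hv, hspan⟩ := finrank_eq_one_iff'.mp hfr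
  have hTc : ∀ g : G₁, (ρ c) ∘ₗ ρ₁ g = ρ₁ g ∘ₗ (ρ c) := by
    intro g
    have h2 : ρ (c * g) = ρ (g * c) := by rw [hc g g.2]
    rw [map_mul, map_mul] at h2
    exact h2
  obtain ⟨a, ha⟩ := hspan ⟨ρ c, hTc⟩
  obtain ⟨b, hb⟩ := hspan (Representation.IntertwiningMap.id ρ₁)
  have hb0 : b ≠ 0 := by
    rintro rfl
    rw [zero_smul] at hb
    apply hv
    apply Representation.IntertwiningMap.ext
    apply LinearMap.ext
    intro w
    have h3 : (0 : Fin n → ℂ) = w :=
      congrArg (fun T : Representation.IntertwiningMap ρ₁ ρ₁ => T.toLinearMap w) hb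
    rw [← h3]
    simp
  have ha' := congrArg (fun T : Representation.IntertwiningMap ρ₁ ρ₁ => T.toLinearMap) ha
  have hb' := congrArg (fun T : Representation.IntertwiningMap ρ₁ ρ₁ => T.toLinearMap) hb
  simp only [Representation.IntertwiningMap.toLinearMap_smul] at ha' hb'
  have hid : (Representation.IntertwiningMap.id ρ₁).toLinearMap = LinearMap.id := rfl
  rw [hid] at hb'
  have hv' : v.toLinearMap = b⁻¹ • LinearMap.id := by
    rw [← hb', smul_smul, inv_mul_cancel₀ hb0, one_smul]
  have hρc : ρ c = (a * b⁻¹) • (LinearMap.id : (Fin n → ℂ) →ₗ[ℂ] (Fin n → ℂ)) := by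
    rw [← smul_smul, ← hv']
    exact ha'.symm
  rw [Subgroup.mem_center_iff]
  intro g
  have hcomm : ρ (g * c) = ρ (c * g) := by
    rw [map_mul, map_mul, hρc]
    ext w i
    simp
  have hone : ρ (g * c * (c * g)⁻¹) = 1 := by
    rw [map_mul, hcomm, ← map_mul, mul_inv_cancel, map_one]
  have hχ1 : ρ.character (g * c * (c * g)⁻¹) = ρ.character 1 := by
    unfold Representation.character
    rw [hone, map_one ρ]
  have := hfaith _ hχ1
  exact mul_inv_eq_one.mp this

example : ∀ {G : Type u} [Group G] [Finite G] (G₁ : Subgroup G) (χ : G → ℂ),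
    IsCharacter G χ → (∀ g : G, χ g = χ 1 → g = 1) →
    IsIrrCharacter G₁ (fun g : G₁ => χ g) →
    ∀ c : G, (∀ g ∈ G₁, c * g = g * c) → c ∈ Subgroup.center G := schur

end Cfsg.Agent.H69.Br
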