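/-
helper69: basic tools for Schur multipliers in the stem-extension language of
`Cfsg.HasSchurMultiplier` (Def_KGroupFacts).
-/
import Mathlib
import Cfsg.Prelude.Def_KGroupFacts

set_option autoImplicit false

namespace Cfsg.Agent.H69

universe u v w

/-- If `Γ` is generated by `S`, `N` is normal and the commutators of elements of `S` lie in `N`, then
the commutator subgroup lies in `N`. -/
theorem commutator_le_of_closure {Γ : Type*} [Group Γ] (N : Subgroup Γ) [hN : N.Normal] (S : Set Γ)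
    (hS : Subgroup.closure S = ⊤) (h : ∀ s ∈ S, ∀ t ∈ S, s * t * s⁻¹ * t⁻¹ ∈ N) :
    commutator Γ ≤ N := by
  have key : ∀ g k : Γ, g * k * g⁻¹ * k⁻¹ ∈ N := by
    intro g k
    have hg : g ∈ Subgroup.closure S := hS ▸ Subgroup.mem_top g
    have hk : k ∈ Subgroup.closure S := hS ▸ Subgroup.mem_top k
    induction hg, hk using Subgroup.closure_induction₂ with
    | mem x y hx hy => exact h x hx y hy
    | one_left x hx => simp
    | one_right x hx => simp
    | mul_left x y z hx hy hz h1 h2 =>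
      have : x * y * z * (x * y)⁻¹ * z⁻¹ = x * (y * z * y⁻¹ * z⁻¹) * x⁻¹ * (x * z * x⁻¹ * z⁻¹) := by group
      rw [this]
      exact N.mul_mem (hN.conj_mem _ h2 x) h1
    | mul_right y z x hy hz hx h1 h2 =>
      have : x * (y * z) * x⁻¹ * (y * z)⁻¹ = (x * y * x⁻¹ * y⁻¹) * (y * (x * z * x⁻¹ * z⁻¹) * y⁻¹) := by group
      rw [this]
      exact N.mul_mem h1 (hN.conj_mem _ h2 y)
    | inv_left x y hx hy h1 =>
      have : x⁻¹ * y * x⁻¹⁻¹ * y⁻¹ = x⁻¹ * (x * y * x⁻¹ * y⁻¹)⁻¹ * x⁻¹⁻¹ := by group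
      rw [this]
      exact hN.conj_mem _ (N.inv_mem h1) x⁻¹
    | inv_right x y hx hy h1 =>
      have : x * y⁻¹ * x⁻¹ * y⁻¹⁻¹ = y⁻¹ * (x * y * x⁻¹ * y⁻¹)⁻¹ * y⁻¹⁻¹ := by group
      rw [this]
      exact hN.conj_mem _ (N.inv_mem h1) y⁻¹
  rw [commutator_def, Subgroup.commutator_le]
  intro g _ k _
  exact key g k

/-- `zpowers c` is normal as soon as a generating set conjugates `c` to `c` or `c⁻¹`. -/
theorem zpowers_normal_of_closure {Γ : Type*} [Group Γ] (c : Γ) (S : Set Γ)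
    (hS : Subgroup.closure S = ⊤) (h : ∀ s ∈ S, s * c * s⁻¹ = c ∨ s * c * s⁻¹ = c⁻¹) :
    (Subgroup.zpowers c).Normal := by
  rw [← Subgroup.normalizer_eq_top_iff, eq_top_iff, ← hS, Subgroup.closure_le]
  intro s hs
  rw [SetLike.mem_coe, Subgroup.mem_normalizer_iff_map_conj_eq, MonoidHom.map_zpowers]
  show Subgroup.zpowers (s * c * s⁻¹) = Subgroup.zpowers c
  rcases h s hs with h1 | h1
  · rw [h1]
  · rw [h1, Subgroup.zpowers_inv]

/-- If `σ` maps `S` onto a generating set, then `S` and the kernel generate. -/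
theorem closure_union_ker_eq_top {Γ Q : Type*} [Group Γ] [Group Q] (σ : Γ →* Q) (S : Set Γ)
    (h : Subgroup.closure (σ '' S) = ⊤) : Subgroup.closure (S ∪ (σ.ker : Set Γ)) = ⊤ := by
  rw [eq_top_iff]
  intro g _
  have h1 : σ g ∈ (Subgroup.closure S).map σ := by
    rw [MonoidHom.map_closure, h]; exact Subgroup.mem_top _
  obtain ⟨g', hg', hgg'⟩ := h1
  have h2 : g'⁻¹ * g ∈ σ.ker := by
    rw [MonoidHom.mem_ker, map_mul, map_inv, hgg', inv_mul_cancel]
  have h3 : g = g' * (g'⁻¹ * g) := by group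
  rw [h3]
  exact Subgroup.mul_mem _ (Subgroup.closure_mono Set.subset_union_left hg')
    (Subgroup.subset_closure (Set.mem_union_right _ h2))

/-- A subgroup of `zpowers d` with `d ^ e = 1` is a homomorphic image of `ZMod e`. -/
theorem exists_surjective_zmod_of_le_zpowers {Γ : Type*} [Group Γ] (K : Subgroup Γ) (d : Γ) (e : ℕ)
    (hK : K ≤ Subgroup.zpowers d) (hd : d ^ e = 1) :
    ∃ π : Multiplicative (ZMod e) →* K, Function.Surjective π := by
  -- K is cyclic
  have : IsCyclic ↥K := by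
    have h1 : IsCyclic ↥(K.subgroupOf (Subgroup.zpowers d)) := inferInstance
    exact isCyclic_of_surjective (Subgroup.subgroupOfEquivOfLe hK).toMonoidHom
      (Subgroup.subgroupOfEquivOfLe hK).surjective
  obtain ⟨k0, hk0⟩ := IsCyclic.exists_generator (α := ↥K)
  have hk0e : k0 ^ e = 1 := by
    obtain ⟨j, hj⟩ := Subgroup.mem_zpowers_iff.mp (hK k0.2)
    apply Subtype.ext
    rw [Subgroup.coe_pow, ← hj, Subgroup.coe_one, ← zpow_natCast, ← zpow_mul, mul_comm, zpow_mul,
      zpow_natCast, hd, one_zpow]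
  let f : ℤ →+ Additive ↥K := zmultiplesHom (Additive ↥K) (Additive.ofMul k0)
  have hf : f (e : ℤ) = 0 := by
    show (e : ℤ) • Additive.ofMul k0 = 0
    rw [natCast_zsmul, ← ofMul_pow, hk0e]; rfl
  let g : ZMod e →+ Additive ↥K := ZMod.lift e ⟨f, hf⟩
  refine ⟨AddMonoidHom.toMultiplicativeLeft g, ?_⟩
  intro x
  obtain ⟨i, hi⟩ := Subgroup.mem_zpowers_iff.mp (hk0 x)
  refine ⟨Multiplicative.ofAdd ((i : ℤ) : ZMod e), ?_⟩
  show Additive.toMul (g ((i : ℤ) : ZMod e)) = x
  rw [ZMod.lift_coe]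
  show Additive.toMul ((i : ℤ) • Additive.ofMul k0) = x
  rw [← ofMul_zpow]
  exact hi

/-- Criterion for a cyclic multiplier: one finite stem extension with kernel `ZMod n`, and for every finite stem
extension the kernel lies in a cyclic subgroup generated by an element killed by `n`. -/
theorem hasCyclicSchurMultiplier_of {G : Type u} [Group G] (n : ℕ)
    (hex : ∃ (Γ : Type u) (_ : Group Γ) (_ : Finite Γ) (σ : Γ →* G), IsStemExtension σ ∧
      Nonempty (σ.ker ≃* Multiplicative (ZMod n)))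
    (hall : ∀ (Γ : Type u) [Group Γ] [Finite Γ] (σ : Γ →* G), IsStemExtension σ →
      ∃ d : Γ, σ.ker ≤ Subgroup.zpowers d ∧ d ^ n = 1) :
    Cfsg.HasCyclicSchurMultiplier G n := by
  refine ⟨hex, ?_⟩
  intro Γ _ _ σ hσ
  obtain ⟨d, hd1, hd2⟩ := hall Γ σ hσ
  exact exists_surjective_zmod_of_le_zpowers σ.ker d n hd1 hd2

/-- Criterion for a trivial multiplier. -/
theorem hasTrivialSchurMultiplier_of {G : Type u} [Group G] [Finite G]
    (hall : ∀ (Γ : Type u) [Group Γ] [Finite Γ] (σ : Γ →* G), IsStemExtension σ → σ.ker = ⊥) :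
    Cfsg.HasCyclicSchurMultiplier G 1 := by
  apply hasCyclicSchurMultiplier_of
  · refine ⟨G, inferInstance, inferInstance, MonoidHom.id G, ⟨Function.surjective_id, ?_, ?_⟩, ?_⟩
    · rw [MonoidHom.ker_id]; exact bot_le
    · rw [MonoidHom.ker_id]; exact bot_le
    · rw [MonoidHom.ker_id]
      exact ⟨MulEquiv.ofUnique⟩
  · intro Γ _ _ σ hσ
    refine ⟨1, ?_, one_pow 1⟩
    rw [hall Γ σ hσ]
    exact bot_le

/-- A trivial multiplier forces every finite stem extension to have trivial kernel. -/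
theorem ker_eq_bot_of_hasTrivialSchurMultiplier {G : Type u} [Group G]
    (h : Cfsg.HasCyclicSchurMultiplier G 1) (Γ : Type u) [Group Γ] [Finite Γ] (σ : Γ →* G)
    (hσ : IsStemExtension σ) : σ.ker = ⊥ := by
  obtain ⟨π, hπ⟩ := h.2 Γ σ hσ
  rw [eq_bot_iff]
  intro x hx
  obtain ⟨y, hy⟩ := hπ ⟨x, hx⟩
  have hy1 : y = 1 := Subsingleton.elim _ _
  rw [hy1, map_one] at hy
  rw [Subgroup.mem_bot]
  exact (congrArg Subtype.val hy).symm

/-- A group with trivial multiplier is finite. -/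
theorem finite_of_hasSchurMultiplier {G : Type u} [Group G] {A : Type v} [CommGroup A]
    (h : Cfsg.HasSchurMultiplier G A) : Finite G := by
  obtain ⟨Γ, _, _, σ, hσ, _⟩ := h.1
  exact Finite.of_surjective σ hσ.1

end Cfsg.Agent.H69
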