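/-
helper69: central extensions built from a bi-additive cocycle, and the bound for stem extensions of
two-generated abelian groups.
-/
import Cfsg.Agent.H69.SchurBasic

set_option autoImplicit false

namespace Cfsg.Agent.H69

universe u v

/-- A bi-additive map `G × G → C` on a group `G` with values in an additive commutative group. -/
structure BiCocycle (G : Type u) [Group G] (C : Type v) [AddCommGroup C] where
  toFun : G → G → C
  map_mul_left : ∀ g g' h, toFun (g * g') h = toFun g h + toFun g' h
  map_mul_right : ∀ g h h', toFun g (h * h') = toFun g h + toFun g h'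

namespace BiCocycle

variable {G : Type u} [Group G] {C : Type v} [AddCommGroup C] (β : BiCocycle G C)

theorem map_one_left (h : G) : β.toFun 1 h = 0 := by
  have := β.map_mul_left 1 1 h
  rw [mul_one] at this
  exact left_eq_add.mp this

theorem map_one_right (g : G) : β.toFun g 1 = 0 := by
  have := β.map_mul_right g 1 1
  rw [mul_one] at this
  exact left_eq_add.mp this

theorem map_inv_left (g h : G) : β.toFun g⁻¹ h = -β.toFun g h := by
  have := β.map_mul_left g g⁻¹ h
  rw [mul_inv_cancel, map_one_left] at this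
  exact eq_neg_of_add_eq_zero_right this.symm

theorem map_inv_right (g h : G) : β.toFun g h⁻¹ = -β.toFun g h := by
  have := β.map_mul_right g h h⁻¹
  rw [mul_inv_cancel, map_one_right] at this
  exact eq_neg_of_add_eq_zero_right this.symm

end BiCocycle

/-- The central extension of `G` by `C` attached to a bi-additive cocycle. -/
structure CExt {G : Type u} [Group G] {C : Type v} [AddCommGroup C] (β : BiCocycle G C) :
    Type (max u v) where
  g : G
  c : C

namespace CExt

variable {G : Type u} [Group G] {C : Type v} [AddCommGroup C] {β : BiCocycle G C}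

theorem ext' {x y : CExt β} (h1 : x.g = y.g) (h2 : x.c = y.c) : x = y := by
  cases x; cases y; simp_all

instance instMul : Mul (CExt β) := ⟨fun x y => ⟨x.g * y.g, x.c + y.c + β.toFun x.g y.g⟩⟩
instance instOne : One (CExt β) := ⟨⟨1, 0⟩⟩
instance instInv : Inv (CExt β) := ⟨fun x => ⟨x.g⁻¹, -x.c + β.toFun x.g x.g⟩⟩

@[simp] theorem mul_g (x y : CExt β) : (x * y).g = x.g * y.g := rfl
@[simp] theorem mul_c (x y : CExt β) : (x * y).c = x.c + y.c + β.toFun x.g y.g := rfl
@[simp] theorem one_g : (1 : CExt β).g = 1 := rfl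
@[simp] theorem one_c : (1 : CExt β).c = 0 := rfl
@[simp] theorem inv_g (x : CExt β) : (x⁻¹).g = x.g⁻¹ := rfl
@[simp] theorem inv_c (x : CExt β) : (x⁻¹).c = -x.c + β.toFun x.g x.g := rfl

instance instGroup : Group (CExt β) :=
  Group.ofLeftAxioms
    (by
      intro x y z
      apply ext'
      · simp [mul_assoc]
      · simp only [mul_c, mul_g, β.map_mul_left, β.map_mul_right]
        abel)
    (by
      intro x
      apply ext'
      · simp
      · simp [β.map_one_left])
    (by
      intro x
      apply ext'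
      · simp
      · simp only [mul_c, inv_c, inv_g, one_c, β.map_inv_left]
        abel)

/-- The projection to `G`. -/
def proj (β : BiCocycle G C) : CExt β →* G where
  toFun x := x.g
  map_one' := rfl
  map_mul' _ _ := rfl

@[simp] theorem proj_apply (x : CExt β) : proj β x = x.g := rfl

theorem proj_surjective : Function.Surjective (proj β) := fun g => ⟨⟨g, 0⟩, rfl⟩

theorem mem_ker_iff (x : CExt β) : x ∈ (proj β).ker ↔ x.g = 1 := by
  rw [MonoidHom.mem_ker]; rfl

theorem ker_le_center : (proj β).ker ≤ Subgroup.center (CExt β) := by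
  intro x hx
  rw [mem_ker_iff] at hx
  rw [Subgroup.mem_center_iff]
  intro y
  apply ext'
  · simp [hx]
  · simp only [mul_c, hx, β.map_one_left, β.map_one_right]
    abel

/-- The kernel of the projection is `C`. -/
def kerEquiv (β : BiCocycle G C) : (proj β).ker ≃* Multiplicative C where
  toFun x := Multiplicative.ofAdd x.1.c
  invFun c := ⟨⟨1, Multiplicative.toAdd c⟩, (mem_ker_iff _).mpr rfl⟩
  left_inv := by
    rintro ⟨x, hx⟩
    rw [mem_ker_iff] at hx
    apply Subtype.ext
    apply ext'
    · exact hx.symm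
    · rfl
  right_inv := by
    intro c
    rfl
  map_mul' := by
    rintro ⟨x, hx⟩ ⟨y, hy⟩
    rw [mem_ker_iff] at hx
    show Multiplicative.ofAdd (x.c + y.c + β.toFun x.g y.g) =
      Multiplicative.ofAdd x.c * Multiplicative.ofAdd y.c
    rw [hx, β.map_one_left, add_zero]
    rfl

instance instFinite [Finite G] [Finite C] : Finite (CExt β) :=
  Finite.of_injective (fun x : CExt β => (x.g, x.c)) (by
    intro x y h
    simp only [Prod.mk.injEq] at h
    exact ext' h.1 h.2)

/-- The commutator of the lifts of two commuting elements. -/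
theorem commutator_lift (g h : G) (hgh : g * h = h * g) :
    (⟨g, 0⟩ : CExt β) * ⟨h, 0⟩ * (⟨g, 0⟩ : CExt β)⁻¹ * (⟨h, 0⟩ : CExt β)⁻¹ =
      ⟨1, β.toFun g h - β.toFun h g⟩ := by
  apply ext'
  · simp only [mul_g, inv_g]
    rw [hgh]; group
  · simp only [mul_c, mul_g, inv_c, inv_g, β.map_mul_left, β.map_inv_right, β.map_inv_left]
    abel

/-- The projection is a stem extension as soon as the commutator values of `β` generate `C`. -/
theorem isStemExtension_proj
    (hgen : AddSubgroup.closure {c : C | ∃ g h : G, g * h = h * g ∧ c = β.toFun g h - β.toFun h g} = ⊤) :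
    Cfsg.IsStemExtension (proj β) := by
  refine ⟨proj_surjective, ker_le_center, ?_⟩
  let D : AddSubgroup C :=
    { carrier := {c | (⟨1, c⟩ : CExt β) ∈ commutator (CExt β)}
      add_mem' := by
        intro a b ha hb
        have : (⟨1, a + b⟩ : CExt β) = ⟨1, a⟩ * ⟨1, b⟩ := by
          apply ext'
          · simp
          · simp [β.map_one_left]
        show (⟨1, a + b⟩ : CExt β) ∈ commutator (CExt β)
        rw [this]
        exact Subgroup.mul_mem _ ha hb
      zero_mem' := by
        show (⟨1, 0⟩ : CExt β) ∈ commutator (CExt β)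
        exact Subgroup.one_mem _
      neg_mem' := by
        intro a ha
        have : (⟨1, -a⟩ : CExt β) = (⟨1, a⟩ : CExt β)⁻¹ := by
          apply ext'
          · simp
          · simp [β.map_one_left]
        show (⟨1, -a⟩ : CExt β) ∈ commutator (CExt β)
        rw [this]
        exact Subgroup.inv_mem _ ha }
  have hD : D = ⊤ := by
    rw [eq_top_iff, ← hgen, AddSubgroup.closure_le]
    rintro c ⟨g, h, hgh, rfl⟩
    show (⟨1, β.toFun g h - β.toFun h g⟩ : CExt β) ∈ commutator (CExt β)
    rw [← commutator_lift g h hgh, commutator_def]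
    exact Subgroup.commutator_mem_commutator (Subgroup.mem_top (⟨g, 0⟩ : CExt β))
      (Subgroup.mem_top (⟨h, 0⟩ : CExt β))
  intro x hx
  rw [mem_ker_iff] at hx
  have h1 : x.c ∈ D := hD ▸ AddSubgroup.mem_top _
  have h2 : x = ⟨1, x.c⟩ := ext' hx rfl
  rw [h2]
  exact h1

end CExt

/-- `ZMod n` is generated by `1`. -/
theorem zmod_closure_one (n : ℕ) : AddSubgroup.closure ({1} : Set (ZMod n)) = ⊤ := by
  rw [eq_top_iff]
  intro x _
  have h0 : ∃ k : ℤ, (k : ZMod n) = x := ZMod.intCast_surjective x
  obtain ⟨k, hk⟩ := h0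
  have h1 : ((k : ℤ) : ZMod n) = k • (1 : ZMod n) := (zsmul_one k).symm
  rw [← hk, h1]
  have h2 : (1 : ZMod n) ∈ AddSubgroup.closure ({1} : Set (ZMod n)) :=
    AddSubgroup.subset_closure (Set.mem_singleton _)
  exact AddSubgroup.zsmul_mem _ h2 k

/-- Stem extensions of a group generated by two commuting elements `a`, `b` with `b ^ e = 1`: the kernel
lies in `zpowers c` for the commutator `c` of lifts, and `c ^ e = 1`. -/
theorem abelian_two_gen_bound {Γ Q : Type*} [Group Γ] [Group Q] (σ : Γ →* Q) (hσ : IsStemExtension σ)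
    (a b : Q) (hgen : Subgroup.closure ({a, b} : Set Q) = ⊤) (hab : a * b = b * a) (e : ℕ) (hb : b ^ e = 1)
    (a' b' : Γ) (ha : σ a' = a) (hb' : σ b' = b) :
    σ.ker ≤ Subgroup.zpowers (a' * b' * a'⁻¹ * b'⁻¹) ∧ (a' * b' * a'⁻¹ * b'⁻¹) ^ e = 1 := by
  have hKc : σ.ker ≤ Subgroup.center Γ := hσ.2.1
  have hKcomm : σ.ker ≤ commutator Γ := hσ.2.2
  obtain ⟨c, hc_def⟩ : ∃ c, c = a' * b' * a'⁻¹ * b'⁻¹ := ⟨_, rfl⟩
  rw [← hc_def]
  have hcK : c ∈ σ.ker := by
    rw [MonoidHom.mem_ker, hc_def, map_mul, map_mul, map_mul, map_inv, map_inv, ha, hb', hab]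
    group
  have hc : ∀ g : Γ, g * c = c * g := Subgroup.mem_center_iff.mp (hKc hcK)
  have hT : Subgroup.closure (({a', b'} : Set Γ) ∪ (σ.ker : Set Γ)) = ⊤ := by
    apply closure_union_ker_eq_top
    have : σ '' ({a', b'} : Set Γ) = {a, b} := by
      rw [Set.image_pair, ha, hb']
    rw [this, hgen]
  have hcentral : ∀ s ∈ (σ.ker : Set Γ), ∀ g : Γ, g * s = s * g :=
    fun s hs => Subgroup.mem_center_iff.mp (hKc hs)
  have hZn : (Subgroup.zpowers c).Normal := by
    apply zpowers_normal_of_closure c _ hT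
    intro s _
    left
    rw [hc s, mul_inv_cancel_right]
  have hcomm : commutator Γ ≤ Subgroup.zpowers c := by
    apply commutator_le_of_closure _ _ hT
    have hcen : ∀ s ∈ (σ.ker : Set Γ), ∀ t : Γ,
        s * t * s⁻¹ * t⁻¹ ∈ Subgroup.zpowers c ∧ t * s * t⁻¹ * s⁻¹ ∈ Subgroup.zpowers c := by
      intro s hs t
      have e1 : s * t * s⁻¹ * t⁻¹ = 1 := by rw [← hcentral s hs t]; group
      have e2 : t * s * t⁻¹ * s⁻¹ = 1 := by rw [hcentral s hs t]; group
      rw [e1, e2]
      exact ⟨Subgroup.one_mem _, Subgroup.one_mem _⟩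
    have hcm : c ∈ Subgroup.zpowers c := Subgroup.mem_zpowers c
    have hcm' : b' * a' * b'⁻¹ * a'⁻¹ ∈ Subgroup.zpowers c := by
      have : b' * a' * b'⁻¹ * a'⁻¹ = c⁻¹ := by rw [hc_def]; group
      rw [this]; exact Subgroup.inv_mem _ hcm
    rintro s ((hs | hs) | hs) t ((ht | ht) | ht)
    · rw [hs, ht]; simp
    · rw [Set.mem_singleton_iff] at ht
      rw [hs, ht, ← hc_def]; exact hcm
    · exact (hcen t ht s).2
    · rw [Set.mem_singleton_iff] at hs
      rw [hs, ht]; exact hcm'
    · rw [Set.mem_singleton_iff] at hs ht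
      rw [hs, ht]; simp
    · exact (hcen t ht s).2
    · exact (hcen s hs t).1
    · exact (hcen s hs t).1
    · exact (hcen s hs t).1
  refine ⟨hKcomm.trans hcomm, ?_⟩
  -- c ^ e = 1
  have hbK : b' ^ e ∈ σ.ker := by
    rw [MonoidHom.mem_ker, map_pow, hb', hb]
  have hbc : ∀ g : Γ, g * b' ^ e = b' ^ e * g := Subgroup.mem_center_iff.mp (hKc hbK)
  have e1 : a' * b' * a'⁻¹ = c * b' := by rw [hc_def]; group
  have e2 : (a' * b' * a'⁻¹) ^ e = a' * b' ^ e * a'⁻¹ := conj_pow
  have e3 : (c * b') ^ e = c ^ e * b' ^ e := (show Commute c b' from (hc b').symm).mul_pow e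
  have e4 : c ^ e * b' ^ e = b' ^ e := by
    rw [← e3, ← e1, e2, hbc a', mul_inv_cancel_right]
  exact mul_eq_right.mp e4

end Cfsg.Agent.H69
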