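import Mathlib
import Cfsg.Agent.S0985
import Cfsg.Agent.H11.SmallSimple

set_option autoImplicit false
set_option maxHeartbeats 400000

/-!
Piece S0983-SI: Sylow intersections. If the number of Sylow `p`-subgroups of a simple group is not
`≡ 1 (mod p²)`, two of them meet in a subgroup of index `p`, whose normalizer is a proper subgroup
of small index. Consequences: no simple groups of order `4500`, `5292`, `6000`.
-/

namespace Cfsg.Agent.H69.Census

open Subgroup

lemma card_mul_relIndex_of_le {G : Type*} [Group G] [Finite G] {K L : Subgroup G} (h : K ≤ L) :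
    Nat.card K * K.relIndex L = Nat.card L := by
  have h1 := Subgroup.card_mul_index (K.subgroupOf L)
  rw [Nat.card_congr (Subgroup.subgroupOfEquivOfLe h).toEquiv] at h1
  exact h1

lemma sylow_index_of_eq {G : Type*} [Group G] [Finite G] (p a m : ℕ) [Fact p.Prime]
    (hN : Nat.card G = p ^ a * m) (hpm : ¬ p ∣ m) (P : Sylow p G) :
    (P : Subgroup G).index = m := by
  have hp : p.Prime := Fact.out
  have h1 := Subgroup.card_mul_index (P : Subgroup G)
  rw [Cfsg.Agent.H11.sylow_card_of_eq p a m hN hpm P, hN] at h1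
  exact Nat.eq_of_mul_eq_mul_left (pow_pos hp.pos a) h1

lemma not_isCyclic_of_not_prime {G : Type*} [Group G] [Finite G] [IsSimpleGroup G]
    (h : ¬ (Nat.card G).Prime) : ¬ IsCyclic G := by
  intro hc
  apply h
  let _ : CommGroup G := IsCyclic.commGroup
  exact IsSimpleGroup.prime_card

theorem sylow_inter {G : Type*} [Group G] [Finite G] [IsSimpleGroup G] (hnc : ¬ IsCyclic G)
    (p a m : ℕ) [Fact p.Prime] (hN : Nat.card G = p ^ a * m) (hpm : ¬ p ∣ m) (ha : 2 ≤ a)
    (hn : Nat.card (Sylow p G) % (p ^ 2) ≠ 1) :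
    ∃ j, j ∣ m ∧ p < j ∧ j < m ∧ Nat.card G ∣ (m / j).factorial := by
  have hp : p.Prime := Fact.out
  have hp2 : 2 ≤ p := hp.two_le
  have hm0 : m ≠ 0 := by
    rintro rfl
    exact hpm (dvd_zero p)
  have hmod : ¬ Nat.card (Sylow p G) ≡ 1 [MOD p ^ 2] := by
    intro hmod
    apply hn
    have h1 : 1 < p ^ 2 := Nat.one_lt_pow (by norm_num) hp.one_lt
    rw [Nat.ModEq, Nat.mod_eq_of_lt h1] at hmod
    exact hmod
  obtain ⟨P, R, hPR, hidx⟩ := Cfsg.Agent.S0985.result p 2 hmod
  have hcP : Nat.card (P : Subgroup G) = p ^ a := Cfsg.Agent.H11.sylow_card_of_eq p a m hN hpm P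
  have hcR : Nat.card (R : Subgroup G) = p ^ a := Cfsg.Agent.H11.sylow_card_of_eq p a m hN hpm R
  -- the intersection
  obtain ⟨D, hD⟩ : ∃ D : Subgroup G, D = (P : Subgroup G) ⊓ (R : Subgroup G) := ⟨_, rfl⟩
  have hDP : D ≤ (P : Subgroup G) := hD ▸ inf_le_left
  have hDR : D ≤ (R : Subgroup G) := hD ▸ inf_le_right
  have hrel : D.relIndex (P : Subgroup G) = ((R : Subgroup G).subgroupOf (P : Subgroup G)).index := by
    rw [hD, Subgroup.inf_relIndex_left]
    rfl
  have hle : D.relIndex (P : Subgroup G) ≤ p := by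
    rw [hrel]
    simpa using hidx
  have hmulP := card_mul_relIndex_of_le hDP
  have hmulR := card_mul_relIndex_of_le hDR
  rw [hcP] at hmulP
  rw [hcR] at hmulR
  have hne1 : D.relIndex (P : Subgroup G) ≠ 1 := by
    intro h1
    rw [Subgroup.relIndex_eq_one] at h1
    have hPle : (P : Subgroup G) ≤ (R : Subgroup G) := h1.trans hDR
    apply hPR
    apply Sylow.ext
    exact Subgroup.eq_of_le_of_card_ge hPle (by rw [hcP, hcR])
  have hrelP : D.relIndex (P : Subgroup G) = p := by
    have hdvd : D.relIndex (P : Subgroup G) ∣ p ^ a := ⟨Nat.card D, by rw [← hmulP, mul_comm]⟩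
    obtain ⟨s, -, hs⟩ := (Nat.dvd_prime_pow hp).1 hdvd
    rw [hs] at hle hne1 ⊢
    rcases s with _ | _ | s
    · exact absurd (pow_zero p) hne1
    · exact pow_one p
    · exfalso
      have h1 : p ^ 2 ≤ p ^ (s + 1 + 1) := Nat.pow_le_pow_right hp.pos (by omega)
      have h2 : p * 2 ≤ p ^ 2 := by
        rw [pow_two]
        exact Nat.mul_le_mul_left p hp2
      omega
  have hcD : Nat.card D = p ^ (a - 1) := by
    rw [hrelP] at hmulP
    have h1 : p ^ a = p ^ (a - 1) * p := by
      rw [← pow_succ]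
      congr 1
      omega
    rw [h1] at hmulP
    exact Nat.eq_of_mul_eq_mul_right hp.pos hmulP
  have hrelR : D.relIndex (R : Subgroup G) = p := by
    have h1 : p ^ a = p ^ (a - 1) * p := by
      rw [← pow_succ]
      congr 1
      omega
    rw [hcD, h1] at hmulR
    exact Nat.eq_of_mul_eq_mul_left (pow_pos hp.pos _) hmulR
  -- D is normal in P and in R
  have hminfac : (p ^ a).minFac = p := by
    rw [Nat.pow_minFac (by omega), hp.minFac_eq]
  have hnP : (P : Subgroup G) ≤ Subgroup.normalizer (D : Set G) := by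
    rw [← Subgroup.normal_subgroupOf_iff_le_normalizer hDP]
    apply Subgroup.normal_of_index_eq_minFac_card
    rw [hcP, hminfac]
    exact hrelP
  have hnR : (R : Subgroup G) ≤ Subgroup.normalizer (D : Set G) := by
    rw [← Subgroup.normal_subgroupOf_iff_le_normalizer hDR]
    apply Subgroup.normal_of_index_eq_minFac_card
    rw [hcR, hminfac]
    exact hrelR
  obtain ⟨H, hH⟩ : ∃ H : Subgroup G, H = Subgroup.normalizer (D : Set G) := ⟨_, rfl⟩
  rw [← hH] at hnP hnR
  -- H is proper
  have hHtop : H ≠ ⊤ := by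
    intro htop
    have hDn : D.Normal := by
      rw [← Subgroup.normalizer_eq_top_iff, ← hH, htop]
    rcases hDn.eq_bot_or_eq_top with hbot | hDtop
    · rw [hbot, Subgroup.card_bot] at hcD
      have h1 : 1 < p ^ (a - 1) := Nat.one_lt_pow (by omega) hp.one_lt
      omega
    · have h1 : Nat.card D = Nat.card G := by
        rw [hDtop, Subgroup.card_top]
      rw [hcD, hN] at h1
      have h2 : p ^ (a - 1) < p ^ a := Nat.pow_lt_pow_right hp.one_lt (by omega)
      have h3 : p ^ a ≤ p ^ a * m := Nat.le_mul_of_pos_right _ (Nat.pos_of_ne_zero hm0)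
      omega
  have hfact := Cfsg.Agent.H11.card_dvd_factorial_index H hHtop
  -- the number j
  have hPidx : (P : Subgroup G).index = m := sylow_index_of_eq p a m hN hpm P
  have hjm : (P : Subgroup G).relIndex H * H.index = m := by
    rw [Subgroup.relIndex_mul_index hnP, hPidx]
  have hj0 : (P : Subgroup G).relIndex H ≠ 0 := by
    intro h0
    rw [h0, zero_mul] at hjm
    exact hm0 hjm.symm
  have hidxH : H.index = m / (P : Subgroup G).relIndex H := by
    rw [← hjm]
    exact (Nat.mul_div_cancel_left _ (Nat.pos_of_ne_zero hj0)).symm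
  -- Sylow subgroups of H
  have hPH : Nat.card (Sylow p H) ∣ (P : Subgroup G).relIndex H := by
    have h1 := Sylow.card_dvd_index (P.subtype hnP)
    rw [Sylow.coe_subtype] at h1
    exact h1
  have hmodH := card_sylow_modEq_one p H
  have hcard2 : 1 < Nat.card (Sylow p H) := by
    rw [Finite.one_lt_card_iff_nontrivial]
    refine ⟨⟨P.subtype hnP, R.subtype hnR, ?_⟩⟩
    intro heq
    apply hPR
    have h1 : ((P.subtype hnP : Sylow p H) : Subgroup H) = (R.subtype hnR : Sylow p H) := by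
      rw [heq]
    rw [Sylow.coe_subtype, Sylow.coe_subtype] at h1
    apply Sylow.ext
    have h2 := congrArg (Subgroup.map H.subtype) h1
    rwa [Subgroup.map_subgroupOf_eq_of_le hnP, Subgroup.map_subgroupOf_eq_of_le hnR] at h2
  have hgt : p < Nat.card (Sylow p H) := by
    have h1 : Nat.card (Sylow p H) % p = 1 := by
      rw [Nat.ModEq, Nat.mod_eq_of_lt hp.one_lt] at hmodH
      exact hmodH
    by_contra hle'
    have h2 : Nat.card (Sylow p H) ≤ p := by omega
    rcases Nat.lt_or_ge (Nat.card (Sylow p H)) p with h3 | h3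
    · rw [Nat.mod_eq_of_lt h3] at h1
      omega
    · have h4 : Nat.card (Sylow p H) = p := le_antisymm h2 h3
      rw [h4, Nat.mod_self] at h1
      omega
  refine ⟨(P : Subgroup G).relIndex H, ⟨H.index, hjm.symm⟩, ?_, ?_, ?_⟩
  · exact lt_of_lt_of_le hgt (Nat.le_of_dvd (Nat.pos_of_ne_zero hj0) hPH)
  · have h1 : (P : Subgroup G).relIndex H ≤ m :=
      Nat.le_of_dvd (Nat.pos_of_ne_zero hm0) ⟨H.index, hjm.symm⟩
    rcases Nat.lt_or_ge ((P : Subgroup G).relIndex H) m with h2 | h2
    · exact h2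
    · exfalso
      have h3 : (P : Subgroup G).relIndex H = m := le_antisymm h1 h2
      rw [h3] at hjm
      have h4 : H.index = 1 := by
        have h5 : m * H.index = m * 1 := by rw [hjm, mul_one]
        exact Nat.eq_of_mul_eq_mul_left (Nat.pos_of_ne_zero hm0) h5
      exact hHtop (Subgroup.index_eq_one.1 h4)
  · rw [← hidxH]
    exact hfact

theorem no_simple_4500 {G : Type*} [Group G] [Finite G] [IsSimpleGroup G]
    (h : Nat.card G = 4500) : False := by
  have hnc : ¬ IsCyclic G := not_isCyclic_of_not_prime (by rw [h]; norm_num)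
  have : Fact (Nat.Prime 5) := ⟨by norm_num⟩
  have hN : Nat.card G = 5 ^ 3 * 36 := by rw [h]; norm_num
  obtain ⟨-, h2, h3, h4⟩ := Cfsg.Agent.H11.sylow_card_facts hnc 5 (by rw [h]; norm_num)
  obtain ⟨P⟩ : Nonempty (Sylow 5 G) := inferInstance
  have h5 : Nat.card (Sylow 5 G) ∣ 36 := by
    have := Sylow.card_dvd_index P
    rwa [sylow_index_of_eq 5 3 36 hN (by norm_num) P] at this
  rw [h] at h4
  have key : ∀ n ≤ 36, n ∣ 36 → n % 5 = 1 → n ≠ 1 → 4500 ∣ n.factorial → n = 36 := by decide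
  have hn36 : Nat.card (Sylow 5 G) = 36 := key _ (Nat.le_of_dvd (by norm_num) h5) h5 h2 h3 h4
  obtain ⟨j, hj1, hj2, hj3, hj4⟩ := sylow_inter hnc 5 3 36 hN (by norm_num) (by norm_num)
    (by rw [hn36]; norm_num)
  rw [h] at hj4
  have key2 : ∀ j < 36, j ∣ 36 → 5 < j → ¬ 4500 ∣ (36 / j).factorial := by decide
  exact key2 j hj3 hj1 hj2 hj4

theorem no_simple_5292 {G : Type*} [Group G] [Finite G] [IsSimpleGroup G]
    (h : Nat.card G = 5292) : False := by
  have hnc : ¬ IsCyclic G := not_isCyclic_of_not_prime (by rw [h]; norm_num)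
  have : Fact (Nat.Prime 7) := ⟨by norm_num⟩
  have hN : Nat.card G = 7 ^ 2 * 108 := by rw [h]; norm_num
  obtain ⟨-, h2, h3, h4⟩ := Cfsg.Agent.H11.sylow_card_facts hnc 7 (by rw [h]; norm_num)
  obtain ⟨P⟩ : Nonempty (Sylow 7 G) := inferInstance
  have h5 : Nat.card (Sylow 7 G) ∣ 108 := by
    have := Sylow.card_dvd_index P
    rwa [sylow_index_of_eq 7 2 108 hN (by norm_num) P] at this
  have key : ∀ n ≤ 108, n ∣ 108 → n % 7 = 1 → n ≠ 1 → n = 36 := by decide
  have hn36 : Nat.card (Sylow 7 G) = 36 := key _ (Nat.le_of_dvd (by norm_num) h5) h5 h2 h3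
  obtain ⟨j, hj1, hj2, hj3, hj4⟩ := sylow_inter hnc 7 2 108 hN (by norm_num) (by norm_num)
    (by rw [hn36]; norm_num)
  rw [h] at hj4
  have key2 : ∀ j < 108, j ∣ 108 → 7 < j → ¬ 5292 ∣ (108 / j).factorial := by decide
  exact key2 j hj3 hj1 hj2 hj4

theorem no_simple_6000 {G : Type*} [Group G] [Finite G] [IsSimpleGroup G]
    (h : Nat.card G = 6000) : False := by
  have hnc : ¬ IsCyclic G := not_isCyclic_of_not_prime (by rw [h]; norm_num)
  have : Fact (Nat.Prime 5) := ⟨by norm_num⟩
  have hN : Nat.card G = 5 ^ 3 * 48 := by rw [h]; norm_num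
  obtain ⟨-, h2, h3, h4⟩ := Cfsg.Agent.H11.sylow_card_facts hnc 5 (by rw [h]; norm_num)
  obtain ⟨P⟩ : Nonempty (Sylow 5 G) := inferInstance
  have h5 : Nat.card (Sylow 5 G) ∣ 48 := by
    have := Sylow.card_dvd_index P
    rwa [sylow_index_of_eq 5 3 48 hN (by norm_num) P] at this
  rw [h] at h4
  have key : ∀ n ≤ 48, n ∣ 48 → n % 5 = 1 → n ≠ 1 → 6000 ∣ n.factorial → n = 16 := by decide
  have hn16 : Nat.card (Sylow 5 G) = 16 := key _ (Nat.le_of_dvd (by norm_num) h5) h5 h2 h3 h4
  obtain ⟨j, hj1, hj2, hj3, hj4⟩ := sylow_inter hnc 5 3 48 hN (by norm_num) (by norm_num)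
    (by rw [hn16]; norm_num)
  rw [h] at hj4
  have key2 : ∀ j < 48, j ∣ 48 → 5 < j → ¬ 6000 ∣ (48 / j).factorial := by decide
  exact key2 j hj3 hj1 hj2 hj4

end Cfsg.Agent.H69.Census
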