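/-
helper69: central extensions, perfect groups, finiteness of the commutator subgroup.
-/
import Cfsg.Agent.H69.SchurBasic

set_option autoImplicit false

namespace Cfsg.Agent.H69

universe u v w

/-- Conjugation by `a * z` with `z` central is conjugation by `a`. -/
theorem conj_mul_central {P : Type*} [Group P] (a b z : P) (hz : z ∈ Subgroup.center P) :
    (a * z) * b * (a * z)⁻¹ = a * b * a⁻¹ := by
  have h := Subgroup.mem_center_iff.mp hz b
  calc (a * z) * b * (a * z)⁻¹ = a * (z * b) * z⁻¹ * a⁻¹ := by group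
    _ = a * (b * z) * z⁻¹ * a⁻¹ := by rw [h]
    _ = a * b * a⁻¹ := by group

/-- Commutators do not see central factors. -/
theorem commutator_mul_central {P : Type*} [Group P] (a b z₁ z₂ : P) (hz₁ : z₁ ∈ Subgroup.center P)
    (hz₂ : z₂ ∈ Subgroup.center P) :
    (a * z₁) * (b * z₂) * (a * z₁)⁻¹ * (b * z₂)⁻¹ = a * b * a⁻¹ * b⁻¹ := by
  rw [conj_mul_central a (b * z₂) z₁ hz₁]
  have h := Subgroup.mem_center_iff.mp hz₂ a⁻¹
  calc a * (b * z₂) * a⁻¹ * (b * z₂)⁻¹ = a * b * (z₂ * a⁻¹) * z₂⁻¹ * b⁻¹ := by group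
    _ = a * b * (a⁻¹ * z₂) * z₂⁻¹ * b⁻¹ := by rw [h]
    _ = a * b * a⁻¹ * b⁻¹ := by group

/-- Two homomorphisms out of a perfect group that differ by central elements are equal. -/
theorem eq_of_perfect_of_central_diff {G X : Type*} [Group G] [Group X] (hG : commutator G = ⊤)
    (f₁ f₂ : G →* X) (h : ∀ g : G, f₁ g * (f₂ g)⁻¹ ∈ Subgroup.center X) : f₁ = f₂ := by
  let d : G →* Subgroup.center X :=
    { toFun := fun g => ⟨f₁ g * (f₂ g)⁻¹, h g⟩
      map_one' := by
        apply Subtype.ext
        simp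
      map_mul' := by
        intro a b
        apply Subtype.ext
        show f₁ (a * b) * (f₂ (a * b))⁻¹ = (f₁ a * (f₂ a)⁻¹) * (f₁ b * (f₂ b)⁻¹)
        have e := Subgroup.mem_center_iff.mp (h b) (f₂ a)⁻¹
        rw [map_mul, map_mul]
        calc f₁ a * f₁ b * (f₂ a * f₂ b)⁻¹ = f₁ a * ((f₁ b * (f₂ b)⁻¹) * (f₂ a)⁻¹) := by group
          _ = f₁ a * ((f₂ a)⁻¹ * (f₁ b * (f₂ b)⁻¹)) := by rw [← e]
          _ = (f₁ a * (f₂ a)⁻¹) * (f₁ b * (f₂ b)⁻¹) := by group }
  have key : commutator G ≤ d.ker := by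
    rw [commutator_eq_closure, Subgroup.closure_le]
    rintro x ⟨a, b, rfl⟩
    rw [SetLike.mem_coe, MonoidHom.mem_ker, commutatorElement_def, map_mul, map_mul, map_mul,
      map_inv, map_inv]
    have hcomm : d a * d b = d b * d a := by
      apply Subtype.ext
      exact (Subgroup.mem_center_iff.mp (d a).2 (d b).1).symm
    rw [hcomm]
    group
  ext g
  have hg : g ∈ d.ker := key (hG ▸ Subgroup.mem_top g)
  rw [MonoidHom.mem_ker] at hg
  have h2 : f₁ g * (f₂ g)⁻¹ = 1 := congrArg Subtype.val hg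
  exact mul_inv_eq_one.mp h2

/-- If the kernel of `f : P →* G` is central and `G` is finite, then `P` has finitely many commutators. -/
theorem finite_commutatorSet_of_central_ker {P : Type*} {G : Type*} [Group P] [Group G] [Finite G]
    (f : P →* G) (hc : f.ker ≤ Subgroup.center P) : Finite (commutatorSet P) := by
  classical
  let s : G → P := fun g => if h : ∃ p, f p = g then h.choose else 1
  have hs : ∀ p : P, f (s (f p)) = f p := by
    intro p
    have h : ∃ p', f p' = f p := ⟨p, rfl⟩
    show f (if h : ∃ p', f p' = f p then h.choose else 1) = f p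
    rw [dif_pos h]
    exact h.choose_spec
  have hsub : commutatorSet P ⊆ Set.range (fun q : G × G => s q.1 * s q.2 * (s q.1)⁻¹ * (s q.2)⁻¹) := by
    rintro x ⟨p₁, p₂, rfl⟩
    refine ⟨(f p₁, f p₂), ?_⟩
    have h1 : p₁⁻¹ * s (f p₁) ∈ Subgroup.center P := by
      apply hc
      rw [MonoidHom.mem_ker, map_mul, map_inv, hs, inv_mul_cancel]
    have h2 : p₂⁻¹ * s (f p₂) ∈ Subgroup.center P := by
      apply hc
      rw [MonoidHom.mem_ker, map_mul, map_inv, hs, inv_mul_cancel]
    have e1 : s (f p₁) = p₁ * (p₁⁻¹ * s (f p₁)) := by group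
    have e2 : s (f p₂) = p₂ * (p₂⁻¹ * s (f p₂)) := by group
    show s (f p₁) * s (f p₂) * (s (f p₁))⁻¹ * (s (f p₂))⁻¹ = p₁ * p₂ * p₁⁻¹ * p₂⁻¹
    rw [e1, e2, commutator_mul_central _ _ _ _ h1 h2]
  exact Set.Finite.subset (Set.finite_range _) hsub

/-- Schur: if the kernel of `f : P →* G` is central and `G` is finite, the commutator subgroup of `P` is
finite. -/
theorem finite_commutator_of_central_ker {P : Type*} {G : Type*} [Group P] [Group G] [Finite G]
    (f : P →* G) (hc : f.ker ≤ Subgroup.center P) : Finite (commutator P) := by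
  have := finite_commutatorSet_of_central_ker f hc
  infer_instance

/-- If `f : P →* G` is surjective onto a perfect group then every element is a commutator-subgroup element
times an element of the kernel. -/
theorem exists_mul_ker_of_perfect {P : Type*} {G : Type*} [Group P] [Group G] (hG : commutator G = ⊤)
    (f : P →* G) (hf : Function.Surjective f) (y : P) :
    ∃ w ∈ commutator P, ∃ l ∈ f.ker, y = w * l := by
  have h1 : (commutator P).map f = ⊤ := by
    rw [commutator_def, Subgroup.map_commutator, ← MonoidHom.range_eq_map, MonoidHom.range_eq_top.mpr hf,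
      ← commutator_def, hG]
  have h2 : f y ∈ (commutator P).map f := h1 ▸ Subgroup.mem_top _
  obtain ⟨w, hw, hwy⟩ := h2
  refine ⟨w, hw, w⁻¹ * y, ?_, by group⟩
  rw [MonoidHom.mem_ker, map_mul, map_inv, hwy, inv_mul_cancel]

/-- If `P` is generated by its commutator subgroup and central elements, the commutator subgroup is
perfect. -/
theorem commutator_perfect_of_central {P : Type*} [Group P]
    (h : ∀ y : P, ∃ w ∈ commutator P, ∃ l ∈ Subgroup.center P, y = w * l) :
    commutator ↥(commutator P) = ⊤ := by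
  have key : commutator P ≤ ⁅commutator P, commutator P⁆ := by
    rw [commutator_eq_closure, Subgroup.closure_le]
    rintro x ⟨y₁, y₂, rfl⟩
    obtain ⟨w₁, hw₁, l₁, hl₁, rfl⟩ := h y₁
    obtain ⟨w₂, hw₂, l₂, hl₂, rfl⟩ := h y₂
    rw [SetLike.mem_coe, commutatorElement_def, commutator_mul_central _ _ _ _ hl₁ hl₂,
      ← commutatorElement_def, ← commutator_eq_closure]
    exact Subgroup.commutator_mem_commutator hw₁ hw₂
  have h2 : ⁅commutator P, commutator P⁆ = commutator P :=
    le_antisymm (Subgroup.commutator_le_left _ _) key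
  have h3 : Group.IsPerfect ↥(commutator P) := (Subgroup.isPerfect_iff).mpr h2
  exact Group.isPerfect_def.mp h3

end Cfsg.Agent.H69
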