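/-
helper69: a finite group with a faithful irreducible character of prime degree `p` and order divisible by `p ^ 2`
has nontrivial centre.  Built on helper4's character library.
-/
import Cfsg.Agent.H4.Burnside

set_option autoImplicit false

namespace Cfsg.Agent.H69

open Module

universe u v

/-- Endomorphisms commuting with an operator whose eigenspaces span and are at most one-dimensional commute with
each other. -/
theorem comm_of_comm_of_eigenspace_finrank_le_one {V : Type v} [AddCommGroup V] [Module ℂ V]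
    [FiniteDimensional ℂ V] (T : Module.End ℂ V) (hT : ⨆ μ : ℂ, Module.End.eigenspace T μ = ⊤)
    (h1 : ∀ μ : ℂ, finrank ℂ (Module.End.eigenspace T μ) ≤ 1)
    (S S' : Module.End ℂ V) (hS : S ∘ₗ T = T ∘ₗ S) (hS' : S' ∘ₗ T = T ∘ₗ S') : S ∘ₗ S' = S' ∘ₗ S := by
  have hmaps : ∀ (R : Module.End ℂ V), R ∘ₗ T = T ∘ₗ R → ∀ (μ : ℂ) (v : V),
      v ∈ Module.End.eigenspace T μ → R v ∈ Module.End.eigenspace T μ := by
    intro R hR μ v hv
    rw [Module.End.mem_eigenspace_iff] at hv ⊢
    have h2 : T (R v) = R (T v) := (LinearMap.congr_fun hR v).symm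
    rw [h2, hv, map_smul]
  have hle : (⨆ μ : ℂ, Module.End.eigenspace T μ) ≤ LinearMap.eqLocus (S ∘ₗ S') (S' ∘ₗ S) := by
    apply iSup_le
    intro μ v hv
    rw [LinearMap.mem_eqLocus]
    obtain ⟨v₀, hv₀⟩ := finrank_le_one_iff.mp (h1 μ)
    obtain ⟨a, ha⟩ := hv₀ ⟨v, hv⟩
    obtain ⟨s, hs⟩ := hv₀ ⟨S v₀.1, hmaps S hS μ v₀.1 v₀.2⟩
    obtain ⟨s', hs'⟩ := hv₀ ⟨S' v₀.1, hmaps S' hS' μ v₀.1 v₀.2⟩
    have ha' : v = a • (v₀ : V) := (congrArg Subtype.val ha).symm
    have hs1 : S (v₀ : V) = s • (v₀ : V) := (congrArg Subtype.val hs).symm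
    have hs1' : S' (v₀ : V) = s' • (v₀ : V) := (congrArg Subtype.val hs').symm
    show S (S' v) = S' (S v)
    have e1 : S (S' v) = (a * (s' * s)) • (v₀ : V) := by
      rw [ha', map_smul, hs1', map_smul, map_smul, hs1, smul_smul, smul_smul, mul_assoc]
    have e2 : S' (S v) = (a * (s * s')) • (v₀ : V) := by
      rw [ha', map_smul, hs1, map_smul, map_smul, hs1', smul_smul, smul_smul, mul_assoc]
    rw [e1, e2, mul_comm s' s]
  apply LinearMap.ext
  intro v
  have hv : v ∈ LinearMap.eqLocus (S ∘ₗ S') (S' ∘ₗ S) := hle (hT ▸ Submodule.mem_top)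
  exact hv

section

variable {G : Type u} [Group G] [Finite G] {V : Type v} [AddCommGroup V] [Module ℂ V]
  [FiniteDimensional ℂ V]

/-- If the character vanishes on the nontrivial powers of an element `z` of order dividing `p = dim V`, then every
eigenvalue of `ρ z` has multiplicity one. -/
theorem eigMult_eq_one_of_character_pow_eq_zero (ρ : Representation ℂ G V) (z : G) (p : ℕ) (hp : 0 < p)
    (hz : z ^ p = 1) (h0 : ∀ i : ℕ, 0 < i → i < p → ρ.character (z ^ i) = 0) (hd : finrank ℂ V = p)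
    (μ₀ : ℂ) (hμ₀ : μ₀ ∈ H4.eigFinset ρ z) : H4.eigMult ρ z μ₀ = 1 := by
  classical
  have hpow : ∀ μ ∈ H4.eigFinset ρ z, μ ^ p = 1 := by
    intro μ hμ
    have h1 := H4.eigFinset_pow_orderOf ρ hμ
    obtain ⟨k, hk⟩ := orderOf_dvd_of_pow_eq_one hz
    rw [hk, pow_mul, h1, one_pow]
  have hμ₀0 : μ₀ ≠ 0 := by
    intro h
    have h1 := hpow μ₀ hμ₀
    rw [h, zero_pow hp.ne'] at h1
    exact zero_ne_one h1
  -- the sum computed in two ways
  have hA : ∑ i ∈ Finset.range p, ρ.character (z ^ i) * (μ₀⁻¹) ^ i = (p : ℂ) := by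
    rw [Finset.sum_eq_single 0]
    · rw [pow_zero, pow_zero, mul_one, Representation.char_one, hd]
    · intro i hi hi0
      rw [h0 i (Nat.pos_of_ne_zero hi0) (Finset.mem_range.mp hi), zero_mul]
    · intro h
      exact absurd (Finset.mem_range.mpr hp) h
  have hB : ∑ i ∈ Finset.range p, ρ.character (z ^ i) * (μ₀⁻¹) ^ i =
      (p : ℂ) * (H4.eigMult ρ z μ₀ : ℂ) := by
    have h1 : ∀ i ∈ Finset.range p, ρ.character (z ^ i) * (μ₀⁻¹) ^ i =
        ∑ μ ∈ H4.eigFinset ρ z, (H4.eigMult ρ z μ : ℂ) * (μ * μ₀⁻¹) ^ i := by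
      intro i _
      rw [H4.character_pow, Finset.sum_mul]
      refine Finset.sum_congr rfl fun μ _ => ?_
      rw [mul_pow, mul_assoc]
    rw [Finset.sum_congr rfl h1, Finset.sum_comm]
    have h2 : ∀ μ ∈ H4.eigFinset ρ z, ∑ i ∈ Finset.range p, (H4.eigMult ρ z μ : ℂ) * (μ * μ₀⁻¹) ^ i =
        if μ = μ₀ then (p : ℂ) * (H4.eigMult ρ z μ₀ : ℂ) else 0 := by
      intro μ hμ
      rw [← Finset.mul_sum]
      by_cases hμμ : μ = μ₀
      · rw [if_pos hμμ, hμμ, mul_inv_cancel₀ hμ₀0]
        simp [mul_comm]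
      · rw [if_neg hμμ]
        have hne : μ * μ₀⁻¹ ≠ 1 := by
          intro h
          apply hμμ
          have h3 : μ = μ * μ₀⁻¹ * μ₀ := by rw [mul_assoc, inv_mul_cancel₀ hμ₀0, mul_one]
          rw [h3, h, one_mul]
        rw [geom_sum_eq hne, mul_pow, hpow μ hμ, inv_pow, hpow μ₀ hμ₀, inv_one, mul_one, sub_self, zero_div,
          mul_zero]
    rw [Finset.sum_congr rfl h2, Finset.sum_ite_eq' (H4.eigFinset ρ z) μ₀, if_pos hμ₀]
  have hC : (p : ℂ) * (H4.eigMult ρ z μ₀ : ℂ) = (p : ℂ) * 1 := by rw [← hB, hA, mul_one]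
  have hp0 : (p : ℂ) ≠ 0 := by exact_mod_cast hp.ne'
  have hD : (H4.eigMult ρ z μ₀ : ℂ) = 1 := mul_left_cancel₀ hp0 hC
  exact_mod_cast hD

end

/-- Let `G` have a faithful irreducible character of prime degree `p` with `p ^ 2 ∣ |G|`. Then `Z(G) ≠ 1`. -/
theorem center_ne_bot_of_faithful_degree_prime {G : Type u} [Group G] [Finite G] (p : ℕ) (hp : p.Prime)
    (χ : Cfsg.IrrCharacter G) (hdeg : χ.1 1 = p) (hfaith : ∀ g : G, χ.1 g = χ.1 1 → g = 1)
    (hdiv : p ^ 2 ∣ Nat.card G) : Subgroup.center G ≠ ⊥ := by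
  classical
  obtain ⟨n, ρ, hirr, hρ⟩ := χ.2
  have := hirr
  have : Fact p.Prime := ⟨hp⟩
  have hfin : finrank ℂ (Fin n → ℂ) = p := by
    have h1 : ρ.character 1 = (finrank ℂ (Fin n → ℂ) : ℂ) := Representation.char_one ρ
    rw [hρ, hdeg] at h1
    exact_mod_cast h1.symm
  intro hZ
  -- faithfulness
  have hker : ∀ g : G, ρ g = LinearMap.id → g = 1 := by
    intro g hg
    apply hfaith
    rw [← hρ, Representation.char_one]
    exact (H4.character_eq_finrank_iff ρ g).mpr hg
  have hcomm_of : ∀ a b : G, ρ (a * b) = ρ (b * a) → a * b = b * a := by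
    intro a b hab
    have h1 : ρ ((b * a)⁻¹ * (a * b)) = LinearMap.id := by
      rw [map_mul, hab, ← map_mul, inv_mul_cancel, map_one]
      rfl
    have h2 := hker _ h1
    have h3 : a * b = (b * a) * ((b * a)⁻¹ * (a * b)) := by group
    rw [h3, h2, mul_one]
  -- elements acting as scalars are trivial
  have hscal : ∀ x : G, ‖ρ.character x‖ = (finrank ℂ (Fin n → ℂ) : ℝ) → x = 1 := by
    intro x hx
    obtain ⟨ω, hω⟩ := (H4.character_norm_eq_iff ρ x).mp hx
    have hxc : x ∈ Subgroup.center G := by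
      rw [Subgroup.mem_center_iff]
      intro g
      apply hcomm_of
      rw [map_mul, map_mul, hω]
      ext v
      simp
    rw [hZ, Subgroup.mem_bot] at hxc
    exact hxc
  obtain ⟨P⟩ : Nonempty (Sylow p G) := inferInstance
  -- Burnside: the character vanishes on nontrivial elements centralized by `P`
  have hB : ∀ x : G, (P : Subgroup G) ≤ Subgroup.centralizer ({x} : Set G) → x ≠ 1 → ρ.character x = 0 := by
    intro x hx hx1
    have hcop : Nat.Coprime (finrank ℂ (Fin n → ℂ)) (Subgroup.centralizer ({x} : Set G)).index := by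
      rw [hfin]
      apply (Nat.Prime.coprime_iff_not_dvd hp).mpr
      intro hdvd
      exact P.not_dvd_index (hdvd.trans (Subgroup.index_dvd_of_le hx))
    rcases H4.character_eq_zero_or_norm_eq_of_coprime ρ x hcop with h | h
    · exact h
    · exact absurd (hscal x h) hx1
  have hPcard : p ^ 2 ∣ Nat.card (P : Subgroup G) := P.pow_dvd_card_of_pow_dvd_card hdiv
  -- a central element of order `p` in `P`
  have hPG : IsPGroup p (P : Subgroup G) := P.2
  have hPnt : Nontrivial (P : Subgroup G) := by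
    rw [← Finite.one_lt_card_iff_nontrivial]
    have h1 : 0 < p ^ 2 := pow_pos hp.pos 2
    have h2 := Nat.le_of_dvd Nat.card_pos hPcard
    have h3 : 1 < p ^ 2 := Nat.one_lt_pow (by norm_num) hp.one_lt
    omega
  have hcen : p ∣ Nat.card (Subgroup.center (P : Subgroup G)) := by
    have h1 : IsPGroup p (Subgroup.center (P : Subgroup G)) := hPG.to_subgroup _
    rcases h1.card_eq_or_dvd with h2 | h2
    · exfalso
      have h3 := hPG.bot_lt_center
      rw [Subgroup.card_eq_one] at h2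
      exact (ne_of_gt h3) h2
    · exact h2
  obtain ⟨z', hz'⟩ := exists_prime_orderOf_dvd_card' (G := Subgroup.center (P : Subgroup G)) p hcen
  obtain ⟨z, hzdef⟩ : ∃ z : G, z = (((z' : Subgroup.center (P : Subgroup G)) : (P : Subgroup G)) : G) :=
    ⟨_, rfl⟩
  have hzo : orderOf z = p := by
    rw [hzdef, Subgroup.orderOf_coe, Subgroup.orderOf_coe, hz']
  have hzP : ∀ y ∈ (P : Subgroup G), y * z = z * y := by
    intro y hy
    have h1 := Subgroup.mem_center_iff.mp z'.2 ⟨y, hy⟩
    rw [hzdef]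
    exact congrArg Subtype.val h1
  have hzp : z ^ p = 1 := by rw [← hzo]; exact pow_orderOf_eq_one z
  have hz0 : ∀ i : ℕ, 0 < i → i < p → ρ.character (z ^ i) = 0 := by
    intro i hi0 hip
    apply hB
    · intro y hy
      rw [Subgroup.mem_centralizer_iff]
      intro w hw
      rw [Set.mem_singleton_iff.mp hw]
      exact ((Commute.pow_right (hzP y hy) i).eq).symm
    · intro h
      have h1 := orderOf_dvd_of_pow_eq_one h
      rw [hzo] at h1
      exact absurd (Nat.le_of_dvd hi0 h1) (by omega)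
  -- eigenspaces of `ρ z` are at most one-dimensional
  have hmult : ∀ μ : ℂ, finrank ℂ (Module.End.eigenspace (ρ z) μ) ≤ 1 := by
    intro μ
    by_cases hμ : μ ∈ H4.eigFinset ρ z
    · exact le_of_eq (eigMult_eq_one_of_character_pow_eq_zero ρ z p hp.pos hzp hz0 hfin μ hμ)
    · rw [H4.mem_eigFinset, not_not] at hμ
      rw [hμ, finrank_bot]
      exact Nat.zero_le 1
  have htop : ⨆ μ : ℂ, Module.End.eigenspace (ρ z) μ = ⊤ :=
    (H4.rho_isSemisimple ρ z).iSup_eigenspace_eq_top
  -- `P` is commutative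
  have hPcomm : ∀ y ∈ (P : Subgroup G), ∀ y' ∈ (P : Subgroup G), y * y' = y' * y := by
    intro y hy y' hy'
    apply hcomm_of
    have h1 : ρ y ∘ₗ ρ z = ρ z ∘ₗ ρ y := by
      have h2 : ρ (y * z) = ρ (z * y) := by rw [hzP y hy]
      rw [map_mul, map_mul] at h2
      exact h2
    have h1' : ρ y' ∘ₗ ρ z = ρ z ∘ₗ ρ y' := by
      have h2 : ρ (y' * z) = ρ (z * y') := by rw [hzP y' hy']
      rw [map_mul, map_mul] at h2
      exact h2
    rw [map_mul, map_mul]
    exact comm_of_comm_of_eigenspace_finrank_le_one (ρ z) htop hmult (ρ y) (ρ y') h1 h1'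
  -- the character vanishes on `P` off the identity
  have hvan : ∀ x : (P : Subgroup G), x ≠ 1 → ρ.character (x : G) = 0 := by
    intro x hx
    apply hB
    · intro y hy
      rw [Subgroup.mem_centralizer_iff]
      intro w hw
      rw [Set.mem_singleton_iff.mp hw]
      exact hPcomm _ x.2 _ hy
    · intro h
      exact hx (Subtype.ext h)
  -- integrality of the multiplicity of the trivial character of `P`
  let _ : Fintype (P : Subgroup G) := Fintype.ofFinite _
  have hχP : Cfsg.IsCharacter (P : Subgroup G) (fun h : (P : Subgroup G) => ρ.character (h : G)) :=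
    H4.isCharacter_restrict (P : Subgroup G) ⟨n, ρ, rfl⟩
  have h1P : Cfsg.IsCharacter (P : Subgroup G) (fun _ : (P : Subgroup G) => (1 : ℂ)) := by
    refine ⟨1, Representation.trivial ℂ (P : Subgroup G) (Fin 1 → ℂ), ?_⟩
    funext g
    simp [Representation.character]
  obtain ⟨m, hm⟩ := H4.classInner_isCharacter_nat hχP h1P
  have hsum : ∑ g : (P : Subgroup G), ρ.character (g : G) * (starRingEnd ℂ) (1 : ℂ) = (p : ℂ) := by
    rw [Finset.sum_eq_single (1 : (P : Subgroup G))]
    · rw [map_one, mul_one, Subgroup.coe_one, Representation.char_one, hfin]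
    · intro g _ hg
      rw [hvan g hg, zero_mul]
    · intro h
      exact absurd (Finset.mem_univ _) h
  have hm' : (Nat.card (P : Subgroup G) : ℂ)⁻¹ * (p : ℂ) = (m : ℂ) := by
    rw [← hm, ← hsum]
    rfl
  have hc0 : (Nat.card (P : Subgroup G) : ℂ) ≠ 0 := by
    exact_mod_cast (Nat.card_pos (α := (P : Subgroup G))).ne'
  have hm'' : (p : ℂ) = ((Nat.card (P : Subgroup G) * m : ℕ) : ℂ) := by
    rw [Nat.cast_mul, ← hm', ← mul_assoc, mul_inv_cancel₀ hc0, one_mul]
  have hnat : p = Nat.card (P : Subgroup G) * m := by exact_mod_cast hm''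
  have h2 : p ^ 2 ∣ p := by
    have : Nat.card (P : Subgroup G) ∣ p := ⟨m, hnat⟩
    exact hPcard.trans this
  have h3 : p ^ 2 ≤ p := Nat.le_of_dvd hp.pos h2
  have h4 : p < p ^ 2 := by
    have := hp.one_lt
    nlinarith
  omega

end Cfsg.Agent.H69
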