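import Mathlib
import Cfsg.Prelude.Def_FusionSystem

/-!
# Centric subgroups of an invariant subsystem are centric in every subsystem of `F` over the same
`T` (helper69, piece S5142-CEN of the team project S5142 of helper87).
-/

set_option autoImplicit false

namespace Cfsg.Agent.H69.FsCen

open Cfsg Cfsg.FusionSystem

universe u

variable {Ω : Type u} [Group Ω] {S T : Subgroup Ω}

theorem isCentric_of_invariant [Finite S] {F : FusionSystem S} {T : Subgroup Ω}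
    {E D' : FusionSystem T} (hE : E.IsInvariantIn F) (hD' : D'.IsSubsystemOf F) {P : Subgroup Ω}
    (hP : E.IsCentric P) : D'.IsCentric P := by
  obtain ⟨hPT, hcen⟩ := hP
  refine ⟨hPT, ?_⟩
  rintro Q ⟨φ, hφ, rfl⟩
  obtain ⟨-, -, -, hfr⟩ := hE
  obtain ⟨α, -, φ₀, hφ₀, hα⟩ := hfr P hPT φ (hD' P hφ)
  have hφ₀T : ∀ x : P, φ₀ x ∈ T := (E.le_of_mem hφ₀).2
  have hc0 := hcen φ₀.range ⟨φ₀, hφ₀, rfl⟩
  intro c hc
  obtain ⟨hcT, hcQ⟩ := hc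
  have hcT' : c ∈ T := hcT
  have hcQ' : c ∈ Subgroup.centralizer (φ.range : Set Ω) := hcQ
  -- the element `α⁻¹ c` of `T`
  have hmem : ((α⁻¹ ⟨c, hcT'⟩ : T) : Ω) ∈ centralizerIn T φ₀.range := by
    refine ⟨(α⁻¹ ⟨c, hcT'⟩ : T).2, ?_⟩
    show ((α⁻¹ ⟨c, hcT'⟩ : T) : Ω) ∈ Subgroup.centralizer (φ₀.range : Set Ω)
    rw [Subgroup.mem_centralizer_iff]
    rintro y ⟨x, rfl⟩
    -- `c` commutes with `φ x = α (φ₀ x)`
    have h1 : (φ x : Ω) * c = c * (φ x : Ω) :=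
      (Subgroup.mem_centralizer_iff.mp hcQ') (φ x) ⟨x, rfl⟩
    rw [hα x (hφ₀T x)] at h1
    have h2 : α ⟨φ₀ x, hφ₀T x⟩ * (⟨c, hcT'⟩ : T) = (⟨c, hcT'⟩ : T) * α ⟨φ₀ x, hφ₀T x⟩ :=
      Subtype.ext h1
    have h3 := congrArg (fun t : T => α⁻¹ t) h2
    simp only [map_mul, MulAut.inv_apply_self] at h3
    exact congrArg Subtype.val h3
  obtain ⟨x, hx⟩ := hc0 hmem
  refine ⟨x, ?_⟩
  rw [hα x (hφ₀T x)]
  have : (⟨φ₀ x, hφ₀T x⟩ : T) = α⁻¹ ⟨c, hcT'⟩ := Subtype.ext hx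
  rw [this, MulAut.apply_inv_self]

end Cfsg.Agent.H69.FsCen
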