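/-
helper69: the Hopf construction `F / [R, F]` for a free presentation `F = FreeGroup Q → Q` and its
universal property for central extensions.
-/
import Cfsg.Agent.H69.Central

set_option autoImplicit false

namespace Cfsg.Agent.H69

universe u v w

section Hopf

variable (Q : Type u) [Group Q]

/-- The canonical surjection from the free group on the underlying set of `Q`. -/
def hopfRho : FreeGroup Q →* Q := FreeGroup.lift id

theorem hopfRho_of (q : Q) : hopfRho Q (FreeGroup.of q) = q := by
  simp [hopfRho]

theorem hopfRho_surjective : Function.Surjective (hopfRho Q) := fun q => ⟨FreeGroup.of q, hopfRho_of Q q⟩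

/-- The subgroup `[R, F]`, `R` the kernel of the canonical surjection. -/
def hopfC : Subgroup (FreeGroup Q) := ⁅(hopfRho Q).ker, (⊤ : Subgroup (FreeGroup Q))⁆

instance hopfC_normal : (hopfC Q).Normal := by
  unfold hopfC
  infer_instance

theorem hopfC_le_ker : hopfC Q ≤ (hopfRho Q).ker := Subgroup.commutator_le_left _ _

/-- The group `F / [R, F]`. -/
abbrev HopfE : Type u := FreeGroup Q ⧸ hopfC Q

/-- The induced surjection `F / [R, F] → Q`; its kernel `R / [R, F]` is central. -/
def hopfPi : HopfE Q →* Q := QuotientGroup.lift (hopfC Q) (hopfRho Q) (hopfC_le_ker Q)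

theorem hopfPi_mk (f : FreeGroup Q) : hopfPi Q (QuotientGroup.mk f) = hopfRho Q f := rfl

theorem hopfPi_surjective : Function.Surjective (hopfPi Q) := by
  intro q
  obtain ⟨f, hf⟩ := hopfRho_surjective Q q
  exact ⟨QuotientGroup.mk f, hf⟩

theorem hopfPi_ker_le_center : (hopfPi Q).ker ≤ Subgroup.center (HopfE Q) := by
  intro x hx
  induction x using QuotientGroup.induction_on with
  | H r =>
    rw [MonoidHom.mem_ker, hopfPi_mk] at hx
    have hr : r ∈ (hopfRho Q).ker := MonoidHom.mem_ker.mpr hx
    rw [Subgroup.mem_center_iff]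
    intro y
    induction y using QuotientGroup.induction_on with
    | H f =>
      rw [← QuotientGroup.mk_mul, ← QuotientGroup.mk_mul, QuotientGroup.eq]
      have h1 : (f * r)⁻¹ * (r * f) = r⁻¹ * f⁻¹ * r⁻¹⁻¹ * f⁻¹⁻¹ := by group
      rw [h1]
      exact Subgroup.commutator_mem_commutator (Subgroup.inv_mem _ hr) (Subgroup.mem_top _)

/-- Every central extension of `Q` receives a map from `F / [R, F]` over `Q`. -/
theorem hopf_lift {X : Type v} [Group X] (ξ : X →* Q) (hξ : Function.Surjective ξ)
    (hc : ξ.ker ≤ Subgroup.center X) : ∃ φ : HopfE Q →* X, ξ.comp φ = hopfPi Q := by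
  classical
  let s : Q → X := fun q => (hξ q).choose
  have hs : ∀ q, ξ (s q) = q := fun q => (hξ q).choose_spec
  let φ₀ : FreeGroup Q →* X := FreeGroup.lift s
  have h1 : ξ.comp φ₀ = hopfRho Q := by
    apply FreeGroup.ext_hom
    intro q
    show ξ (FreeGroup.lift s (FreeGroup.of q)) = hopfRho Q (FreeGroup.of q)
    rw [FreeGroup.lift_apply_of, hs, hopfRho_of]
  have h2 : hopfC Q ≤ φ₀.ker := by
    unfold hopfC
    rw [Subgroup.commutator_le]
    intro r hr f _
    have h3 : φ₀ r ∈ Subgroup.center X := by
      apply hc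
      rw [MonoidHom.mem_ker]
      have : ξ (φ₀ r) = hopfRho Q r := DFunLike.congr_fun h1 r
      rw [this]
      exact MonoidHom.mem_ker.mp hr
    rw [MonoidHom.mem_ker, commutatorElement_def, map_mul, map_mul, map_mul, map_inv, map_inv,
      ← Subgroup.mem_center_iff.mp h3 (φ₀ f)]
    group
  refine ⟨QuotientGroup.lift (hopfC Q) φ₀ h2, ?_⟩
  apply MonoidHom.ext
  intro x
  induction x using QuotientGroup.induction_on with
  | H f =>
    show ξ (φ₀ f) = hopfRho Q f
    exact DFunLike.congr_fun h1 f

end Hopf

end Cfsg.Agent.H69
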