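/-
helper69: splitting lemma — a homomorphism from a commutative group to a free abelian group of finite rank has a
complement to its kernel inside any subgroup that covers the image.
-/
import Cfsg.Agent.H69.Central

set_option autoImplicit false

namespace Cfsg.Agent.H69

universe u v w

/-- Let `θ : R →* Multiplicative (ι →₀ ℤ)` with `R` commutative, `ι` finite, and `K ≤ R` with `K ⊔ ker θ = ⊤`.
Then `ker θ` has a complement contained in `K`. -/
theorem exists_complement_ker_le {R : Type u} [Group R] (hcomm : ∀ a b : R, a * b = b * a)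
    {ι : Type v} [Finite ι] (θ : R →* Multiplicative (ι →₀ ℤ)) (K : Subgroup R) (hK : K ⊔ θ.ker = ⊤) :
    ∃ T : Subgroup R, T ≤ K ∧ T ⊓ θ.ker = ⊥ ∧ T ⊔ θ.ker = ⊤ := by
  let _ : CommGroup R := { (inferInstance : Group R) with mul_comm := hcomm }
  let θa : Additive R →+ (ι →₀ ℤ) := MonoidHom.toAdditiveLeft θ
  let θl : Additive R →ₗ[ℤ] (ι →₀ ℤ) := θa.toIntLinearMap
  have hθl : ∀ r : R, θl (Additive.ofMul r) = Multiplicative.toAdd (θ r) := fun r => rfl
  let N : Submodule ℤ (ι →₀ ℤ) := LinearMap.range θl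
  obtain ⟨n, ⟨b⟩⟩ := Submodule.nonempty_basis_of_pid (Finsupp.basisSingleOne : Module.Basis ι ℤ (ι →₀ ℤ)) N
  have hex : ∀ i : Fin n, ∃ k ∈ K, θl (Additive.ofMul k) = (b i : ι →₀ ℤ) := by
    intro i
    obtain ⟨a, ha⟩ := (b i).2
    have h1 : Additive.toMul a ∈ K ⊔ θ.ker := hK ▸ Subgroup.mem_top _
    obtain ⟨y, hy, z, hz, hyz⟩ := Subgroup.mem_sup.mp h1
    refine ⟨y, hy, ?_⟩
    rw [← ha, hθl]
    have h2 : θl a = Multiplicative.toAdd (θ (Additive.toMul a)) := rfl
    rw [h2, ← hyz, map_mul, MonoidHom.mem_ker.mp hz, mul_one]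
  choose k hkK hkθ using hex
  let s : N →ₗ[ℤ] Additive R := b.constr ℤ (fun i => Additive.ofMul (k i))
  have hs : ∀ w : N, θl (s w) = (w : ι →₀ ℤ) := by
    have h1 : θl ∘ₗ s = N.subtype := by
      apply b.ext
      intro i
      show θl (s (b i)) = (b i : ι →₀ ℤ)
      rw [Module.Basis.constr_basis, hkθ]
    intro w
    exact DFunLike.congr_fun h1 w
  -- the range of s lies in K
  let Kl : Submodule ℤ (Additive R) := AddSubgroup.toIntSubmodule (Subgroup.toAddSubgroup K)
  have hsK : ∀ w : N, Additive.toMul (s w) ∈ K := by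
    intro w
    have h1 : LinearMap.range s ≤ Kl := by
      rw [Module.Basis.constr_range, Submodule.span_le]
      rintro _ ⟨i, rfl⟩
      exact hkK i
    exact h1 ⟨w, rfl⟩
  -- the idempotent endomorphism
  let p : R →* R := MonoidHom.toAdditive.symm ((s.comp θl.rangeRestrict).toAddMonoidHom)
  have hp : ∀ r : R, p r = Additive.toMul (s (θl.rangeRestrict (Additive.ofMul r))) := fun r => rfl
  have hθp : ∀ r : R, θ (p r) = θ r := by
    intro r
    have h1 : θl (Additive.ofMul (p r)) = θl (Additive.ofMul r) := by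
      rw [hp]
      exact hs _
    rw [hθl, hθl] at h1
    exact h1
  refine ⟨p.range, ?_, ?_, ?_⟩
  · rintro _ ⟨r, rfl⟩
    rw [hp]
    exact hsK _
  · rw [eq_bot_iff]
    rintro x ⟨⟨r, rfl⟩, hx⟩
    have hx' : p r ∈ θ.ker := hx
    rw [MonoidHom.mem_ker, hθp] at hx'
    rw [Subgroup.mem_bot, hp]
    have h1 : θl.rangeRestrict (Additive.ofMul r) = 0 := by
      apply Subtype.ext
      show θl (Additive.ofMul r) = 0
      rw [hθl, hx']
      rfl
    rw [h1, map_zero]
    rfl
  · rw [eq_top_iff]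
    intro r _
    have h1 : r = p r * ((p r)⁻¹ * r) := by group
    rw [h1]
    refine Subgroup.mul_mem_sup ⟨r, rfl⟩ ?_
    rw [MonoidHom.mem_ker, map_mul, map_inv, hθp, inv_mul_cancel]

end Cfsg.Agent.H69
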