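/-
helper69: the Hopf multiplier `M = R/[R,F] ∩ (F/[R,F])'`, existence of Schur covers, and the description of
`ker ξ ∩ X'` for a central extension `ξ : X → Q`.
-/
import Cfsg.Agent.H69.Hopf
import Cfsg.Agent.H69.Split

set_option autoImplicit false

namespace Cfsg.Agent.H69

universe u v w

/-- A subgroup of the centre is normal. -/
theorem normal_of_le_center {E : Type*} [Group E] (T : Subgroup E) (hT : T ≤ Subgroup.center E) : T.Normal := by
  constructor
  intro n hn g
  have h := Subgroup.mem_center_iff.mp (hT hn) g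
  rw [h, mul_inv_cancel_right]
  exact hn

theorem map_commutator_le {E X : Type*} [Group E] [Group X] (φ : E →* X) :
    (commutator E).map φ ≤ commutator X := by
  rw [commutator_def, Subgroup.map_commutator]
  exact Subgroup.commutator_mono le_top le_top

section

variable (Q : Type u) [Group Q]

/-- The abelianization of the free group, as a map to the free abelian group `Q →₀ ℤ`. -/
noncomputable def hopfAb₀ : FreeGroup Q →* Multiplicative (Q →₀ ℤ) :=
  (AddMonoidHom.toMultiplicativeRight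
    ((FreeAbelianGroup.equivFinsupp Q).toAddMonoidHom :
      Additive (Abelianization (FreeGroup Q)) →+ (Q →₀ ℤ))).comp Abelianization.of

theorem hopfAb₀_ker : (hopfAb₀ Q).ker = commutator (FreeGroup Q) := by
  ext f
  rw [MonoidHom.mem_ker, ← Abelianization.ker_of, MonoidHom.mem_ker]
  constructor
  · intro h
    have h1 : (FreeAbelianGroup.equivFinsupp Q) (Additive.ofMul (Abelianization.of f)) = 0 := h
    have h2 : (Additive.ofMul (Abelianization.of f) : FreeAbelianGroup Q) = 0 :=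
      (AddEquiv.map_eq_zero_iff (FreeAbelianGroup.equivFinsupp Q)).mp h1
    exact h2
  · intro h
    show (hopfAb₀ Q) f = 1
    unfold hopfAb₀
    rw [MonoidHom.comp_apply, h, map_one]

theorem hopfC_le_ab₀_ker : hopfC Q ≤ (hopfAb₀ Q).ker := by
  rw [hopfAb₀_ker, commutator_def]
  exact Subgroup.commutator_mono le_top le_rfl

/-- The induced map `F/[R,F] → Q →₀ ℤ`; its kernel is the commutator subgroup. -/
noncomputable def hopfAb : HopfE Q →* Multiplicative (Q →₀ ℤ) :=
  QuotientGroup.lift (hopfC Q) (hopfAb₀ Q) (hopfC_le_ab₀_ker Q)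

theorem hopfAb_ker : (hopfAb Q).ker = commutator (HopfE Q) := by
  apply le_antisymm
  · intro x hx
    induction x using QuotientGroup.induction_on with
    | H f =>
      have h1 : f ∈ (hopfAb₀ Q).ker := hx
      rw [hopfAb₀_ker] at h1
      exact map_commutator_le (QuotientGroup.mk' (hopfC Q)) ⟨f, h1, rfl⟩
  · exact Abelianization.commutator_subset_ker (hopfAb Q)

/-- The Hopf multiplier `R/[R,F] ∩ (F/[R,F])'`. -/
def hopfM : Subgroup (HopfE Q) := (hopfPi Q).ker ⊓ commutator (HopfE Q)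

theorem hopfM_le_center : hopfM Q ≤ Subgroup.center (HopfE Q) :=
  inf_le_left.trans (hopfPi_ker_le_center Q)

instance hopfM_normal : (hopfM Q).Normal := normal_of_le_center _ (hopfM_le_center Q)

instance hopfM_finite [Finite Q] : Finite ↥(hopfM Q) := by
  have : Finite ↥(commutator (HopfE Q)) :=
    finite_commutator_of_central_ker (hopfPi Q) (hopfPi_ker_le_center Q)
  exact Finite.of_injective (Subgroup.inclusion (inf_le_right : hopfM Q ≤ commutator (HopfE Q)))
    (Subgroup.inclusion_injective _)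

/-- Inside any subgroup `K₀` of the kernel that covers it modulo the multiplier there is a complement to the
multiplier. -/
theorem hopf_complement [Finite Q] (K₀ : Subgroup (HopfE Q)) (hK₀ : K₀ ≤ (hopfPi Q).ker)
    (hcov : (hopfPi Q).ker ≤ K₀ ⊔ hopfM Q) :
    ∃ T : Subgroup (HopfE Q), T ≤ K₀ ∧ T ⊓ commutator (HopfE Q) = ⊥ ∧ (hopfPi Q).ker ≤ T ⊔ hopfM Q := by
  have hcomm : ∀ a b : ↥(hopfPi Q).ker, a * b = b * a := by
    intro a b
    apply Subtype.ext
    exact (Subgroup.mem_center_iff.mp (hopfPi_ker_le_center Q b.2) a.1)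
  let θ : ↥(hopfPi Q).ker →* Multiplicative (Q →₀ ℤ) := (hopfAb Q).comp (hopfPi Q).ker.subtype
  have hθker : ∀ r : ↥(hopfPi Q).ker, r ∈ θ.ker ↔ r.1 ∈ commutator (HopfE Q) := by
    intro r
    rw [← hopfAb_ker]
    rfl
  have hK : K₀.subgroupOf (hopfPi Q).ker ⊔ θ.ker = ⊤ := by
    rw [eq_top_iff]
    intro r _
    obtain ⟨k, hk, m, hm, hkm⟩ := Subgroup.mem_sup_of_normal_right.mp (hcov r.2)
    have h1 : r = (⟨k, hK₀ hk⟩ : ↥(hopfPi Q).ker) * ⟨m, hm.1⟩ := Subtype.ext hkm.symm
    rw [h1]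
    exact Subgroup.mul_mem_sup (Subgroup.mem_subgroupOf.mpr hk) ((hθker _).mpr hm.2)
  obtain ⟨T', hT'K, hT'inf, hT'sup⟩ := exists_complement_ker_le hcomm θ _ hK
  refine ⟨T'.map (hopfPi Q).ker.subtype, ?_, ?_, ?_⟩
  · rintro _ ⟨t, ht, rfl⟩
    exact Subgroup.mem_subgroupOf.mp (hT'K ht)
  · rw [eq_bot_iff]
    rintro _ ⟨⟨t, ht, rfl⟩, hx⟩
    have h1 : t ∈ T' ⊓ θ.ker := ⟨ht, (hθker t).mpr hx⟩
    rw [hT'inf, Subgroup.mem_bot] at h1
    rw [h1]
    exact Subgroup.one_mem _
  · intro r hr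
    have h1 : (⟨r, hr⟩ : ↥(hopfPi Q).ker) ∈ T' ⊔ θ.ker := hT'sup ▸ Subgroup.mem_top _
    obtain ⟨t, ht, z, hz, htz⟩ := Subgroup.mem_sup_of_normal_right.mp h1
    have h2 : r = t.1 * z.1 := by
      have := congrArg Subtype.val htz
      exact this.symm
    rw [h2]
    exact Subgroup.mul_mem_sup ⟨t, ht, rfl⟩ ⟨z.2, (hθker z).mp hz⟩

/-- The quotient by a complement `T` of the multiplier is a finite stem extension with kernel the multiplier. -/
theorem hopf_stem_of_complement [Finite Q] (T : Subgroup (HopfE Q)) [T.Normal] (hT : T ≤ (hopfPi Q).ker)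
    (hTc : T ⊓ commutator (HopfE Q) = ⊥) (hTM : (hopfPi Q).ker ≤ T ⊔ hopfM Q) :
    IsStemExtension (QuotientGroup.lift T (hopfPi Q) hT) ∧ Finite (HopfE Q ⧸ T) ∧
      Nonempty ((QuotientGroup.lift T (hopfPi Q) hT).ker ≃* ↥(hopfM Q)) := by
  have hσmk : ∀ e : HopfE Q, (QuotientGroup.lift T (hopfPi Q) hT) (QuotientGroup.mk e) = hopfPi Q e :=
    fun e => rfl
  -- decomposition of kernel elements
  have hdec : ∀ e ∈ (hopfPi Q).ker, ∃ m ∈ hopfM Q, (QuotientGroup.mk e : HopfE Q ⧸ T) = QuotientGroup.mk m := by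
    intro e he
    obtain ⟨t, ht, m, hm, htm⟩ := Subgroup.mem_sup_of_normal_right.mp (hTM he)
    refine ⟨m, hm, ?_⟩
    rw [← htm, QuotientGroup.mk_mul, (QuotientGroup.eq_one_iff t).mpr ht, one_mul]
  refine ⟨⟨?_, ?_, ?_⟩, ?_, ?_⟩
  · intro q
    obtain ⟨e, he⟩ := hopfPi_surjective Q q
    exact ⟨QuotientGroup.mk e, he⟩
  · intro x hx
    induction x using QuotientGroup.induction_on with
    | H e =>
      have he : e ∈ (hopfPi Q).ker := hx
      have hc := Subgroup.mem_center_iff.mp (hopfPi_ker_le_center Q he)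
      rw [Subgroup.mem_center_iff]
      intro y
      induction y using QuotientGroup.induction_on with
      | H f =>
        rw [← QuotientGroup.mk_mul, ← QuotientGroup.mk_mul, hc f]
  · intro x hx
    induction x using QuotientGroup.induction_on with
    | H e =>
      have he : e ∈ (hopfPi Q).ker := hx
      obtain ⟨m, hm, hem⟩ := hdec e he
      rw [hem]
      exact map_commutator_le (QuotientGroup.mk' T) ⟨m, hm.2, rfl⟩
  · -- finiteness
    classical
    let s : Q → HopfE Q := fun q => (hopfPi_surjective Q q).choose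
    have hs : ∀ q, hopfPi Q (s q) = q := fun q => (hopfPi_surjective Q q).choose_spec
    let f : Q × ↥(hopfM Q) → HopfE Q ⧸ T := fun x => QuotientGroup.mk (s x.1 * x.2.1)
    apply Finite.of_surjective f
    intro x
    induction x using QuotientGroup.induction_on with
    | H e =>
      have he : (s (hopfPi Q e))⁻¹ * e ∈ (hopfPi Q).ker := by
        rw [MonoidHom.mem_ker, map_mul, map_inv, hs, inv_mul_cancel]
      obtain ⟨m, hm, hem⟩ := hdec _ he
      refine ⟨(hopfPi Q e, ⟨m, hm⟩), ?_⟩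
      show (QuotientGroup.mk (s (hopfPi Q e) * m) : HopfE Q ⧸ T) = QuotientGroup.mk e
      rw [QuotientGroup.mk_mul, ← hem, ← QuotientGroup.mk_mul]
      congr 1
      group
  · let f : ↥(hopfM Q) →* (QuotientGroup.lift T (hopfPi Q) hT).ker :=
      ((QuotientGroup.mk' T).comp (hopfM Q).subtype).codRestrict _ (by
        intro m
        rw [MonoidHom.mem_ker]
        exact MonoidHom.mem_ker.mp m.2.1)
    have hfinj : Function.Injective f := by
      rw [injective_iff_map_eq_one]
      intro m hm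
      have h1 : (QuotientGroup.mk m.1 : HopfE Q ⧸ T) = 1 := congrArg Subtype.val hm
      rw [QuotientGroup.eq_one_iff] at h1
      have h2 : m.1 ∈ T ⊓ commutator (HopfE Q) := ⟨h1, m.2.2⟩
      rw [hTc, Subgroup.mem_bot] at h2
      exact Subtype.ext h2
    have hfsurj : Function.Surjective f := by
      rintro ⟨x, hx⟩
      induction x using QuotientGroup.induction_on with
      | H e =>
        have he : e ∈ (hopfPi Q).ker := hx
        obtain ⟨m, hm, hem⟩ := hdec e he
        exact ⟨⟨m, hm⟩, Subtype.ext hem.symm⟩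
    exact ⟨(MulEquiv.ofBijective f ⟨hfinj, hfsurj⟩).symm⟩

/-- A finite group has a Schur cover with kernel the Hopf multiplier. -/
theorem hopf_exists_cover [Finite Q] :
    ∃ (Γ : Type u) (_ : Group Γ) (_ : Finite Γ) (σ : Γ →* Q), IsStemExtension σ ∧
      Nonempty (σ.ker ≃* ↥(hopfM Q)) := by
  obtain ⟨T, hT, hTc, hTM⟩ := hopf_complement Q (hopfPi Q).ker le_rfl le_sup_left
  have : T.Normal := normal_of_le_center T (hT.trans (hopfPi_ker_le_center Q))
  obtain ⟨h1, h2, h3⟩ := hopf_stem_of_complement Q T hT hTc hTM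
  exact ⟨HopfE Q ⧸ T, inferInstance, h2, QuotientGroup.lift T (hopfPi Q) hT, h1, h3⟩

/-- For a central extension `ξ : X → Q` and a lift `φ` of the Hopf extension, `ker ξ ∩ X'` is the image of the
multiplier. -/
theorem hopf_image {X : Type v} [Group X] (ξ : X →* Q) (hc : ξ.ker ≤ Subgroup.center X)
    (φ : HopfE Q →* X) (hφ : ξ.comp φ = hopfPi Q) :
    ξ.ker ⊓ commutator X = (hopfM Q).map φ := by
  have hφ' : ∀ e, ξ (φ e) = hopfPi Q e := fun e => DFunLike.congr_fun hφ e
  apply le_antisymm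
  · rintro x ⟨hx1, hx2⟩
    have hcomm : commutator X ≤ (commutator (HopfE Q)).map φ := by
      rw [commutator_eq_closure, Subgroup.closure_le]
      rintro _ ⟨x₁, x₂, rfl⟩
      obtain ⟨e₁, he₁⟩ := hopfPi_surjective Q (ξ x₁)
      obtain ⟨e₂, he₂⟩ := hopfPi_surjective Q (ξ x₂)
      have h1 : (φ e₁)⁻¹ * x₁ ∈ Subgroup.center X := by
        apply hc
        rw [MonoidHom.mem_ker, map_mul, map_inv, hφ', he₁, inv_mul_cancel]
      have h2 : (φ e₂)⁻¹ * x₂ ∈ Subgroup.center X := by
        apply hc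
        rw [MonoidHom.mem_ker, map_mul, map_inv, hφ', he₂, inv_mul_cancel]
      have e1 : x₁ = φ e₁ * ((φ e₁)⁻¹ * x₁) := by group
      have e2 : x₂ = φ e₂ * ((φ e₂)⁻¹ * x₂) := by group
      refine ⟨e₁ * e₂ * e₁⁻¹ * e₂⁻¹, ?_, ?_⟩
      · rw [commutator_def]
        exact Subgroup.commutator_mem_commutator (Subgroup.mem_top e₁) (Subgroup.mem_top e₂)
      · rw [commutatorElement_def]
        conv_rhs => rw [e1, e2, commutator_mul_central _ _ _ _ h1 h2]
        simp only [map_mul, map_inv]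
    obtain ⟨w, hw, rfl⟩ := hcomm hx2
    have hx1' : ξ (φ w) = 1 := MonoidHom.mem_ker.mp hx1
    have hw1 : w ∈ (hopfPi Q).ker := by
      rw [MonoidHom.mem_ker, ← hφ']
      exact hx1'
    exact ⟨w, ⟨hw1, hw⟩, rfl⟩
  · rintro _ ⟨m, hm, rfl⟩
    have hm1 : φ m ∈ ξ.ker := by
      rw [MonoidHom.mem_ker, hφ']
      exact MonoidHom.mem_ker.mp hm.1
    exact ⟨hm1, map_commutator_le φ ⟨m, hm.2, rfl⟩⟩

/-- The kernel of every stem extension is a homomorphic image of the Hopf multiplier. -/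
theorem hopf_surj_ker {Γ : Type v} [Group Γ] (σ : Γ →* Q) (hσ : IsStemExtension σ) :
    ∃ f : ↥(hopfM Q) →* σ.ker, Function.Surjective f := by
  obtain ⟨φ, hφ⟩ := hopf_lift Q σ hσ.1 hσ.2.1
  have himg := hopf_image Q σ hσ.2.1 φ hφ
  have h1 : σ.ker ⊓ commutator Γ = σ.ker := inf_eq_left.mpr hσ.2.2
  rw [h1] at himg
  refine ⟨(φ.comp (hopfM Q).subtype).codRestrict σ.ker (fun m => ?_), ?_⟩
  · rw [himg]
    exact ⟨m.1, m.2, rfl⟩
  · rintro ⟨k, hk⟩
    rw [himg] at hk
    obtain ⟨m, hm, rfl⟩ := hk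
    exact ⟨⟨m, hm⟩, rfl⟩

end

end Cfsg.Agent.H69
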