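import Cfsg.Agent.H23.IcDefs

set_option autoImplicit false

/-!
# S5751, piece STEPK: a step `Rk k → Rk (k+1)` of the upper bound (`k ≥ 1`)

`N ⊴ P_J`, `N ≤ Rk k`, `N ≤ n_3 (Rk k) n_3⁻¹`.  By GRAD, `N - 1` raises the grading `reflC 3 levC = crs[0]`
by more than `k`; conjugating with the `n_j ∈ P_J` (`j ≠ 3`) along the parent pointers, it raises every one of
the 30 gradings of `crs` by more than `k`; summing (`Σ_cr wN cr = 29 · lev`), it raises the level by more than
`30 (k+1) / 29 - 1 ≥ k + 1`.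
-/

namespace Cfsg.Agent.H69.Ic

open Cfsg.Lie Cfsg.Agent.H23 Cfsg.Agent.H23.Ic

/-- Sum of a pointwise inequality over a list. -/
theorem list_sum_le {α : Type} (l : List α) (f g : α → ℤ) (m : ℤ) (h : ∀ x ∈ l, g x + m ≤ f x) :
    (l.map g).sum + (l.length : ℤ) * m ≤ (l.map f).sum := by
  induction l with
  | nil => simp
  | cons a l ih =>
    have h1 := h a (List.mem_cons_self)
    have h2 := ih (fun x hx => h x (List.mem_cons_of_mem a hx))
    simp only [List.map_cons, List.sum_cons, List.length_cons]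
    push_cast
    nlinarith [h1, h2]

/-- Transport of a grading along `n_j` (`n_j² = 1`). -/
theorem transport (hG : StGrad) (cr : List ℤ) (hcr : cr ∈ levC :: crs) (j : ℕ) (hj : j < 8)
    (hnn : nn j * nn j = 1) (k : ℤ) (v : GLE)
    (hv : RaisM (wt cr) k ((v : Matrix chevE8.Idx chevE8.Idx (ZMod 2)) - 1)) :
    RaisM (wt (reflC j cr)) k (((nn j * v * (nn j)⁻¹ : GLE) : Matrix chevE8.Idx chevE8.Idx (ZMod 2)) - 1) := by
  have hinv : (nn j)⁻¹ = nn j := inv_eq_of_mul_eq_one_right hnn
  have hmat : ((nn j : GLE) : Matrix chevE8.Idx chevE8.Idx (ZMod 2)) *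
      ((nn j : GLE) : Matrix chevE8.Idx chevE8.Idx (ZMod 2)) = 1 := by
    rw [← Units.val_mul, hnn, Units.val_one]
  have e : ((nn j * v * (nn j)⁻¹ : GLE) : Matrix chevE8.Idx chevE8.Idx (ZMod 2)) - 1 =
      ((nn j : GLE) : Matrix chevE8.Idx chevE8.Idx (ZMod 2)) *
        ((v : Matrix chevE8.Idx chevE8.Idx (ZMod 2)) - 1) *
        ((nn j : GLE) : Matrix chevE8.Idx chevE8.Idx (ZMod 2)) := by
    rw [hinv, Units.val_mul, Units.val_mul, Matrix.mul_sub, Matrix.sub_mul, Matrix.mul_one, hmat]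
  rw [e]
  intro a c hac
  obtain ⟨d, h1, h2⟩ := exists_of_mul_ne_zero hac
  obtain ⟨b, h3, h4⟩ := exists_of_mul_ne_zero h1
  have g1 := (hG cr hcr j hj a b h3).1
  have g2 := (hG cr hcr j hj d c h2).2
  have g3 := hv b d h4
  omega

theorem stepK : StStepK := by
  intro hB hG hT k hk N hNP hNn hNR hNc
  obtain ⟨hsq, hnP, -, -, -⟩ := hB
  obtain ⟨⟨hlen, hc0, -, hpar⟩, hsum, -⟩ := hT
  -- all 30 gradings are raised by more than `k`
  have hA : ∀ i : ℕ, i < 30 → ∀ u ∈ N,
      RaisM (wt (crs.getD i [])) (k : ℤ) ((u : Matrix chevE8.Idx chevE8.Idx (ZMod 2)) - 1) := by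
    intro i
    induction i using Nat.strong_induction_on with
    | _ i ih =>
      intro hi u hu
      rcases Nat.eq_zero_or_pos i with h0 | hpos
      · subst h0
        rw [hc0]
        obtain ⟨v, hv, hvu⟩ := Subgroup.mem_map.mp (hNc hu)
        have hvu' : u = nn 3 * v * (nn 3)⁻¹ := by
          rw [← hvu]
          simp [MulAut.conj_apply]
        rw [hvu']
        exact transport hG levC (List.mem_cons_self) 3 (by norm_num) (hsq 3 (by norm_num)) (k : ℤ) v
          hv.2.1
      · obtain ⟨i', rfl⟩ : ∃ i', i = i' + 1 := ⟨i - 1, by omega⟩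
        obtain ⟨hp1, hp2, hp3, hp4⟩ := hpar i' (by omega)
        set p := (par.getD i' (0, 0)).1 with hp
        set j := (par.getD i' (0, 0)).2 with hjdef
        have hjP : nn j ∈ Pj := hnP j hp2 hp3
        have hinv : (nn j)⁻¹ = nn j := inv_eq_of_mul_eq_one_right (hsq j hp2)
        have hvN : nn j * u * (nn j)⁻¹ ∈ N := hNn (nn j) hjP u hu
        have hu' : u = nn j * (nn j * u * (nn j)⁻¹) * (nn j)⁻¹ := by
          have h1 := hsq j hp2
          rw [hinv]
          calc u = (nn j * nn j) * u * (nn j * nn j) := by rw [h1, one_mul, mul_one]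
            _ = nn j * (nn j * u * nn j) * nn j := by group
        have hmem : crs.getD p [] ∈ levC :: crs := by
          refine List.mem_cons_of_mem _ ?_
          have hpl : p < crs.length := by rw [hlen]; omega
          rw [List.getD_eq_getElem _ _ hpl]
          exact List.getElem_mem hpl
        rw [hp4, hu']
        exact transport hG _ hmem j hp2 (hsq j hp2) (k : ℤ) _ (ih p hp1 (by omega) _ hvN)
  have hA' : ∀ cr ∈ crs, ∀ u ∈ N,
      RaisM (wt cr) (k : ℤ) ((u : Matrix chevE8.Idx chevE8.Idx (ZMod 2)) - 1) := by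
    intro cr hcr u hu
    obtain ⟨i, hi, rfl⟩ := List.getElem_of_mem hcr
    have := hA i (by rw [← hlen]; exact hi) u hu
    rw [List.getD_eq_getElem _ _ hi] at this
    exact this
  -- the level is raised by more than `k + 1`
  have hkey : ∀ u ∈ N, RaisM (wt levC) ((k + 1 : ℕ) : ℤ)
      ((u : Matrix chevE8.Idx chevE8.Idx (ZMod 2)) - 1) := by
    intro u hu a c hac
    have h1 : ∀ cr ∈ crs, wN cr (ix chevE8 c) + ((k : ℤ) + 1) ≤ wN cr (ix chevE8 a) := by
      intro cr hcr
      have := hA' cr hcr u hu a c hac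
      simp only [wt] at this
      omega
    have h2 := list_sum_le crs (fun cr => wN cr (ix chevE8 a)) (fun cr => wN cr (ix chevE8 c))
      ((k : ℤ) + 1) h1
    have ha : ix chevE8 a < 248 := ix_lt chevE8 a
    have hc : ix chevE8 c < 248 := ix_lt chevE8 c
    rw [hsum _ ha, hsum _ hc, hlen] at h2
    simp only [wt]
    push_cast at h2 ⊢
    omega
  intro u hu
  have hu1 := hNR hu
  refine ⟨hu1.1, hkey u hu, ?_⟩
  exact hkey u⁻¹ (N.inv_mem hu)

example : Cfsg.Agent.H23.Ic.StStepK := stepK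

end Cfsg.Agent.H69.Ic

#print axioms Cfsg.Agent.H69.Ic.stepK
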