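import Cfsg.Agent.H99.S4Defs

/-!
Small conjugacy lemmas for `4 × 4` matrices, shared by helper69's S6000 pieces.
-/

set_option autoImplicit false

namespace Cfsg.Agent.H69.S4

open Cfsg.Agent.H99.S4

universe u

variable {F : Type u} [Field F]

theorem aux_tr_conj {y G n : M4 F} (hG : IsUnit G.det) (h : y * G = G * n) :
    Matrix.trace y = Matrix.trace n := by
  have hinv : G * G⁻¹ = 1 := Matrix.mul_nonsing_inv G hG
  have h1 : y = G * n * G⁻¹ := by rw [← h, Matrix.mul_assoc, hinv, Matrix.mul_one]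
  rw [h1, Matrix.trace_mul_comm, ← Matrix.mul_assoc, Matrix.nonsing_inv_mul G hG, Matrix.one_mul]

theorem aux_det_conj {y G n : M4 F} (hG : IsUnit G.det) (h : y * G = G * n) :
    y.det = n.det := by
  have h1 := congrArg Matrix.det h
  rw [Matrix.det_mul, Matrix.det_mul] at h1
  exact mul_right_cancel₀ hG.ne_zero (by rw [h1, mul_comm])

theorem aux_conj_symm {y G n : M4 F} (hG : IsUnit G.det) (h : y * G = G * n) :
    n * G⁻¹ = G⁻¹ * y := by
  have hinv : G * G⁻¹ = 1 := Matrix.mul_nonsing_inv G hG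
  have hinv' : G⁻¹ * G = 1 := Matrix.nonsing_inv_mul G hG
  calc n * G⁻¹ = G⁻¹ * (G * n) * G⁻¹ := by
        rw [← Matrix.mul_assoc G⁻¹, hinv', Matrix.one_mul]
    _ = G⁻¹ * (y * G) * G⁻¹ := by rw [h]
    _ = G⁻¹ * y := by rw [Matrix.mul_assoc, Matrix.mul_assoc, hinv, Matrix.mul_one]

theorem aux_conj_trans {y w n G₁ G₂ : M4 F} (hG₁ : IsUnit G₁.det) (hG₂ : IsUnit G₂.det)
    (h1 : y * G₁ = G₁ * n) (h2 : w * G₂ = G₂ * n) :
    IsUnit (G₁ * G₂⁻¹).det ∧ y * (G₁ * G₂⁻¹) = G₁ * G₂⁻¹ * w := by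
  refine ⟨?_, ?_⟩
  · rw [Matrix.det_mul]
    exact hG₁.mul ((Matrix.isUnit_nonsing_inv_det_iff).mpr hG₂)
  · have h3 := aux_conj_symm hG₂ h2
    calc y * (G₁ * G₂⁻¹) = (y * G₁) * G₂⁻¹ := by rw [Matrix.mul_assoc]
      _ = G₁ * (n * G₂⁻¹) := by rw [h1, Matrix.mul_assoc]
      _ = G₁ * G₂⁻¹ * w := by rw [h3, Matrix.mul_assoc]

theorem aux_eq_one_of_conj_one {y G : M4 F} (hG : IsUnit G.det) (h : y * G = G) : y = 1 := by
  have hinv : G * G⁻¹ = 1 := Matrix.mul_nonsing_inv G hG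
  calc y = y * G * G⁻¹ := by rw [Matrix.mul_assoc, hinv, Matrix.mul_one]
    _ = 1 := by rw [h, hinv]

end Cfsg.Agent.H69.S4
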