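import Cfsg.Agent.H99.S4Defs
import Cfsg.Agent.H69.S4Aux

/-!
S6000-C3 piece (helper99's `PSL_4(p)` team project): conjugacy of matrices of order three from the
normal forms, `q ≡ 2 (mod 3)`.
-/

set_option autoImplicit false

namespace Cfsg.Agent.H69.S4

open Cfsg.Agent.H99.S4

universe u

theorem c3_three_ne_zero (F : Type u) [Field F] [Fintype F] (h : Fintype.card F % 3 = 2) :
    (3 : F) ≠ 0 := by
  intro h3
  have hfact : Fact (Nat.Prime 3) := ⟨by norm_num⟩
  have h1 : addOrderOf (1 : F) = 3 := by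
    apply addOrderOf_eq_prime
    · rw [nsmul_eq_mul, mul_one]
      exact_mod_cast h3
    · exact one_ne_zero
  have h2 : 3 ∣ Fintype.card F := by
    rw [← h1]
    exact addOrderOf_dvd_card
  omega

theorem c3_tr_one (F : Type u) [Field F] : Matrix.trace (1 : M4 F) = 4 := by
  simp [Matrix.trace]

theorem c3_tr_n3a (F : Type u) [Field F] : Matrix.trace (n3a F) = 1 := by
  simp [n3a, Matrix.trace, Fin.sum_univ_four]

theorem c3_tr_n3b (F : Type u) [Field F] : Matrix.trace (n3b F) = -2 := by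
  simp [n3b, Matrix.trace, Fin.sum_univ_four]
  norm_num

/-- **S6000-C3**. -/
theorem c3 (hnf : Cfsg.Agent.H99.S4.StC3NF.{u}) : Cfsg.Agent.H99.S4.StC3.{u} := by
  intro F _ _ hcard h2 y w₁ w₂ hy hy1 hw₁ hw₂ htr₁ htr₂
  classical
  have h3 : (3 : F) ≠ 0 := c3_three_ne_zero F hcard
  obtain ⟨Gy, hGy, hy'⟩ := hnf F hcard y hy
  obtain ⟨G₁, hG₁, h1'⟩ := hnf F hcard w₁ hw₁
  obtain ⟨G₂, hG₂, h2'⟩ := hnf F hcard w₂ hw₂
  -- `w₁` is conjugate to `n3b`
  have hw₁b : w₁ * G₁ = G₁ * n3b F := by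
    rcases h1' with h | h | h
    · exfalso
      have h4 : w₁ = 1 := aux_eq_one_of_conj_one hG₁ h
      rw [h4, c3_tr_one] at htr₁
      apply h3
      have h5 : (2 : F) * 3 = 0 := by linear_combination htr₁
      rcases mul_eq_zero.mp h5 with h6 | h6
      · exact absurd h6 h2
      · exact h6
    · exfalso
      have h4 := aux_tr_conj hG₁ h
      rw [htr₁, c3_tr_n3a] at h4
      apply h3
      linear_combination -h4
    · exact h
  -- `w₂` is conjugate to `n3a`
  have hw₂a : w₂ * G₂ = G₂ * n3a F := by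
    rcases h2' with h | h | h
    · exfalso
      have h4 : w₂ = 1 := aux_eq_one_of_conj_one hG₂ h
      rw [h4, c3_tr_one] at htr₂
      apply h3
      linear_combination htr₂
    · exact h
    · exfalso
      have h4 := aux_tr_conj hG₂ h
      rw [htr₂, c3_tr_n3b] at h4
      apply h3
      linear_combination h4
  rcases hy' with h | h | h
  · exact absurd (aux_eq_one_of_conj_one hGy h) hy1
  · obtain ⟨hu, hc⟩ := aux_conj_trans hGy hG₂ h hw₂a
    exact ⟨_, hu, Or.inr hc⟩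
  · obtain ⟨hu, hc⟩ := aux_conj_trans hGy hG₁ h hw₁b
    exact ⟨_, hu, Or.inl hc⟩

example (hnf : Cfsg.Agent.H99.S4.StC3NF.{u}) : ∀ (F : Type u) [Field F] [Fintype F],
    Fintype.card F % 3 = 2 → (2 : F) ≠ 0 →
    ∀ y w₁ w₂ : M4 F, y ^ 3 = 1 → y ≠ 1 → w₁ ^ 3 = 1 → w₂ ^ 3 = 1 → Matrix.trace w₁ = -2 →
    Matrix.trace w₂ = 1 → ∃ G : M4 F, IsUnit G.det ∧ (y * G = G * w₁ ∨ y * G = G * w₂) := c3 hnf

end Cfsg.Agent.H69.S4
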