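import Cfsg.Agent.H99.S4Defs

/-!
S6000-C5 piece (helper99's `PSL_4(p)` team project): conjugacy of matrices of order five, from the
normal form.
-/

set_option autoImplicit false

namespace Cfsg.Agent.H69.S4

open Cfsg.Agent.H99.S4

open scoped MatrixGroups

universe u

/-- **S6000-C5**. -/
theorem c5 (hnf : Cfsg.Agent.H99.S4.StC5NF.{u}) : Cfsg.Agent.H99.S4.StC5.{u} := by
  intro F _ _ hord y w hy hy1 hw hw1
  classical
  obtain ⟨G₁, hG₁, h1⟩ := hnf F hord y hy hy1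
  obtain ⟨G₂, hG₂, h2⟩ := hnf F hord w hw hw1
  have hinv : G₂ * G₂⁻¹ = 1 := Matrix.mul_nonsing_inv G₂ hG₂
  have hinv' : G₂⁻¹ * G₂ = 1 := Matrix.nonsing_inv_mul G₂ hG₂
  refine ⟨G₁ * G₂⁻¹, ?_, ?_⟩
  · rw [Matrix.det_mul]
    exact hG₁.mul ((Matrix.isUnit_nonsing_inv_det_iff).mpr hG₂)
  · have h3 : n5 F * G₂⁻¹ = G₂⁻¹ * w := by
      calc n5 F * G₂⁻¹ = G₂⁻¹ * (G₂ * n5 F) * G₂⁻¹ := by
            rw [← Matrix.mul_assoc G₂⁻¹, hinv', Matrix.one_mul]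
        _ = G₂⁻¹ * (w * G₂) * G₂⁻¹ := by rw [h2]
        _ = G₂⁻¹ * w := by
            rw [Matrix.mul_assoc, Matrix.mul_assoc, hinv, Matrix.mul_one]
    calc y * (G₁ * G₂⁻¹) = (y * G₁) * G₂⁻¹ := by rw [Matrix.mul_assoc]
      _ = G₁ * (n5 F * G₂⁻¹) := by rw [h1, Matrix.mul_assoc]
      _ = G₁ * G₂⁻¹ * w := by rw [h3, Matrix.mul_assoc]

example (hnf : Cfsg.Agent.H99.S4.StC5NF.{u}) : ∀ (F : Type u) [Field F] [Fintype F],
    orderOf (Fintype.card F : ZMod 5) = 4 → ∀ y w : M4 F, y ^ 5 = 1 → y ≠ 1 → w ^ 5 = 1 →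
    w ≠ 1 → ∃ G : M4 F, IsUnit G.det ∧ y * G = G * w := c5 hnf

end Cfsg.Agent.H69.S4
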