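import Cfsg.Agent.H99.S4Defs
import Cfsg.Agent.H40.ESIrr5

/-!
S6000-C5NF piece (helper99's `PSL_4(p)` team project): normal form of the `4 × 4` matrices of
order five over a finite field whose order has multiplicative order `4` modulo `5`.
-/

set_option autoImplicit false

namespace Cfsg.Agent.H69.S4

open Cfsg.Agent.H99.S4 Module

universe u

theorem c5nf_mod (q : ℕ) (h : orderOf (q : ZMod 5) = 4) : q % 5 = 2 ∨ q % 5 = 3 := by
  have h1 : (q : ZMod 5) = ((q % 5 : ℕ) : ZMod 5) := (ZMod.natCast_mod q 5).symm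
  rw [h1] at h
  have h2 : q % 5 < 5 := Nat.mod_lt _ (by norm_num)
  interval_cases hq : q % 5
  · exfalso
    have h3 := pow_orderOf_eq_one (((0 : ℕ) : ZMod 5))
    rw [h] at h3
    revert h3
    decide
  · exfalso
    rw [Nat.cast_one, orderOf_one] at h
    omega
  · left; rfl
  · right; rfl
  · exfalso
    have h3 : orderOf (((4 : ℕ) : ZMod 5)) ∣ 2 := orderOf_dvd_of_pow_eq_one (by decide)
    rw [h] at h3
    have h4 := Nat.le_of_dvd (by norm_num) h3
    omega

/-- **S6000-C5NF**. -/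
theorem c5NF : Cfsg.Agent.H99.S4.StC5NF.{u} := by
  intro F _ _ hord y hy hy1
  classical
  have hq := c5nf_mod _ hord
  set T : Module.End F (Fin 4 → F) := Matrix.toLin' y with hT
  have hTpow : ∀ n : ℕ, T ^ n = Matrix.toLin' (y ^ n) := by
    intro n
    induction n with
    | zero =>
      rw [pow_zero, pow_zero, Matrix.toLin'_one]
      rfl
    | succ n ih =>
      rw [pow_succ, pow_succ, ih, Matrix.toLin'_mul]
      rfl
  have hT5 : T ^ 5 = 1 := by
    rw [hTpow, hy, Matrix.toLin'_one]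
    rfl
  have hV : finrank F (Fin 4 → F) = 4 := by simp
  have hker : LinearMap.ker (T - 1) = ⊥ := by
    rcases Cfsg.Agent.H40.ES.fix5 _ rfl hq (le_of_eq hV) T hT5 with h | ⟨-, h⟩
    · exfalso
      apply hy1
      have h1 : LinearMap.ker (T - 1) = ⊤ := Submodule.eq_top_of_finrank_eq h
      have h2 : T = 1 := by
        apply LinearMap.ext
        intro v
        have h2 : v ∈ LinearMap.ker (T - 1) := by
          rw [h1]
          exact Submodule.mem_top
        rw [LinearMap.mem_ker, LinearMap.sub_apply, sub_eq_zero] at h2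
        exact h2
      apply Matrix.toLin'.injective
      rw [Matrix.toLin'_one]
      exact h2
    · exact Submodule.finrank_eq_zero.mp h
  have hΦ : ∀ v, v + T v + T (T v) + T (T (T v)) + T (T (T (T v))) = 0 := by
    intro v
    have h1 : (T - 1) * (∑ i ∈ Finset.range 5, T ^ i) = 0 := by
      rw [mul_geom_sum, hT5, sub_self]
    have h2 : (∑ i ∈ Finset.range 5, T ^ i) v ∈ LinearMap.ker (T - 1) := by
      rw [LinearMap.mem_ker, ← Module.End.mul_apply, h1]
      rfl
    rw [hker, Submodule.mem_bot] at h2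
    have h3 : (∑ i ∈ Finset.range 5, T ^ i) v =
        v + T v + T (T v) + T (T (T v)) + T (T (T (T v))) := by
      simp [Finset.sum_range_succ, pow_succ, Module.End.mul_apply]
    rw [← h3]
    exact h2
  -- the cyclic vectors
  obtain ⟨v₀, hv₀⟩ : ∃ v₀ : Fin 4 → F, v₀ ≠ 0 :=
    ⟨Pi.single 0 1, fun h => by simpa using congrFun h 0⟩
  obtain ⟨u, hu⟩ : ∃ u : Fin 4 → (Fin 4 → F), u = ![v₀, T v₀, T (T v₀), T (T (T v₀))] :=
    ⟨_, rfl⟩
  have hu0 : u 0 = v₀ := by rw [hu]; rfl
  have hu1 : u 1 = T v₀ := by rw [hu]; rfl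
  have hu2 : u 2 = T (T v₀) := by rw [hu]; rfl
  have hu3 : u 3 = T (T (T v₀)) := by rw [hu]; rfl
  have hT0 : T (u 0) = u 1 := by rw [hu0, hu1]
  have hT1 : T (u 1) = u 2 := by rw [hu1, hu2]
  have hT2 : T (u 2) = u 3 := by rw [hu2, hu3]
  have hT3 : T (u 3) = -(u 0 + u 1 + u 2 + u 3) := by
    rw [hu0, hu1, hu2, hu3]
    exact eq_neg_of_add_eq_zero_right (hΦ v₀)
  obtain ⟨W, hW⟩ : ∃ W : Submodule F (Fin 4 → F), W = Submodule.span F (Set.range u) :=
    ⟨_, rfl⟩
  have hmem : ∀ j, u j ∈ W := fun j => by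
    rw [hW]
    exact Submodule.subset_span ⟨j, rfl⟩
  have hW' : ∀ x ∈ W, T x ∈ W := by
    intro x hx
    have h1 : W.map T ≤ W := by
      rw [hW, Submodule.map_span_le, ← hW]
      rintro m ⟨j, rfl⟩
      fin_cases j
      · exact hT0 ▸ hmem 1
      · exact hT1 ▸ hmem 2
      · exact hT2 ▸ hmem 3
      · have h4 : T (u 3) ∈ W := by
          rw [hT3]
          exact Submodule.neg_mem _ (Submodule.add_mem _ (Submodule.add_mem _
            (Submodule.add_mem _ (hmem 0) (hmem 1)) (hmem 2)) (hmem 3))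
        exact h4
    exact h1 (Submodule.mem_map_of_mem hx)
  have hS5 : (T.restrict hW') ^ 5 = 1 := by
    rw [Module.End.pow_restrict 5 hW']
    apply LinearMap.ext
    intro w
    apply Subtype.ext
    rw [LinearMap.restrict_apply]
    show (T ^ 5) (w : Fin 4 → F) = w
    rw [hT5]
    rfl
  have hWle : finrank F ↥W ≤ 4 := le_trans (Submodule.finrank_le W) (le_of_eq hV)
  have hWfr : finrank F ↥W = 4 := by
    rcases Cfsg.Agent.H40.ES.fix5 _ rfl hq hWle (T.restrict hW') hS5 with h | ⟨h, -⟩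
    · exfalso
      have h1 : LinearMap.ker (T.restrict hW' - 1) = ⊤ := Submodule.eq_top_of_finrank_eq h
      have hv₀W : v₀ ∈ W := hu0 ▸ hmem 0
      have h2 : (⟨v₀, hv₀W⟩ : ↥W) ∈ LinearMap.ker (T.restrict hW' - 1) := by
        rw [h1]
        exact Submodule.mem_top
      rw [LinearMap.mem_ker, LinearMap.sub_apply, sub_eq_zero] at h2
      have h3 := congrArg Subtype.val h2
      rw [LinearMap.restrict_apply] at h3
      have h4 : v₀ ∈ LinearMap.ker (T - 1) := by
        rw [LinearMap.mem_ker, LinearMap.sub_apply, sub_eq_zero]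
        exact h3
      rw [hker] at h4
      exact hv₀ ((Submodule.mem_bot F).mp h4)
    · exact h
  have hli : LinearIndependent F u := by
    rw [linearIndependent_iff_card_eq_finrank_span, Fintype.card_fin]
    rw [hW] at hWfr
    exact hWfr.symm
  obtain ⟨G, hG⟩ : ∃ G : M4 F, G = (Matrix.of u).transpose := ⟨_, rfl⟩
  have hGdet : IsUnit G.det := by
    have h1 : IsUnit (Matrix.of u) := (Matrix.linearIndependent_rows_iff_isUnit).mp hli
    rw [hG, Matrix.det_transpose]
    exact (Matrix.isUnit_iff_isUnit_det _).mp h1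
  refine ⟨G, hGdet, ?_⟩
  have hyG : ∀ a j, (y * G) a j = (T (u j)) a := by
    intro a j
    rw [hT, Matrix.toLin'_apply, Matrix.mul_apply, hG]
    rfl
  ext a j
  rw [hyG, Matrix.mul_apply, Fin.sum_univ_four, hG]
  fin_cases j
  · simp [n5, hT0]
  · simp [n5, hT1]
  · simp [n5, hT2]
  · simp [n5, hT3]
    ring

example : ∀ (F : Type u) [Field F] [Fintype F],
    orderOf (Fintype.card F : ZMod 5) = 4 → ∀ y : M4 F, y ^ 5 = 1 → y ≠ 1 →
    ∃ G : M4 F, IsUnit G.det ∧ y * G = G * n5 F := c5NF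

end Cfsg.Agent.H69.S4
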