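import Cfsg.Agent.H99.S4Defs

/-!
S6000-CAUCHY piece (helper99's `PSL_4(p)` team project): a non-scalar element of order `r ≥ 7`
in `SL_4`.
-/

set_option autoImplicit false

namespace Cfsg.Agent.H69.S4

open Cfsg.Agent.H99.S4

open scoped MatrixGroups

universe u

/-- **S6000-CAUCHY**. -/
theorem cauchyS : Cfsg.Agent.H99.S4.StCauchy.{u} := by
  intro F _ _ N r hr h7 hdvd
  classical
  have hfact : Fact r.Prime := ⟨hr⟩
  have hdvd2 : r ∣ Nat.card (Cfsg.Geo.specialLinear (Fin 4) F) :=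
    hdvd.trans (Subgroup.relIndex_dvd_card N _)
  obtain ⟨x, hx⟩ := exists_prime_orderOf_dvd_card' r hdvd2
  have h1 : x ^ r = 1 := by rw [← hx]; exact pow_orderOf_eq_one x
  have h2 : ((x : G4 F)) ^ r = 1 := by
    have := congrArg Subtype.val h1
    simpa using this
  have h3 : ((x : G4 F) : M4 F) ^ r = 1 := by
    have := congrArg (fun y : G4 F => (y : M4 F)) h2
    simpa using this
  refine ⟨(x : G4 F), x.2, h3, ?_⟩
  intro t ht
  have hd1 : ((x : G4 F) : M4 F).det = 1 := by
    have h4 : Matrix.GeneralLinearGroup.det (x : G4 F) = 1 := MonoidHom.mem_ker.mp x.2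
    have h5 := congrArg Units.val h4
    rw [Matrix.GeneralLinearGroup.val_det_apply] at h5
    exact h5
  have ht4 : t ^ 4 = 1 := by
    rw [ht, Matrix.det_smul, Matrix.det_one, mul_one, Fintype.card_fin] at hd1
    exact hd1
  have htr : t ^ r = 1 := by
    rw [ht, smul_pow, one_pow] at h3
    have h6 := congrFun (congrFun h3 0) 0
    simpa using h6
  have hcop : Nat.gcd 4 r = 1 := by
    have h8 : Nat.Coprime r 4 := by
      rw [Nat.Prime.coprime_iff_not_dvd hr]
      intro h9
      have := Nat.le_of_dvd (by norm_num) h9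
      omega
    exact h8.symm
  have ht1 : t = 1 := by
    have h10 := pow_gcd_eq_one.mpr ⟨ht4, htr⟩
    rwa [hcop, pow_one] at h10
  have hx1 : x = 1 := by
    apply Subtype.ext
    apply Units.ext
    rw [ht, ht1, one_smul]
    rfl
  rw [hx1, orderOf_one] at hx
  exact hr.one_lt.ne hx

example : ∀ (F : Type u) [Field F] [Fintype F] (N : Subgroup (G4 F)) (r : ℕ),
    r.Prime → 7 ≤ r → r ∣ N.relIndex (Cfsg.Geo.specialLinear (Fin 4) F) →
    ∃ x : G4 F, x ∈ Cfsg.Geo.specialLinear (Fin 4) F ∧ (x : M4 F) ^ r = 1 ∧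
      ∀ t : F, (x : M4 F) ≠ t • (1 : M4 F) := cauchyS

end Cfsg.Agent.H69.S4
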