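import Cfsg.Agent.H99.S4Defs

/-!
S6000-GLUE piece (helper99's `PSL_4(p)` team project): from conjugacy in `GL_4` (up to a scalar)
to conjugacy in `SL_4`.
-/

set_option autoImplicit false

namespace Cfsg.Agent.H69.S4

open Cfsg.Agent.H99.S4

open scoped MatrixGroups

universe u

/-- **S6000-GLUE**. -/
theorem glueS : Cfsg.Agent.H99.S4.StGlue.{u} := by
  intro F _ R x w hx hw t G ht hG hxG hdet
  classical
  have hG0 : G.det ≠ 0 := hG.ne_zero
  obtain ⟨h, hh, hcomm⟩ := hdet (G.det)⁻¹ (inv_ne_zero hG0)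
  have hhG : (h * G).det = 1 := by rw [Matrix.det_mul, hh, inv_mul_cancel₀ hG0]
  have hhG0 : (h * G).det ≠ 0 := by rw [hhG]; exact one_ne_zero
  have hs0 : (t • (1 : M4 F)).det ≠ 0 := by
    rw [Matrix.det_smul, Matrix.det_one, mul_one]; exact pow_ne_zero _ ht
  set g : G4 F := Matrix.GeneralLinearGroup.mkOfDetNeZero (h * G) hhG0 with hg
  have hgval : (g : M4 F) = h * G := rfl
  set s : G4 F := Matrix.GeneralLinearGroup.mkOfDetNeZero (t • (1 : M4 F)) hs0 with hs
  have hsval : (s : M4 F) = t • (1 : M4 F) := rfl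
  have key : x * g = g * (s * w) := by
    apply Units.ext
    rw [Units.val_mul, Units.val_mul, Units.val_mul, hgval, hsval]
    calc (x : M4 F) * (h * G) = h * ((x : M4 F) * G) := by
          rw [← Matrix.mul_assoc, ← hcomm, Matrix.mul_assoc]
      _ = h * (G * (t • (w : M4 F))) := by rw [hxG]
      _ = h * G * (t • (1 : M4 F) * (w : M4 F)) := by
          rw [Matrix.smul_mul, Matrix.one_mul, Matrix.mul_assoc]
  refine ⟨g, ?_, ?_⟩
  · change Matrix.GeneralLinearGroup.det g = 1
    apply Units.ext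
    rw [Matrix.GeneralLinearGroup.val_det_apply]
    exact hhG
  · have h1 : g⁻¹ * x * g = s * w := by
      rw [mul_assoc, key, ← mul_assoc, inv_mul_cancel, one_mul]
    rw [h1]
    refine Subgroup.mul_mem _ ?_ hw
    have hscent : ∀ y : G4 F, s * y = y * s := by
      intro y
      apply Units.ext
      rw [Units.val_mul, Units.val_mul, hsval, Matrix.smul_mul, Matrix.one_mul, Matrix.mul_smul,
        Matrix.mul_one]
    unfold Cfsg.Geo.subgroupNormalizer
    rw [Subgroup.mem_set_normalizer_iff]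
    intro y
    rw [hscent y, mul_assoc, mul_inv_cancel, mul_one]

example : ∀ (F : Type u) [Field F] (R : Subgroup (G4 F)) (x w : G4 F),
    x ∈ Cfsg.Geo.specialLinear (Fin 4) F → w ∈ Cfsg.Geo.subgroupNormalizer R →
    ∀ (t : F) (G : M4 F), t ≠ 0 → IsUnit G.det → (x : M4 F) * G = G * (t • (w : M4 F)) →
    (∀ d : F, d ≠ 0 → ∃ h : M4 F, h.det = d ∧ h * (x : M4 F) = (x : M4 F) * h) →
    ∃ g ∈ Cfsg.Geo.specialLinear (Fin 4) F, g⁻¹ * x * g ∈ Cfsg.Geo.subgroupNormalizer R := glueS

end Cfsg.Agent.H69.S4
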