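import Cfsg.Agent.H99.S4Defs
import Cfsg.Agent.H98.OrtInvDiag
import Cfsg.Agent.H69.S4Aux

/-!
S6000-INVC piece (helper99's `PSL_4(p)` team project): involutions of `M_4(F)` of the same trace
are conjugate (`2 ≠ 0`, `3 ≠ 0`).
-/

set_option autoImplicit false

namespace Cfsg.Agent.H69.S4

open Cfsg.Agent.H99.S4

universe u

theorem invC_cast_zero {F : Type u} [Field F] (h2 : (2 : F) ≠ 0) (h3 : (3 : F) ≠ 0) :
    ∀ d : ℕ, d ≤ 4 → (d : F) = 0 → d = 0 := by
  intro d hd h
  interval_cases d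
  · rfl
  · simp at h
  · exact absurd (by exact_mod_cast h) h2
  · exact absurd (by exact_mod_cast h) h3
  · exfalso
    have h4 : (2 : F) * 2 = 0 := by
      have h5 : ((4 : ℕ) : F) = 2 * 2 := by norm_num
      rw [← h5]; exact h
    rcases mul_eq_zero.mp h4 with h' | h' <;> exact h2 h'

theorem invC_cast_inj {F : Type u} [Field F] (h2 : (2 : F) ≠ 0) (h3 : (3 : F) ≠ 0)
    (a b : ℕ) (ha : a ≤ 4) (hb : b ≤ 4) (h : (a : F) = (b : F)) : a = b := by
  rcases le_total a b with hab | hab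
  · have h4 := invC_cast_zero h2 h3 (b - a) (by omega) (by rw [Nat.cast_sub hab, h, sub_self])
    omega
  · have h4 := invC_cast_zero h2 h3 (a - b) (by omega) (by rw [Nat.cast_sub hab, h, sub_self])
    omega

theorem invC_sum {F : Type u} [Field F] [DecidableEq F] (h2 : (2 : F) ≠ 0) (ε : Fin 4 → F)
    (hε : ∀ i, ε i = 1 ∨ ε i = -1) :
    ∑ i, ε i = 4 - 2 * ((Finset.univ.filter (fun i => ε i = -1)).card : F) := by
  have h1 : ∀ i, ε i = 1 - (if ε i = -1 then (2 : F) else 0) := by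
    intro i
    rcases hε i with h | h
    · have hne : ε i ≠ -1 := by
        rw [h]
        intro h'
        apply h2
        linear_combination h'
      rw [if_neg hne, sub_zero, h]
    · rw [if_pos h, h]; ring
  rw [Finset.sum_congr rfl (fun i _ => h1 i), Finset.sum_sub_distrib, Finset.sum_const,
    Finset.card_univ, Fintype.card_fin, ← Finset.sum_filter, Finset.sum_const, nsmul_eq_mul,
    nsmul_eq_mul]
  push_cast
  ring

/-- **S6000-INVC**. -/
theorem invC : Cfsg.Agent.H99.S4.StInvC.{u} := by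
  intro F _ h2 h3 y w hy hw htr
  classical
  obtain ⟨g₁, ε₁, hg₁, hε₁, hc₁⟩ :=
    Cfsg.Agent.H98.Ort.invDiag F 4 (by norm_num) h2 y (by rw [sq]; exact hy) 1 one_ne_zero
  obtain ⟨g₂, ε₂, hg₂, hε₂, hc₂⟩ :=
    Cfsg.Agent.H98.Ort.invDiag F 4 (by norm_num) h2 w (by rw [sq]; exact hw) 1 one_ne_zero
  have hG₁ : IsUnit g₁.det := by rw [hg₁]; exact isUnit_one
  have hG₂ : IsUnit g₂.det := by rw [hg₂]; exact isUnit_one
  have ht₁ : Matrix.trace y = ∑ i, ε₁ i := by
    rw [aux_tr_conj hG₁ hc₁, Matrix.trace_diagonal]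
  have ht₂ : Matrix.trace w = ∑ i, ε₂ i := by
    rw [aux_tr_conj hG₂ hc₂, Matrix.trace_diagonal]
  have hk : (Finset.univ.filter (fun i => ε₁ i = -1)).card =
      (Finset.univ.filter (fun i => ε₂ i = -1)).card := by
    apply invC_cast_inj h2 h3 _ _ ((Finset.card_le_univ _).trans (by simp))
      ((Finset.card_le_univ _).trans (by simp))
    have e1 := invC_sum h2 ε₁ hε₁
    have e2 := invC_sum h2 ε₂ hε₂
    rw [← ht₁] at e1
    rw [← ht₂, ← htr] at e2
    have h4 : (2 : F) * ((Finset.univ.filter (fun i => ε₁ i = -1)).card : F) =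
        2 * ((Finset.univ.filter (fun i => ε₂ i = -1)).card : F) := by
      linear_combination e1 - e2
    exact mul_left_cancel₀ h2 h4
  have hcard : Fintype.card {i // ε₁ i = -1} = Fintype.card {i // ε₂ i = -1} := by
    rw [Fintype.card_subtype, Fintype.card_subtype]
    exact hk
  let e : {i // ε₁ i = -1} ≃ {i // ε₂ i = -1} := Fintype.equivOfCardEq hcard
  set σ : Equiv.Perm (Fin 4) := e.extendSubtype with hσ
  have hσε : ∀ i, ε₂ (σ i) = ε₁ i := by
    intro i
    by_cases hi : ε₁ i = -1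
    · rw [hi]
      exact e.extendSubtype_mem i hi
    · have h1 : ε₁ i = 1 := (hε₁ i).resolve_right hi
      have h2' : ¬ ε₂ (σ i) = -1 := e.extendSubtype_not_mem i hi
      rw [h1]
      exact (hε₂ (σ i)).resolve_right h2'
  set Q : M4 F := Equiv.Perm.permMatrix F σ with hQ
  have hQdet : IsUnit Q.det := by
    rw [hQ, Matrix.det_permutation]
    rcases Int.units_eq_one_or (Equiv.Perm.sign σ) with h | h
    · rw [h]; simp
    · rw [h]; simp
  have hDQ : Matrix.diagonal ε₁ * Q = Q * Matrix.diagonal ε₂ := by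
    ext i j
    rw [Matrix.diagonal_mul, Matrix.mul_diagonal, hQ, Equiv.Perm.permMatrix,
      PEquiv.toMatrix_apply]
    simp only [Equiv.toPEquiv_apply, Option.mem_def, Option.some.injEq]
    split_ifs with hij
    · rw [← hij, hσε]; ring
    · ring
  have hc₁' : y * (g₁ * Q) = (g₁ * Q) * Matrix.diagonal ε₂ := by
    rw [← Matrix.mul_assoc, hc₁, Matrix.mul_assoc, hDQ, Matrix.mul_assoc]
  have hG₁Q : IsUnit (g₁ * Q).det := by
    rw [Matrix.det_mul]
    exact hG₁.mul hQdet
  obtain ⟨hu, hc⟩ := aux_conj_trans hG₁Q hG₂ hc₁' hc₂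
  exact ⟨_, hu, hc⟩

example : ∀ (F : Type u) [Field F], (2 : F) ≠ 0 → (3 : F) ≠ 0 → ∀ y w : M4 F,
    y * y = 1 → w * w = 1 → Matrix.trace y = Matrix.trace w →
    ∃ G : M4 F, IsUnit G.det ∧ y * G = G * w := invC

end Cfsg.Agent.H69.S4
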