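import Cfsg.Agent.H99.S4Defs
import Cfsg.Agent.H98.OrtInvDiag
import Cfsg.Agent.H69.S4Aux

/-!
S6000-INVT piece (helper99's `PSL_4(p)` team project): involutions of `M_4(F)` by trace and
determinant.
-/

set_option autoImplicit false

namespace Cfsg.Agent.H69.S4

open Cfsg.Agent.H99.S4

universe u

/-- **S6000-INVT**. -/
theorem invT : Cfsg.Agent.H99.S4.StInvT.{u} := by
  intro F _ h2 y hy
  classical
  obtain ⟨g', ε, hg', hε, hconj⟩ :=
    Cfsg.Agent.H98.Ort.invDiag F 4 (by norm_num) h2 y (by rw [sq]; exact hy) 1 one_ne_zero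
  have hG : IsUnit g'.det := by rw [hg']; exact isUnit_one
  have htr : Matrix.trace y = ε 0 + ε 1 + ε 2 + ε 3 := by
    rw [aux_tr_conj hG hconj, Matrix.trace_diagonal, Fin.sum_univ_four]
  have hdet : y.det = ε 0 * ε 1 * ε 2 * ε 3 := by
    rw [aux_det_conj hG hconj, Matrix.det_diagonal, Fin.prod_univ_four]
  have hall1 : (∀ i, ε i = 1) → y = 1 := by
    intro h
    have h1 : Matrix.diagonal ε = 1 := by
      rw [← Matrix.diagonal_one]
      congr 1
      funext i
      exact h i
    rw [h1, Matrix.mul_one] at hconj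
    exact aux_eq_one_of_conj_one hG hconj
  have hallm1 : (∀ i, ε i = -1) → y = -1 := by
    intro h
    have h1 : Matrix.diagonal ε = -1 := by
      rw [show ε = fun _ => (-1 : F) from funext h]
      ext i j
      by_cases hij : i = j <;> simp [hij]
    rw [h1, Matrix.mul_neg, Matrix.mul_one] at hconj
    have h3 : (-y) * g' = g' := by rw [Matrix.neg_mul, hconj, neg_neg]
    have h4 := aux_eq_one_of_conj_one hG h3
    rw [← h4, neg_neg]
  have hall : ∀ c : F, ε 0 = c → ε 1 = c → ε 2 = c → ε 3 = c → ∀ i, ε i = c := by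
    intro c a0 a1 a2 a3 i
    fin_cases i
    exacts [a0, a1, a2, a3]
  rcases hε 0 with h0 | h0 <;> rcases hε 1 with h1 | h1 <;> rcases hε 2 with h2' | h2' <;>
    rcases hε 3 with h3 | h3 <;> rw [h0, h1, h2', h3] at htr hdet <;>
    first
    | (left; exact hall1 (hall 1 h0 h1 h2' h3))
    | (right; left; exact hallm1 (hall (-1) h0 h1 h2' h3))
    | (right; right; left; refine ⟨?_, ?_⟩; (rw [htr]; ring1); (rw [hdet]; ring1))
    | (right; right; right; left; refine ⟨?_, ?_⟩; (rw [htr]; ring1); (rw [hdet]; ring1))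
    | (right; right; right; right; refine ⟨?_, ?_⟩; (rw [htr]; ring1); (rw [hdet]; ring1))

example : ∀ (F : Type u) [Field F], (2 : F) ≠ 0 → ∀ y : M4 F, y * y = 1 →
    y = 1 ∨ y = -1 ∨ (Matrix.trace y = 0 ∧ y.det = 1) ∨ (Matrix.trace y = 2 ∧ y.det = -1) ∨
      (Matrix.trace y = -2 ∧ y.det = -1) := invT

end Cfsg.Agent.H69.S4
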