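import Cfsg.Agent.H99.S4Defs
import Cfsg.Agent.H98.OrtNsq

/-!
S6000-SQRT piece (helper99's `PSL_4(p)` team project): a `4 × 4` matrix of determinant one whose
square is a scalar `z` with `z² = -1` forces `z` to be a square.
-/

set_option autoImplicit false

namespace Cfsg.Agent.H69.S4

open Cfsg.Agent.H99.S4

open scoped MatrixGroups

universe u

/-- **S6000-SQRT**. -/
theorem sqrtS : Cfsg.Agent.H99.S4.StSqrt.{u} := by
  intro F _ _ h2 x z hx hz hdet
  classical
  by_contra hnsq
  set s : M4 F := !![0, z, 0, 0; 1, 0, 0, 0; 0, 0, 0, z; 0, 0, 1, 0] with hs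
  have hss : s * s = z • (1 : M4 F) := by
    ext i j
    fin_cases i <;> fin_cases j <;>
      simp [hs, Matrix.mul_apply, Fin.sum_univ_four]
  obtain ⟨g', hg', hconj⟩ :=
    Cfsg.Agent.H98.Ort.nsq F 4 (by norm_num) h2 z hnsq x s hx hss 1 one_ne_zero
  have hdets : s.det = z * z := by
    rw [hs, Matrix.det_succ_row_zero]
    simp [Fin.sum_univ_succ, Matrix.det_fin_three, Fin.succAbove, Matrix.submatrix]
  have h3 := congrArg Matrix.det hconj
  rw [Matrix.det_mul, Matrix.det_mul, hg', hdet, hdets, hz] at h3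
  apply h2
  linear_combination h3

example : ∀ (F : Type u) [Field F] [Fintype F], (2 : F) ≠ 0 → ∀ (x : M4 F) (z : F),
    x * x = z • (1 : M4 F) → z * z = -1 → x.det = 1 → IsSquare z := sqrtS

end Cfsg.Agent.H69.S4
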