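import Cfsg.Agent.H99.S4Defs

/-!
S6000-TVW piece (helper99's `PSL_4(p)` team project): the transvection `1 + E₀₁`.
-/

set_option autoImplicit false

namespace Cfsg.Agent.H69.S4

open Cfsg.Agent.H99.S4

open scoped MatrixGroups

universe u

/-- **S6000-TVW**. -/
theorem tvw : Cfsg.Agent.H99.S4.StTVW.{u} := by
  intro F _ p _ _
  classical
  have hp := (Fact.out : p.Prime)
  set N : M4 F := Matrix.single (0 : Fin 4) (1 : Fin 4) (1 : F) with hN
  have hNN : N * N = 0 := by
    rw [hN, Matrix.single_mul_single_of_ne]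
    decide
  have hdet : (1 + N).det = 1 := by
    have h := Matrix.det_transvection_of_ne (0 : Fin 4) (1 : Fin 4) (by decide) (1 : F)
    rw [Matrix.transvection] at h
    exact h
  have hdet0 : (1 + N).det ≠ 0 := by rw [hdet]; exact one_ne_zero
  refine ⟨Matrix.GeneralLinearGroup.mkOfDetNeZero (1 + N) hdet0, rfl, ?_, ?_, ?_⟩
  · change Matrix.GeneralLinearGroup.det _ = 1
    apply Units.ext
    rw [Matrix.GeneralLinearGroup.val_det_apply]
    exact hdet
  · change (1 + N) ^ p = 1
    have hcomm : Commute (1 : M4 F) N := Commute.one_left N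
    have hchar : CharP (M4 F) p := inferInstance
    rw [add_pow_char_of_commute p hcomm, one_pow]
    have hNp : N ^ p = 0 := by
      have h2 : N ^ 2 = 0 := by rw [pow_two, hNN]
      obtain ⟨k, hk⟩ := Nat.exists_eq_add_of_le hp.two_le
      rw [hk, pow_add, h2, zero_mul]
    rw [hNp, add_zero]
  · intro t ht
    have h1 := congrFun (congrFun ht 0) 1
    change (1 + N) 0 1 = (t • (1 : M4 F)) 0 1 at h1
    rw [hN] at h1
    simp at h1

example : ∀ (F : Type u) [Field F] (p : ℕ) [Fact p.Prime] [CharP F p],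
    ∃ x : G4 F, (x : M4 F) = 1 + Matrix.single (0 : Fin 4) (1 : Fin 4) (1 : F) ∧
      x ∈ Cfsg.Geo.specialLinear (Fin 4) F ∧ (x : M4 F) ^ p = 1 ∧
      ∀ t : F, (x : M4 F) ≠ t • (1 : M4 F) := tvw

end Cfsg.Agent.H69.S4
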