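import Mathlib
import Cfsg.Agent.H48.SPCDefs

/-!
SPC-CAYEQ piece for S2676 (helper48's team project): invariance under the Cayley–Jordan
matrix is skew-invariance under `N`, and the two matrices have the same commutant.
-/

set_option autoImplicit false

namespace Cfsg.Agent.H69.SPC

open Finset Cfsg.Agent.H61 Cfsg.Agent.H48.SPC

universe u

theorem jordanNil_pow_sup {F : Type u} [Field F] {t : ℕ} (d : Fin t → ℕ) :
    jordanNil d F ^ (univ.sup d) = 0 := by
  ext x y
  have h := mul_jordanNil_pow_apply (1 : Matrix (JI d) (JI d) F) (univ.sup d) x y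
  rw [one_mul] at h
  rw [h, dif_neg]
  · rfl
  · have : d y.1 ≤ univ.sup d := Finset.le_sup (f := d) (mem_univ y.1)
    omega

/-- Abstract version: `D = 1 - N`, `U` a two-sided inverse of `D`. -/
theorem cayEq_aux {F : Type u} [Field F] (h2 : (2 : F) ≠ 0) {ι : Type*} [Fintype ι]
    [DecidableEq ι] (N U X : Matrix ι ι F) (hDU : (1 - N) * U = 1) (hUD : U * (1 - N) = 1) :
    ((((1 + N) * U).transpose * X * ((1 + N) * U) = X) ↔ N.transpose * X = -(X * N)) ∧
    (X * ((1 + N) * U) = ((1 + N) * U) * X ↔ X * N = N * X) := by
  have hED : (1 + N) * (1 - N) = (1 - N) * (1 + N) := by noncomm_ring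
  have hDtUt : (1 - N).transpose * U.transpose = 1 := by
    rw [← Matrix.transpose_mul, hUD, Matrix.transpose_one]
  have hUtDt : U.transpose * (1 - N).transpose = 1 := by
    rw [← Matrix.transpose_mul, hDU, Matrix.transpose_one]
  have hDt : (1 - N).transpose = 1 - N.transpose := by
    rw [Matrix.transpose_sub, Matrix.transpose_one]
  have hEt : (1 + N).transpose = 1 + N.transpose := by
    rw [Matrix.transpose_add, Matrix.transpose_one]
  refine ⟨⟨fun h => ?_, fun h => ?_⟩, ⟨fun h => ?_, fun h => ?_⟩⟩
  · have key : (1 + N).transpose * X * (1 + N) = (1 - N).transpose * X * (1 - N) := by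
      calc (1 + N).transpose * X * (1 + N)
          = ((1 - N).transpose * U.transpose) * (1 + N).transpose * X * (1 + N) *
              (U * (1 - N)) := by rw [hDtUt, hUD, Matrix.one_mul, Matrix.mul_one]
        _ = (1 - N).transpose * (((1 + N) * U).transpose * X * ((1 + N) * U)) * (1 - N) := by
            rw [Matrix.transpose_mul]
            simp only [Matrix.mul_assoc]
        _ = (1 - N).transpose * X * (1 - N) := by rw [h]
    rw [hDt, hEt] at key
    have e1 : (1 + N.transpose) * X * (1 + N) - (1 - N.transpose) * X * (1 - N) =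
        (2 : F) • (N.transpose * X + X * N) := by
      rw [two_smul]
      noncomm_ring
    rw [key, sub_self] at e1
    have e2 : N.transpose * X + X * N = 0 := by
      rcases smul_eq_zero.mp e1.symm with h0 | h0
      · exact absurd h0 h2
      · exact h0
    exact eq_neg_of_add_eq_zero_left e2
  · have h1 : (1 + N).transpose * X = X * (1 - N) := by
      rw [hEt, add_mul, one_mul, h, mul_sub, mul_one, sub_eq_add_neg]
    have h3 : (1 - N).transpose * X = X * (1 + N) := by
      rw [hDt, sub_mul, one_mul, h, mul_add, mul_one, sub_neg_eq_add]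
    calc ((1 + N) * U).transpose * X * ((1 + N) * U)
        = U.transpose * ((1 + N).transpose * X) * (1 + N) * U := by
          rw [Matrix.transpose_mul]
          simp only [Matrix.mul_assoc]
      _ = U.transpose * X * ((1 - N) * (1 + N)) * U := by
          rw [h1]
          simp only [Matrix.mul_assoc]
      _ = U.transpose * (X * (1 + N)) * ((1 - N) * U) := by
          rw [← hED]
          simp only [Matrix.mul_assoc]
      _ = U.transpose * ((1 - N).transpose * X) := by
          rw [hDU, Matrix.mul_one, h3]
      _ = X := by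
          rw [← Matrix.mul_assoc, hUtDt, Matrix.one_mul]
  · -- `X` commutes with `c`, hence with `c + 1 = 2 • U`
    have hc1 : (1 + N) * U + 1 = (2 : F) • U := by
      have : (1 + N) * U + (1 - N) * U = (2 : F) • U := by
        rw [← add_mul, two_smul]
        have : (1 + N) + (1 - N) = (1 : Matrix ι ι F) + 1 := by abel
        rw [this, add_mul, one_mul]
      rw [hDU] at this
      exact this
    have h3 : X * ((2 : F) • U) = ((2 : F) • U) * X := by
      rw [← hc1, Matrix.mul_add X ((1 + N) * U) 1, Matrix.add_mul ((1 + N) * U) 1 X, h, mul_one,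
        one_mul]
    rw [Matrix.mul_smul, Matrix.smul_mul] at h3
    have hXU : X * U = U * X := by
      have h4 : (2 : F) • (X * U - U * X) = 0 := by
        rw [smul_sub, h3, sub_self]
      rcases smul_eq_zero.mp h4 with h0 | h0
      · exact absurd h0 h2
      · exact sub_eq_zero.mp h0
    have hXD : X * (1 - N) = (1 - N) * X := by
      calc X * (1 - N) = ((1 - N) * U) * X * (1 - N) := by rw [hDU, Matrix.one_mul]
        _ = (1 - N) * (X * U) * (1 - N) := by
            rw [hXU]
            simp only [Matrix.mul_assoc]
        _ = (1 - N) * X * (U * (1 - N)) := by simp only [Matrix.mul_assoc]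
        _ = (1 - N) * X := by rw [hUD, Matrix.mul_one]
    rw [mul_sub, sub_mul, mul_one, one_mul] at hXD
    exact sub_right_injective hXD
  · have hXD : X * (1 - N) = (1 - N) * X := by
      rw [mul_sub, sub_mul, mul_one, one_mul, h]
    have hXE : X * (1 + N) = (1 + N) * X := by
      rw [mul_add, add_mul, mul_one, one_mul, h]
    have hXU : X * U = U * X := by
      calc X * U = (U * (1 - N)) * X * U := by rw [hUD, Matrix.one_mul]
        _ = U * (X * (1 - N)) * U := by
            rw [hXD]
            simp only [Matrix.mul_assoc]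
        _ = U * X * ((1 - N) * U) := by simp only [Matrix.mul_assoc]
        _ = U * X := by rw [hDU, Matrix.mul_one]
    calc X * ((1 + N) * U) = (X * (1 + N)) * U := by rw [Matrix.mul_assoc]
      _ = (1 + N) * (X * U) := by rw [hXE, Matrix.mul_assoc]
      _ = (1 + N) * U * X := by rw [hXU, Matrix.mul_assoc]

theorem cayEq : CayEqStmt.{u} := by
  intro F _ h2 t d X
  have hnil : IsNilpotent (jordanNil d F) := ⟨_, jordanNil_pow_sup d⟩
  have hu : IsUnit (1 - jordanNil d F) := hnil.isUnit_one_sub
  have hdet : IsUnit (1 - jordanNil d F).det := (Matrix.isUnit_iff_isUnit_det _).mp hu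
  have hDU : (1 - jordanNil d F) * (1 - jordanNil d F)⁻¹ = 1 := Matrix.mul_nonsing_inv _ hdet
  have hUD : (1 - jordanNil d F)⁻¹ * (1 - jordanNil d F) = 1 := Matrix.nonsing_inv_mul _ hdet
  exact cayEq_aux h2 (jordanNil d F) (1 - jordanNil d F)⁻¹ X hDU hUD

example : CayEqStmt.{u} := cayEq

end Cfsg.Agent.H69.SPC
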