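/-
helper69: stem extensions of groups of dihedral type (generated by `a`, `x` with `x a x⁻¹ = a⁻¹`).
-/
import Cfsg.Agent.H69.SchurBasic

set_option autoImplicit false

namespace Cfsg.Agent.H69

/-- Stem extensions of a group generated by `a`, `x` with `x a x⁻¹ a = 1`: with lifts `a'`, `x'` and
`c = [x', a']`, the kernel lies in `zpowers c`, and `c ^ e = 1` whenever `a' ^ e` commutes with `x'`. -/
theorem dihedral_type_bound {Γ Q : Type*} [Group Γ] [Group Q] (σ : Γ →* Q) (hσ : IsStemExtension σ)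
    (a x : Q) (hgen : Subgroup.closure ({a, x} : Set Q) = ⊤) (hrel : x * a * x⁻¹ * a = 1)
    (a' x' : Γ) (ha : σ a' = a) (hx : σ x' = x) (e : ℕ) (he : x' * a' ^ e = a' ^ e * x') :
    (x' * a' * x'⁻¹ * a'⁻¹) ^ e = 1 ∧ σ.ker ≤ Subgroup.zpowers (x' * a' * x'⁻¹ * a'⁻¹) ∧
      σ (x' * a' * x'⁻¹ * a'⁻¹) = a⁻¹ * a⁻¹ := by
  have hKc : σ.ker ≤ Subgroup.center Γ := hσ.2.1
  have hKcomm : σ.ker ≤ commutator Γ := hσ.2.2
  -- the central element k = x' a' x'⁻¹ a'
  obtain ⟨k, hk_def⟩ : ∃ k, k = x' * a' * x'⁻¹ * a' := ⟨_, rfl⟩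
  have hkK : k ∈ σ.ker := by
    rw [MonoidHom.mem_ker, hk_def, map_mul, map_mul, map_mul, map_inv, ha, hx, hrel]
  have hk : ∀ g : Γ, g * k = k * g := Subgroup.mem_center_iff.mp (hKc hkK)
  have hki : ∀ g : Γ, g * k⁻¹ = k⁻¹ * g := by
    intro g
    have := hk g
    calc g * k⁻¹ = k⁻¹ * (k * g) * k⁻¹ := by group
      _ = k⁻¹ * (g * k) * k⁻¹ := by rw [this]
      _ = k⁻¹ * g := by group
  have hc_eq : x' * a' * x'⁻¹ * a'⁻¹ = k * a'⁻¹ * a'⁻¹ := by rw [hk_def]; group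
  have hconj : x' * a' * x'⁻¹ = k * a'⁻¹ := by rw [hk_def]; group
  have hconj_inv : x' * a'⁻¹ * x'⁻¹ = a' * k⁻¹ := by
    have : x' * a'⁻¹ * x'⁻¹ = (x' * a' * x'⁻¹)⁻¹ := by group
    rw [this, hconj]; group
  obtain ⟨c, hc_def⟩ : ∃ c, c = x' * a' * x'⁻¹ * a'⁻¹ := ⟨_, rfl⟩
  rw [← hc_def] at hc_eq ⊢
  -- conjugation by a' fixes c
  have h1 : a' * c * a'⁻¹ = c := by
    rw [hc_eq]
    calc a' * (k * a'⁻¹ * a'⁻¹) * a'⁻¹ = (a' * k) * a'⁻¹ * a'⁻¹ * a'⁻¹ := by group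
      _ = (k * a') * a'⁻¹ * a'⁻¹ * a'⁻¹ := by rw [hk a']
      _ = k * a'⁻¹ * a'⁻¹ := by group
  -- conjugation by x' inverts c
  have h2 : x' * c * x'⁻¹ = c⁻¹ := by
    rw [hc_eq]
    calc x' * (k * a'⁻¹ * a'⁻¹) * x'⁻¹ = (x' * k) * x'⁻¹ * (x' * a'⁻¹ * x'⁻¹) * (x' * a'⁻¹ * x'⁻¹) := by group
      _ = (k * x') * x'⁻¹ * (a' * k⁻¹) * (a' * k⁻¹) := by rw [hk x', hconj_inv]
      _ = k * (a' * k⁻¹) * a' * k⁻¹ := by group
      _ = k * (k⁻¹ * a') * a' * k⁻¹ := by rw [hki a']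
      _ = a' * (a' * k⁻¹) := by rw [mul_inv_cancel_left, mul_assoc]
      _ = (k * a'⁻¹ * a'⁻¹)⁻¹ := by rw [mul_inv_rev, mul_inv_rev, inv_inv]
  -- generation
  have hT : Subgroup.closure (({a', x'} : Set Γ) ∪ (σ.ker : Set Γ)) = ⊤ := by
    apply closure_union_ker_eq_top
    have : σ '' ({a', x'} : Set Γ) = {a, x} := by
      rw [Set.image_pair, ha, hx]
    rw [this, hgen]
  have hcentral : ∀ s ∈ (σ.ker : Set Γ), ∀ g : Γ, g * s = s * g :=
    fun s hs => Subgroup.mem_center_iff.mp (hKc hs)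
  -- normality
  have hZn : (Subgroup.zpowers c).Normal := by
    apply zpowers_normal_of_closure c _ hT
    rintro s ((hs | hs) | hs)
    · left; rw [hs]; exact h1
    · right
      rw [Set.mem_singleton_iff] at hs
      rw [hs]; exact h2
    · left
      rw [← hcentral s hs c, mul_inv_cancel_right]
  -- commutator
  have hcomm : commutator Γ ≤ Subgroup.zpowers c := by
    apply commutator_le_of_closure _ _ hT
    have hcen : ∀ s ∈ (σ.ker : Set Γ), ∀ t : Γ,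
        s * t * s⁻¹ * t⁻¹ ∈ Subgroup.zpowers c ∧ t * s * t⁻¹ * s⁻¹ ∈ Subgroup.zpowers c := by
      intro s hs t
      have e1 : s * t * s⁻¹ * t⁻¹ = 1 := by rw [← hcentral s hs t]; group
      have e2 : t * s * t⁻¹ * s⁻¹ = 1 := by rw [hcentral s hs t]; group
      rw [e1, e2]
      exact ⟨Subgroup.one_mem _, Subgroup.one_mem _⟩
    have hcm : c ∈ Subgroup.zpowers c := Subgroup.mem_zpowers c
    have hcm' : a' * x' * a'⁻¹ * x'⁻¹ ∈ Subgroup.zpowers c := by
      have : a' * x' * a'⁻¹ * x'⁻¹ = c⁻¹ := by rw [hc_def]; group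
      rw [this]; exact Subgroup.inv_mem _ hcm
    rintro s ((hs | hs) | hs) t ((ht | ht) | ht)
    · rw [hs, ht]; simp
    · rw [Set.mem_singleton_iff] at ht
      rw [hs, ht]; exact hcm'
    · exact (hcen t ht s).2
    · rw [Set.mem_singleton_iff] at hs
      rw [hs, ht, ← hc_def]; exact hcm
    · rw [Set.mem_singleton_iff] at hs ht
      rw [hs, ht]; simp
    · exact (hcen t ht s).2
    · exact (hcen s hs t).1
    · exact (hcen s hs t).1
    · exact (hcen s hs t).1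
  refine ⟨?_, hKcomm.trans hcomm, ?_⟩
  · -- c ^ e = 1
    have hcomm1 : Commute k (a'⁻¹ * a'⁻¹) := (hk _).symm
    have hcomm2 : Commute k a'⁻¹ := (hk _).symm
    have e1 : (x' * a' * x'⁻¹) ^ e = x' * a' ^ e * x'⁻¹ := conj_pow
    have e2 : (k * a'⁻¹) ^ e = k ^ e * (a'⁻¹) ^ e := hcomm2.mul_pow e
    have e3 : k ^ e * (a'⁻¹) ^ e = a' ^ e := by
      rw [← e2, ← hconj, e1, he]; group
    have e4 : (a'⁻¹ * a'⁻¹) ^ e = (a'⁻¹) ^ e * (a'⁻¹) ^ e := (Commute.refl a'⁻¹).mul_pow e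
    rw [hc_eq, mul_assoc, hcomm1.mul_pow e, e4, ← mul_assoc, e3, inv_pow]
    group
  · rw [hc_def, map_mul, map_mul, map_mul, map_inv, map_inv, ha, hx]
    have : x * a * x⁻¹ = a⁻¹ := by
      calc x * a * x⁻¹ = (x * a * x⁻¹ * a) * a⁻¹ := by group
        _ = a⁻¹ := by rw [hrel, one_mul]
    rw [this]

/-- In the situation of `dihedral_type_bound`, every element of the kernel is `c ^ i` with `orderOf a ∣ 2 * i`. -/
theorem dihedral_type_ker {Γ Q : Type*} [Group Γ] [Group Q] (σ : Γ →* Q) (hσ : IsStemExtension σ)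
    (a x : Q) (hgen : Subgroup.closure ({a, x} : Set Q) = ⊤) (hrel : x * a * x⁻¹ * a = 1)
    (a' x' : Γ) (ha : σ a' = a) (hx : σ x' = x) (e : ℕ) (he : x' * a' ^ e = a' ^ e * x')
    (k : Γ) (hk : k ∈ σ.ker) :
    ∃ i : ℤ, k = (x' * a' * x'⁻¹ * a'⁻¹) ^ i ∧ (orderOf a : ℤ) ∣ 2 * i := by
  obtain ⟨-, h2, h3⟩ := dihedral_type_bound σ hσ a x hgen hrel a' x' ha hx e he
  obtain ⟨i, hi⟩ := Subgroup.mem_zpowers_iff.mp (h2 hk)
  refine ⟨i, hi.symm, ?_⟩
  have h4 : σ k = 1 := MonoidHom.mem_ker.mp hk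
  rw [← hi, map_zpow, h3] at h4
  have h5 : a⁻¹ * a⁻¹ = a ^ (-2 : ℤ) := by group
  rw [h5, ← zpow_mul] at h4
  have h6 := orderOf_dvd_iff_zpow_eq_one.mpr h4
  have h7 : (-2 : ℤ) * i = -(2 * i) := by ring
  rw [h7] at h6
  exact (dvd_neg.mp h6)

/-- The dihedral group is generated by `r 1` and `sr 0`. -/
theorem dihedral_closure (n : ℕ) [NeZero n] :
    Subgroup.closure ({DihedralGroup.r 1, DihedralGroup.sr 0} : Set (DihedralGroup n)) = ⊤ := by
  rw [eq_top_iff]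
  have hr : ∀ i : ZMod n, DihedralGroup.r i ∈
      Subgroup.closure ({DihedralGroup.r 1, DihedralGroup.sr 0} : Set (DihedralGroup n)) := by
    intro i
    have h1 : DihedralGroup.r (1 : ZMod n) ^ i.val = DihedralGroup.r i := by
      rw [DihedralGroup.r_one_pow, ZMod.natCast_zmod_val]
    rw [← h1]
    exact Subgroup.pow_mem _ (Subgroup.subset_closure (Set.mem_insert _ _)) _
  rintro (i | i) _
  · exact hr i
  · have h1 : DihedralGroup.sr i = DihedralGroup.sr 0 * DihedralGroup.r i := by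
      rw [DihedralGroup.sr_mul_r, zero_add]
    rw [h1]
    exact Subgroup.mul_mem _ (Subgroup.subset_closure (Set.mem_insert_of_mem _ rfl)) (hr i)

theorem dihedral_rel (n : ℕ) :
    (DihedralGroup.sr 0 : DihedralGroup n) * DihedralGroup.r 1 * (DihedralGroup.sr 0)⁻¹ * DihedralGroup.r 1 = 1 := by
  rw [DihedralGroup.inv_sr, DihedralGroup.sr_mul_r, DihedralGroup.sr_mul_sr, DihedralGroup.r_mul_r,
    DihedralGroup.one_def]
  congr 1
  ring

/-- The quaternion group is generated by `a 1` and `xa 0`. -/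
theorem quaternion_closure (n : ℕ) [NeZero n] :
    Subgroup.closure ({QuaternionGroup.a 1, QuaternionGroup.xa 0} : Set (QuaternionGroup n)) = ⊤ := by
  rw [eq_top_iff]
  have hr : ∀ i : ZMod (2 * n), QuaternionGroup.a i ∈
      Subgroup.closure ({QuaternionGroup.a 1, QuaternionGroup.xa 0} : Set (QuaternionGroup n)) := by
    intro i
    have h1 : QuaternionGroup.a (1 : ZMod (2 * n)) ^ i.val = QuaternionGroup.a i := by
      rw [QuaternionGroup.a_one_pow, ZMod.natCast_zmod_val]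
    rw [← h1]
    exact Subgroup.pow_mem _ (Subgroup.subset_closure (Set.mem_insert _ _)) _
  rintro (i | i) _
  · exact hr i
  · have h1 : QuaternionGroup.xa i = QuaternionGroup.xa 0 * QuaternionGroup.a i := by
      rw [QuaternionGroup.xa_mul_a, zero_add]
    rw [h1]
    exact Subgroup.mul_mem _ (Subgroup.subset_closure (Set.mem_insert_of_mem _ rfl)) (hr i)

theorem quaternion_rel (n : ℕ) :
    (QuaternionGroup.xa 0 : QuaternionGroup n) * QuaternionGroup.a 1 * (QuaternionGroup.xa 0)⁻¹ *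
      QuaternionGroup.a 1 = 1 := by
  have h2n : ((n : ZMod (2 * n)) + (n : ZMod (2 * n))) = 0 := by
    have : ((2 * n : ℕ) : ZMod (2 * n)) = 0 := ZMod.natCast_self (2 * n)
    rw [← this]; push_cast; ring
  have hinv : (QuaternionGroup.xa (0 : ZMod (2 * n)))⁻¹ = QuaternionGroup.xa (n : ZMod (2 * n)) := by
    rw [inv_eq_iff_mul_eq_one]
    simp only [QuaternionGroup.xa_mul_xa]
    rw [QuaternionGroup.one_def]
    congr 1
    rw [sub_zero]; exact h2n
  rw [hinv, QuaternionGroup.xa_mul_a, QuaternionGroup.xa_mul_xa, QuaternionGroup.a_mul_a,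
    QuaternionGroup.one_def]
  congr 1
  linear_combination h2n

end Cfsg.Agent.H69
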