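import Mathlib
import Cfsg.Prelude.Def_GeometricClasses
import Cfsg.Agent.H69.Singer

/-!
Team project S5970 (helper69): n-th roots (S5970-NT) and scalar multiples of normalizing elements.
-/

set_option autoImplicit false
open scoped MatrixGroups
open Matrix

namespace Cfsg.Agent.H69.Singer

/-- S5970-NT -/
theorem exists_nth_root {F : Type*} [Field F] [Fintype F] (n : ℕ) (hn : n.Prime) (hn3 : 3 < n)
    (hord : orderOf ((Fintype.card F : ℕ) : ZMod n) = n - 1) (z : F) : ∃ l : F, l ^ n = z := by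
  classical
  have hq1 : 1 < Fintype.card F := Fintype.one_lt_card
  have hcop : Nat.Coprime n (Fintype.card F - 1) := by
    rw [Nat.Prime.coprime_iff_not_dvd hn]
    intro hdvd
    have h1 : ((Fintype.card F : ℕ) : ZMod n) = 1 := by
      have h2 : Fintype.card F = (Fintype.card F - 1) + 1 := by omega
      rw [h2, Nat.cast_add, (ZMod.natCast_eq_zero_iff _ _).mpr hdvd]
      simp
    rw [h1, orderOf_one] at hord
    omega
  have hinj : Function.Injective (fun t : F => t ^ n) := by
    intro a b hab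
    have hab' : a ^ n = b ^ n := hab
    by_cases hb : b = 0
    · rw [hb, zero_pow hn.ne_zero] at hab'
      rw [hb]
      exact pow_eq_zero_iff hn.ne_zero |>.mp hab'
    · have hc : (a / b) ^ n = 1 := by
        rw [div_pow, hab', div_self (pow_ne_zero n hb)]
      have ha : a ≠ 0 := by
        intro ha
        rw [ha, zero_pow hn.ne_zero] at hab'
        exact hb (pow_eq_zero_iff hn.ne_zero |>.mp hab'.symm)
      have hc2 : (a / b) ^ (Fintype.card F - 1) = 1 :=
        FiniteField.pow_card_sub_one_eq_one _ (div_ne_zero ha hb)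
      have hc3 : (a / b) ^ Nat.gcd n (Fintype.card F - 1) = 1 := pow_gcd_eq_one.mpr ⟨hc, hc2⟩
      rw [Nat.Coprime.gcd_eq_one hcop, pow_one] at hc3
      exact (div_eq_one_iff_eq hb).mp hc3
  exact (Finite.injective_iff_surjective.mp hinj) z

theorem mem_normalizer_of_eq_smul {F : Type*} [Field F] {n : ℕ}
    (K : Subalgebra F (Matrix (Fin n) (Fin n) F)) (s g : GL (Fin n) F)
    (hs : s ∈ Cfsg.Geo.subalgebraNormalizer K) (c : F)
    (h : (g : Matrix (Fin n) (Fin n) F) = c • (s : Matrix (Fin n) (Fin n) F)) :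
    g ∈ Cfsg.Geo.subalgebraNormalizer K := by
  have hgi : (g : Matrix (Fin n) (Fin n) F) * ((g⁻¹ : GL (Fin n) F) : Matrix (Fin n) (Fin n) F) =
      1 := by
    rw [← Units.val_mul, mul_inv_cancel, Units.val_one]
  have hsi : ((s⁻¹ : GL (Fin n) F) : Matrix (Fin n) (Fin n) F) * (s : Matrix (Fin n) (Fin n) F) =
      1 := by
    rw [← Units.val_mul, inv_mul_cancel, Units.val_one]
  have hinv : c • ((g⁻¹ : GL (Fin n) F) : Matrix (Fin n) (Fin n) F) =
      ((s⁻¹ : GL (Fin n) F) : Matrix (Fin n) (Fin n) F) := by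
    have h1 : (s : Matrix (Fin n) (Fin n) F) *
        (c • ((g⁻¹ : GL (Fin n) F) : Matrix (Fin n) (Fin n) F)) = 1 := by
      rw [Matrix.mul_smul, ← Matrix.smul_mul, ← h, hgi]
    calc c • ((g⁻¹ : GL (Fin n) F) : Matrix (Fin n) (Fin n) F)
        = (((s⁻¹ : GL (Fin n) F) : Matrix (Fin n) (Fin n) F) * (s : Matrix (Fin n) (Fin n) F)) *
            (c • ((g⁻¹ : GL (Fin n) F) : Matrix (Fin n) (Fin n) F)) := by rw [hsi, Matrix.one_mul]
      _ = ((s⁻¹ : GL (Fin n) F) : Matrix (Fin n) (Fin n) F) := by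
          rw [Matrix.mul_assoc, h1, Matrix.mul_one]
  intro k
  have hconj : (g : Matrix (Fin n) (Fin n) F) * k *
      ((g⁻¹ : GL (Fin n) F) : Matrix (Fin n) (Fin n) F) =
      (s : Matrix (Fin n) (Fin n) F) * k * ((s⁻¹ : GL (Fin n) F) : Matrix (Fin n) (Fin n) F) := by
    rw [← hinv, h, Matrix.mul_smul, Matrix.smul_mul, Matrix.smul_mul]
  rw [hconj]
  exact hs k

end Cfsg.Agent.H69.Singer
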