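import Mathlib
import Cfsg.Agent.H78.StSpDefs
import Cfsg.Agent.H92.StSpW

/-!
# The longest element of the Weyl group of type `D` modulo commutators of `WSp` (helper69, piece
S2548-W of the team project S2548 of helper78).
-/

set_option autoImplicit false

namespace Cfsg.Agent.H69.StOW

open Cfsg.Agent.H78.StSp Cfsg.Agent.H92.StSp

/-- the reflection `e_i ↔ f_i` -/
noncomputable def tsw (m : ℕ) (i : Fin (m + 1)) : Equiv.Perm (Fin ((m + 1) + (m + 1))) :=
  Equiv.swap (pE m i) (pF m i)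

theorem tsw_mul_self (m : ℕ) (i : Fin (m + 1)) : tsw m i * tsw m i = 1 :=
  Equiv.swap_mul_self _ _

theorem tsw_inv (m : ℕ) (i : Fin (m + 1)) : (tsw m i)⁻¹ = tsw m i :=
  Equiv.swap_inv _ _

theorem tsw_conj (m : ℕ) (k : Fin m) :
    sgen m (some k) * tsw m k.succ * (sgen m (some k))⁻¹ = tsw m k.castSucc := by
  have h1 : sgen m (some k) (pE m k.succ) = pE m k.castSucc := by
    show (Equiv.swap (pE m k.castSucc) (pE m k.succ) *
      Equiv.swap (pF m k.succ) (pF m k.castSucc)) _ = _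
    rw [Equiv.Perm.mul_apply, Equiv.swap_apply_of_ne_of_ne (pE_ne_pF m _ _) (pE_ne_pF m _ _),
      Equiv.swap_apply_right]
  have h2 : sgen m (some k) (pF m k.succ) = pF m k.castSucc := by
    show (Equiv.swap (pE m k.castSucc) (pE m k.succ) *
      Equiv.swap (pF m k.succ) (pF m k.castSucc)) _ = _
    rw [Equiv.Perm.mul_apply, Equiv.swap_apply_left,
      Equiv.swap_apply_of_ne_of_ne (pE_ne_pF m _ _).symm (pE_ne_pF m _ _).symm]
  unfold tsw
  rw [← h1, ← h2, Equiv.swap_apply_apply]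

theorem adj_mem (m : ℕ) (L : Subgroup (Equiv.Perm (Fin ((m + 1) + (m + 1)))))
    (hL : ∀ x ∈ WSp m, ∀ y ∈ WSp m, x * y * x⁻¹ * y⁻¹ ∈ L) (k : Fin m) :
    tsw m k.castSucc * tsw m k.succ ∈ L := by
  have hs : sgen m (some k) ∈ WSp m := Subgroup.subset_closure ⟨some k, rfl⟩
  have ht : tsw m k.succ ∈ WSp m := tswap_mem m k.succ
  have h := hL (sgen m (some k)) hs (tsw m k.succ) ht
  have e : sgen m (some k) * tsw m k.succ * (sgen m (some k))⁻¹ * (tsw m k.succ)⁻¹
      = tsw m k.castSucc * tsw m k.succ := by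
    rw [tsw_conj, tsw_inv]
  rw [e] at h
  exact h

theorem last_mem (m : ℕ) (L : Subgroup (Equiv.Perm (Fin ((m + 1) + (m + 1)))))
    (hL : ∀ x ∈ WSp m, ∀ y ∈ WSp m, x * y * x⁻¹ * y⁻¹ ∈ L) (a : Fin (m + 1)) :
    tsw m a * tsw m (Fin.last m) ∈ L := by
  induction a using Fin.reverseInduction with
  | last => rw [tsw_mul_self]; exact one_mem _
  | cast k ih =>
    have e : tsw m k.castSucc * tsw m (Fin.last m)
        = (tsw m k.castSucc * tsw m k.succ) * (tsw m k.succ * tsw m (Fin.last m)) := by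
      rw [mul_assoc, ← mul_assoc (tsw m k.succ), tsw_mul_self, one_mul]
    rw [e]
    exact mul_mem (adj_mem m L hL k) ih

theorem rrev_mem (m : ℕ) (L : Subgroup (Equiv.Perm (Fin ((m + 1) + (m + 1)))))
    (hL : ∀ x ∈ WSp m, ∀ y ∈ WSp m, x * y * x⁻¹ * y⁻¹ ∈ L) (j : ℕ) :
    (if Even j then Rrev m j else tsw m (Fin.last m) * Rrev m j) ∈ L := by
  induction j with
  | zero =>
    rw [if_pos (by decide)]
    exact one_mem _
  | succ j ih =>
    have hstep : Rrev m (j + 1) = tsw m ⟨m - j, by omega⟩ * Rrev m j := rfl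
    have hlast := last_mem m L hL ⟨m - j, by omega⟩
    by_cases hj : Even j
    · rw [if_pos hj] at ih
      rw [if_neg (by rw [Nat.even_add_one]; exact not_not.mpr hj), hstep, ← mul_assoc]
      refine mul_mem ?_ ih
      have e : tsw m (Fin.last m) * tsw m ⟨m - j, by omega⟩
          = (tsw m ⟨m - j, by omega⟩ * tsw m (Fin.last m))⁻¹ := by
        rw [mul_inv_rev, tsw_inv, tsw_inv]
      rw [e]
      exact inv_mem hlast
    · rw [if_neg hj] at ih
      rw [if_pos (by rw [Nat.even_add_one]; exact hj), hstep]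
      have e : tsw m ⟨m - j, by omega⟩ * Rrev m j
          = (tsw m ⟨m - j, by omega⟩ * tsw m (Fin.last m)) * (tsw m (Fin.last m) * Rrev m j) := by
        rw [mul_assoc, ← mul_assoc (tsw m (Fin.last m)), tsw_mul_self, one_mul]
      rw [e]
      exact mul_mem hlast ih

theorem wsp_long (m : ℕ) (L : Subgroup (Equiv.Perm (Fin ((m + 1) + (m + 1)))))
    (hL : ∀ x ∈ WSp m, ∀ y ∈ WSp m, x * y * x⁻¹ * y⁻¹ ∈ L) :
    (if Even (m + 1) then (Fin.revPerm : Equiv.Perm (Fin ((m + 1) + (m + 1))))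
      else Equiv.swap (pE m (Fin.last m)) (pF m (Fin.last m)) * Fin.revPerm) ∈ L := by
  have h : (Fin.revPerm : Equiv.Perm (Fin ((m+1)+(m+1)))) = Rrev m (m + 1) := by
    apply Equiv.ext
    intro c
    rw [Rrev_apply m (m + 1) le_rfl c, if_pos ⟨by omega, by have := c.isLt; omega⟩]
    rfl
  rw [h]
  exact rrev_mem m L hL (m + 1)

end Cfsg.Agent.H69.StOW
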