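import Cfsg.Agent.H90.TRDefs
import Cfsg.Agent.H88.Basic
import Cfsg.Agent.H86.FusNormal
import Cfsg.Agent.H86.FusAut
import Cfsg.Agent.H86.FusExt

set_option autoImplicit false
set_option maxHeartbeats 400000

/-!
Piece Y1 of the team project S5156: the characteristic subgroups of `O_p(E)`, for `E` an
invariant subsystem of `F` with the Frattini property, are strongly closed in `F`.
-/

namespace Cfsg.Agent.H69.TRY1

open Cfsg Cfsg.FusionSystem Cfsg.Agent.H86 Cfsg.Agent.H87 Cfsg.Agent.H90.TR

universe u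

variable {Ω : Type u} [Group Ω] {S T : Subgroup Ω}

/-- The image of a normal subgroup of `E` under an element of `Aut_F(T)` is normal in `E`. -/
lemma isNormal_imgS (F : FusionSystem S) (E : FusionSystem T) (hinv : AutInv E F)
    {a : Ω → Ω} (ha : Mor F T a) (haT : imgS T a = T) {Q : Subgroup Ω} (hQ : E.IsNormal Q) :
    E.IsNormal (imgS Q a) := by
  rw [isNormal_iff] at hQ ⊢
  obtain ⟨hQT, hQext⟩ := hQ
  refine ⟨?_, fun P f hf => ?_⟩
  · rw [← haT]
    exact ha.imgS_mono hQT
  · have hPT : P ≤ T := hf.le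
    have hbM : Mor F T (invOn T a) := by
      have := ha.inv
      rwa [haT] at this
    have hbT : imgS T (invOn T a) = T := by
      have := ha.imgS_inv
      rwa [haT] at this
    have hab : ∀ y ∈ T, a (invOn T a y) = y := fun y hy => ha.apply_invOn (by rw [haT]; exact hy)
    obtain ⟨g, hg, hgf⟩ := hinv P f (invOn T a) hPT hf hbM hbT
    obtain ⟨g', hg', hg'g, hg'Q⟩ := hQext (imgS P (invOn T a)) g hg
    have hle : imgS P (invOn T a) ⊔ Q ≤ T := hg'.le
    obtain ⟨f', hf', hf'g⟩ := hinv (imgS P (invOn T a) ⊔ Q) g' a hle hg' ha haT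
    have hbP : Mor F P (invOn T a) := hbM.restrict hPT
    have himgP : imgS (imgS P (invOn T a)) a = P := by
      ext y
      rw [(ha.restrict (le_sup_left.trans hle)).mem_imgS]
      constructor
      · rintro ⟨x, hx, rfl⟩
        obtain ⟨z, hz, rfl⟩ := hbP.mem_imgS.1 hx
        rw [hab z (hPT hz)]
        exact hz
      · intro hy
        exact ⟨invOn T a y, hbP.mem_imgS_of_mem hy, hab y (hPT hy)⟩
    have himg : imgS (imgS P (invOn T a) ⊔ Q) a = P ⊔ imgS Q a := by
      rw [(ha.restrict hle).imgS_sup, himgP]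
    rw [himg] at hf'
    have hg'QM : Mor E Q g' := hg'.restrict le_sup_right
    refine ⟨f', hf', fun x hx => ?_, ?_⟩
    · have hx1 : invOn T a x ∈ imgS P (invOn T a) := hbP.mem_imgS_of_mem hx
      have h1 : f' (a (invOn T a x)) = a (g' (invOn T a x)) :=
        hf'g _ (Subgroup.mem_sup_left hx1)
      rw [hab x (hPT hx)] at h1
      rw [h1, hg'g _ hx1, hgf x hx, hab _ (hf.mem hx)]
    · ext y
      rw [(hf'.restrict le_sup_right).mem_imgS]
      constructor
      · rintro ⟨x, hx, rfl⟩
        obtain ⟨q, hq, rfl⟩ := (ha.restrict hQT).mem_imgS.1 hx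
        rw [hf'g q (Subgroup.mem_sup_right hq)]
        refine (ha.restrict hQT).mem_imgS_of_mem ?_
        have := hg'QM.mem_imgS_of_mem hq
        rwa [hg'Q] at this
      · intro hy
        obtain ⟨q', hq', rfl⟩ := (ha.restrict hQT).mem_imgS.1 hy
        rw [← hg'Q] at hq'
        obtain ⟨q, hq, rfl⟩ := hg'QM.mem_imgS.1 hq'
        exact ⟨a q, (ha.restrict hQT).mem_imgS_of_mem hq, hf'g q (Subgroup.mem_sup_right hq)⟩

theorem y1 : Y1Stmt.{u} := by
  intro Ω _ S T _ F E hTS hEF hinv hfrat U hU hchar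
  have hfinT : Finite T := Finite.of_injective (Subgroup.inclusion hTS) (Subgroup.inclusion_injective hTS)
  have hcore : E.IsNormal E.core := Cfsg.Agent.H88.isNormal_core E
  have hcoreT : E.core ≤ T := hcore.1
  have hfinC : Finite E.core :=
    Finite.of_injective (Subgroup.inclusion hcoreT) (Subgroup.inclusion_injective hcoreT)
  have hUE : E.IsNormal U := isNormal_of_characteristic hcore hU hchar
  have hUsc : E.StronglyClosed U := IsNormal.stronglyClosed hUE
  rw [stronglyClosed_iff] at hUsc ⊢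
  refine ⟨(hU.trans hcoreT).trans hTS, fun R f hRU hf x hx => ?_⟩
  obtain ⟨a, f₀, ha, haT, hf₀, hff⟩ := hfrat R f (hRU.trans (hU.trans hcoreT)) hf
  rw [hff x hx]
  have h1 : f₀ x ∈ U := hUsc.2 R f₀ hRU hf₀ x hx
  -- `a` stabilizes the core
  have haC : Mor F E.core a := ha.restrict hcoreT
  have hle : imgS E.core a ≤ E.core := le_sSup (isNormal_imgS F E hinv ha haT hcore)
  have himg : imgS E.core a = E.core :=
    imgS_eq_of_maps haC (fun y hy => hle (haC.mem_imgS_of_mem hy))
  have hmap := Subgroup.characteristic_iff_map_le.1 hchar (mkAut haC himg)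
  have h2 : (mkAut haC himg) ⟨f₀ x, hU h1⟩ ∈ (U.subgroupOf E.core).map (mkAut haC himg).toMonoidHom :=
    Subgroup.mem_map_of_mem _ (Subgroup.mem_subgroupOf.2 h1)
  exact Subgroup.mem_subgroupOf.1 (hmap h2)

end Cfsg.Agent.H69.TRY1
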