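import Mathlib
import Cfsg.Prelude.Def_GeometricClasses

set_option autoImplicit false
set_option maxHeartbeats 400000

/-!
Piece S5979-NT1: a prime `r`, different from the characteristic, dividing the index in `SL_n(q)`
of a subgroup has `ord_r(q) ≤ n`.
-/

namespace Cfsg.Agent.H69.Ten

theorem order_le_of_dvd_relIndex {F : Type*} [Field F] [Fintype F] (n : ℕ) (r : ℕ) (hr : r.Prime)
    (hrF : (r : F) ≠ 0) (H : Subgroup (GL (Fin n) F))
    (h : r ∣ H.relIndex (Cfsg.Geo.specialLinear (Fin n) F)) :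
    orderOf (Fintype.card F : ZMod r) ≤ n := by
  have hrfact : Fact r.Prime := ⟨hr⟩
  have h2 : r ∣ Nat.card (GL (Fin n) F) :=
    h.trans ((Subgroup.relIndex_dvd_card _ _).trans (Subgroup.card_subgroup_dvd_card _))
  rw [Matrix.card_GL_field] at h2
  obtain ⟨i, -, hi⟩ := (Nat.Prime.prime hr).exists_mem_finset_dvd h2
  -- r does not divide q
  have hq : ¬ r ∣ Fintype.card F := by
    intro hdvd
    obtain ⟨p, hpchar⟩ := CharP.exists F
    obtain ⟨k, hp, hk⟩ := FiniteField.card F p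
    rw [hk] at hdvd
    have hrp : r = p := (Nat.prime_dvd_prime_iff_eq hr hp).mp (hr.dvd_of_dvd_pow hdvd)
    apply hrF
    rw [hrp]
    exact CharP.cast_eq_zero F p
  have hle : Fintype.card F ^ (i : ℕ) ≤ Fintype.card F ^ n :=
    Nat.pow_le_pow_right Fintype.card_pos i.2.le
  have hpow : ((Fintype.card F : ℕ) : ZMod r) ^ (n - (i : ℕ)) = 1 := by
    have h3 : ((Fintype.card F ^ n - Fintype.card F ^ (i : ℕ) : ℕ) : ZMod r) = 0 :=
      (ZMod.natCast_eq_zero_iff _ _).mpr hi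
    rw [Nat.cast_sub hle, sub_eq_zero] at h3
    push_cast at h3
    have h4 : ((Fintype.card F : ℕ) : ZMod r) ≠ 0 := by
      intro h0
      exact hq ((ZMod.natCast_eq_zero_iff _ _).mp h0)
    have h5 : ((Fintype.card F : ℕ) : ZMod r) ^ n =
        ((Fintype.card F : ℕ) : ZMod r) ^ (n - (i : ℕ)) * ((Fintype.card F : ℕ) : ZMod r) ^ (i : ℕ) := by
      rw [← pow_add, Nat.sub_add_cancel i.2.le]
    rw [h5] at h3
    have h6 : ((Fintype.card F : ℕ) : ZMod r) ^ (i : ℕ) ≠ 0 := pow_ne_zero _ h4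
    exact mul_right_cancel₀ h6 (by rw [h3, one_mul])
  have hdvd := orderOf_dvd_of_pow_eq_one hpow
  have hpos : 0 < n - (i : ℕ) := Nat.sub_pos_of_lt i.2
  exact (Nat.le_of_dvd hpos hdvd).trans (Nat.sub_le _ _)

end Cfsg.Agent.H69.Ten
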