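import Mathlib
import Cfsg.Agent.H99.DecOne

set_option autoImplicit false
set_option maxHeartbeats 400000

/-!
Piece S5979-WIT: witnesses of prime order in `SL_n` with `x - 1` of small rank: a transvection in
the defining characteristic, and an element with exactly one non-trivial block otherwise.
-/

namespace Cfsg.Agent.H69.Ten

theorem exists_transvection_matrix {F : Type*} [Field F] {p : ℕ} [Fact p.Prime] [CharP F p]
    (n : ℕ) (hn : 2 ≤ n) :
    ∃ M : Matrix (Fin n) (Fin n) F, M.det = 1 ∧ M ^ p = 1 ∧
      (∀ z : F, M ≠ z • (1 : Matrix (Fin n) (Fin n) F)) ∧ (M - 1).rank ≤ 1 := by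
  classical
  obtain ⟨i, hi⟩ : ∃ i : Fin n, i = ⟨0, by omega⟩ := ⟨_, rfl⟩
  obtain ⟨j, hj⟩ : ∃ j : Fin n, j = ⟨1, by omega⟩ := ⟨_, rfl⟩
  have hij : i ≠ j := by
    rw [hi, hj]
    simp [Fin.ext_iff]
  refine ⟨Matrix.transvection i j 1, Matrix.det_transvection_of_ne i j hij 1, ?_, ?_, ?_⟩
  · have hpow : ∀ k : ℕ, (Matrix.transvection i j (1 : F)) ^ k = Matrix.transvection i j (k : F) := by
      intro k
      induction k with
      | zero => simp [Matrix.transvection_zero]
      | succ k ih =>
        rw [pow_succ, ih, Matrix.transvection_mul_transvection_same i j hij]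
        push_cast
        rfl
    rw [hpow, CharP.cast_eq_zero, Matrix.transvection_zero]
  · intro z hz
    have h1 := congrFun (congrFun hz i) j
    simp [Matrix.transvection, Matrix.single, hij] at h1
  · have h1 : Matrix.transvection i j (1 : F) - 1 =
        Matrix.vecMulVec (Pi.single i (1 : F)) (Pi.single j (1 : F)) := by
      ext a b
      simp only [Matrix.transvection, Matrix.sub_apply, Matrix.add_apply, Matrix.vecMulVec_apply,
        Matrix.single_apply, Pi.single_apply, add_sub_cancel_left]
      by_cases ha : a = i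
      · by_cases hb : b = j
        · subst ha hb
          simp
        · subst ha
          simp [hb, Ne.symm hb]
      · simp [ha, Ne.symm ha]
    rw [h1]
    exact Matrix.rank_vecMulVec_le _ _

theorem exists_one_block_matrix {F : Type*} [Field F] [Fintype F] (r : ℕ) (hr : r.Prime)
    (hrF : (r : F) ≠ 0) (n : ℕ) (hi : 2 ≤ orderOf (Fintype.card F : ZMod r))
    (hin : orderOf (Fintype.card F : ZMod r) ≤ n) :
    ∃ M : Matrix (Fin n) (Fin n) F, M.det = 1 ∧ M ^ r = 1 ∧
      (∀ z : F, M ≠ z • (1 : Matrix (Fin n) (Fin n) F)) ∧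
      (M - 1).rank = orderOf (Fintype.card F : ZMod r) := by
  classical
  obtain ⟨x, hxr, hx1, hker⟩ := Cfsg.Agent.H99.Dec.exists_one_block_SL r hr hrF n hi hin
  have hrfact : Fact r.Prime := ⟨hr⟩
  have hxr' : (x : Matrix (Fin n) (Fin n) F) ^ r = 1 := by
    have h1 := congrArg (fun y : Matrix.SpecialLinearGroup (Fin n) F =>
      (y : Matrix (Fin n) (Fin n) F)) hxr
    simpa using h1
  refine ⟨(x : Matrix (Fin n) (Fin n) F), x.2, hxr', ?_, ?_⟩
  · intro z hz
    have hn0 : 0 < n := by omega
    have hzr : z ^ r = 1 := by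
      rw [hz, smul_pow, one_pow] at hxr'
      have h1 := congrFun (congrFun hxr' ⟨0, hn0⟩) ⟨0, hn0⟩
      simpa using h1
    by_cases hz1 : z = 1
    · apply hx1
      apply Subtype.ext
      rw [hz, hz1, one_smul]
      rfl
    · have hz0 : z ≠ 0 := by
        rintro rfl
        rw [zero_pow hr.ne_zero] at hzr
        exact zero_ne_one hzr
      have ho : orderOf z = r := orderOf_eq_prime hzr hz1
      have hdvd : r ∣ Fintype.card F - 1 := by
        rw [← ho]
        exact orderOf_dvd_of_pow_eq_one (FiniteField.pow_card_sub_one_eq_one z hz0)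
      have hq1 : ((Fintype.card F : ℕ) : ZMod r) = 1 := by
        have h1 : ((Fintype.card F - 1 : ℕ) : ZMod r) = 0 := (ZMod.natCast_eq_zero_iff _ _).mpr hdvd
        rw [Nat.cast_sub Fintype.card_pos, sub_eq_zero] at h1
        simpa using h1
      rw [hq1, orderOf_one] at hi
      omega
  · have h1 : ((x : Matrix (Fin n) (Fin n) F) - 1).rank =
        Module.finrank F (LinearMap.range (Matrix.toLin' (x : Matrix (Fin n) (Fin n) F) - 1)) := by
      have h3 : ((x : Matrix (Fin n) (Fin n) F) - 1).mulVecLin =
          Matrix.toLin' (x : Matrix (Fin n) (Fin n) F) - 1 := by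
        apply LinearMap.ext
        intro v
        simp
      rw [Matrix.rank, h3]
    have h2 := LinearMap.finrank_range_add_finrank_ker
      (Matrix.toLin' (x : Matrix (Fin n) (Fin n) F) - 1)
    rw [Module.finrank_fin_fun] at h2
    rw [h1]
    omega

end Cfsg.Agent.H69.Ten
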