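import Mathlib
import Cfsg.Agent.H77.UfDefs

/-! UF-ABSN (helper69, for helper77, S2149): from the centralizer bound and non-inversion in `S`
to a subgroup of order 7 of `S / Z(S)` whose normalizer has order dividing 21.
(Twin of `H35.U4.abs_card` + `H82.U4.abs_quot`.) -/

set_option autoImplicit false

universe u

namespace Cfsg.Agent.H69.Uf

open Cfsg.Agent.H77.Uf

theorem absN_card_map_mk_mul {S : Type*} [Group S] [Finite S] (Z : Subgroup S) [Z.Normal]
    (H : Subgroup S) (hZH : Z ≤ H) :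
    Nat.card (H.map (QuotientGroup.mk' Z)) * Nat.card Z = Nat.card H := by
  have hidx : (H.map (QuotientGroup.mk' Z)).index = H.index :=
    Subgroup.index_map_eq H (QuotientGroup.mk'_surjective Z)
      (by rw [QuotientGroup.ker_mk']; exact hZH)
  have h1 := Subgroup.card_mul_index (H.map (QuotientGroup.mk' Z))
  have h2 := Subgroup.card_mul_index H
  have h3 : Nat.card (S ⧸ Z) * Nat.card Z = Nat.card S :=
    (Subgroup.card_eq_card_quotient_mul_card_subgroup Z).symm
  have h0 : H.index ≠ 0 := Subgroup.index_ne_zero_of_finite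
  rw [hidx] at h1
  have h4 : Nat.card (H.map (QuotientGroup.mk' Z)) * Nat.card Z * H.index
      = Nat.card H * H.index := by
    rw [h2, ← h3, ← h1]; ring
  exact Nat.eq_of_mul_eq_mul_right (Nat.pos_of_ne_zero h0) h4

theorem absN_mem_normalizer_of_conj_mem {S : Type*} [Group S] [Finite S] (P : Subgroup S) (n : S)
    (h : ∀ x ∈ P, n * x * n⁻¹ ∈ P) : n ∈ Subgroup.normalizer (P : Set S) := by
  rw [Subgroup.mem_normalizer_iff]
  intro x
  refine ⟨h x, fun hx => ?_⟩
  let φ : P → P := fun y => ⟨n * y.1 * n⁻¹, h y.1 y.2⟩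
  have hinj : Function.Injective φ := by
    intro y y' hyy
    have h2 : n * y.1 * n⁻¹ = n * y'.1 * n⁻¹ := congrArg Subtype.val hyy
    exact Subtype.ext (by simpa using h2)
  obtain ⟨y, hy⟩ := (Finite.injective_iff_surjective.mp hinj) ⟨n * x * n⁻¹, hx⟩
  have h2 : n * y.1 * n⁻¹ = n * x * n⁻¹ := congrArg Subtype.val hy
  have h3 : y.1 = x := by simpa using h2
  exact h3 ▸ y.2

/-- The normalizer of `⟨a⟩` has order 21 or 63. -/
theorem absN_card {S : Type*} [Group S] [Finite S] (a : S) (h7 : a ^ 7 = 1) (h1 : a ≠ 1)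
    (hZ : Nat.card (Subgroup.center S) = 3)
    (hC : Nat.card (Subgroup.centralizer ({a} : Set S)) ≤ 21)
    (hn6 : ∀ n : S, n * a * n⁻¹ ≠ a ^ 6) :
    Nat.card (Subgroup.normalizer ((Subgroup.zpowers a : Subgroup S) : Set S)) = 21 ∨
    Nat.card (Subgroup.normalizer ((Subgroup.zpowers a : Subgroup S) : Set S)) = 63 := by
  classical
  have hp7 : Fact (Nat.Prime 7) := ⟨by norm_num⟩
  have ho : orderOf a = 7 := orderOf_eq_prime h7 h1
  -- membership in the centralizer
  have hCmem : ∀ g : S, g ∈ Subgroup.centralizer ({a} : Set S) ↔ g * a * g⁻¹ = a := by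
    intro g
    rw [Subgroup.mem_centralizer_iff]
    constructor
    · intro h
      have h2 := h a (Set.mem_singleton a)
      rw [← h2]
      group
    · intro h x hx
      rw [Set.mem_singleton_iff] at hx
      subst hx
      calc x * g = g * x * g⁻¹ * g := by rw [h]
        _ = g * x := by group
  have haC : a ∈ Subgroup.centralizer ({a} : Set S) := by
    rw [hCmem]
    group
  have h3 : 3 ∣ Nat.card (Subgroup.centralizer ({a} : Set S)) := by
    rw [← hZ]
    exact Subgroup.card_dvd_of_le (Subgroup.center_le_centralizer _)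
  have h7' : 7 ∣ Nat.card (Subgroup.centralizer ({a} : Set S)) := by
    have h := Subgroup.card_dvd_of_le (Subgroup.zpowers_le.2 haC)
    rwa [Nat.card_zpowers, ho] at h
  have h21 : 21 ∣ Nat.card (Subgroup.centralizer ({a} : Set S)) :=
    Nat.Coprime.mul_dvd_of_dvd_of_dvd (by norm_num : Nat.Coprime 3 7) h3 h7'
  have hC21 : Nat.card (Subgroup.centralizer ({a} : Set S)) = 21 :=
    Nat.le_antisymm hC (Nat.le_of_dvd Nat.card_pos h21)
  -- conjugation by elements of the centralizer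
  have hcomm : ∀ c ∈ Subgroup.centralizer ({a} : Set S), ∀ k : ℤ, c * a ^ k * c⁻¹ = a ^ k := by
    intro c hc k
    rw [← conj_zpow, (hCmem c).1 hc]
  have hCN : Subgroup.centralizer ({a} : Set S)
      ≤ Subgroup.normalizer ((Subgroup.zpowers a : Subgroup S) : Set S) := by
    intro c hc
    rw [Subgroup.mem_normalizer_iff]
    intro h
    constructor
    · rintro ⟨k, rfl⟩
      exact ⟨k, (hcomm c hc k).symm⟩
    · rintro ⟨k, hk⟩
      refine ⟨k, ?_⟩
      have h2 := hcomm c⁻¹ (Subgroup.inv_mem _ hc) k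
      calc (fun x : ℤ => a ^ x) k = c⁻¹ * a ^ k * c⁻¹⁻¹ := h2.symm
        _ = c⁻¹ * (c * h * c⁻¹) * c⁻¹⁻¹ := by
          have hk' : a ^ k = c * h * c⁻¹ := hk
          rw [hk']
        _ = h := by group
  -- conjugation by powers
  have hpowk : ∀ (n : S) (k : ℕ), n * a * n⁻¹ = a ^ k →
      ∀ i : ℕ, n ^ i * a * (n ^ i)⁻¹ = a ^ (k ^ i) := by
    intro n k hk i
    induction i with
    | zero => simp
    | succ i ih =>
      calc n ^ (i + 1) * a * (n ^ (i + 1))⁻¹ = n * (n ^ i * a * (n ^ i)⁻¹) * n⁻¹ := by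
            rw [pow_succ']
            group
        _ = n * a ^ (k ^ i) * n⁻¹ := by rw [ih]
        _ = a ^ (k ^ (i + 1)) := by
            rw [← conj_pow, hk, ← pow_mul, pow_succ']
  have hred : ∀ m : ℕ, a ^ m = a ^ (m % 7) := by
    intro m
    rw [← ho]
    exact (pow_mod_orderOf a m).symm
  have hn : ∀ n : S, n * a * n⁻¹ ≠ a ^ 3 ∧ n * a * n⁻¹ ≠ a ^ 5 ∧ n * a * n⁻¹ ≠ a ^ 6 := by
    intro n
    refine ⟨fun h => hn6 (n ^ 3) ?_, fun h => hn6 (n ^ 3) ?_, hn6 n⟩
    · rw [hpowk n 3 h 3, hred]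
      norm_num
    · rw [hpowk n 5 h 3, hred]
      norm_num
  -- the exponent of a normalizing element
  have hexp : ∀ n : S, n ∈ Subgroup.normalizer ((Subgroup.zpowers a : Subgroup S) : Set S) →
      ∃ m : ℕ, m < 7 ∧ a ^ m = n * a * n⁻¹ := by
    intro n hnN
    have hmem : n * a * n⁻¹ ∈ Subgroup.zpowers a :=
      (Subgroup.mem_normalizer_iff.1 hnN a).1 (Subgroup.mem_zpowers a)
    obtain ⟨k, hk⟩ := Subgroup.mem_zpowers_iff.1 hmem
    have hk7 : a ^ (k % 7) = n * a * n⁻¹ := by
      rw [← hk]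
      have h2 := zpow_mod_orderOf a k
      rw [ho] at h2
      exact_mod_cast h2
    have hk0 : 0 ≤ k % 7 := Int.emod_nonneg k (by norm_num)
    have hk1 : k % 7 < 7 := Int.emod_lt_of_pos k (by norm_num)
    obtain ⟨m, hm⟩ := Int.eq_ofNat_of_zero_le hk0
    rw [hm, zpow_natCast] at hk7
    exact ⟨m, by omega, hk7⟩
  have hm0 : ∀ n : S, a ^ 0 ≠ n * a * n⁻¹ := by
    intro n hk7
    apply h1
    have h2 : n * a * n⁻¹ = 1 := by rw [← hk7, pow_zero]
    calc a = n⁻¹ * (n * a * n⁻¹) * n := by group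
      _ = 1 := by rw [h2]; group
  by_cases hex : ∃ s : S, s * a * s⁻¹ = a ^ 2
  · obtain ⟨s, hs⟩ := hex
    right
    -- `s` normalizes
    have hs4 : s⁻¹ * a * s = a ^ 4 := by
      have h2 : s * a ^ 4 * s⁻¹ = a := by
        rw [← conj_pow, hs, ← pow_mul]
        calc a ^ (2 * 4) = a ^ 7 * a := by rw [← pow_succ]
          _ = a := by rw [h7, one_mul]
      calc s⁻¹ * a * s = s⁻¹ * (s * a ^ 4 * s⁻¹) * s := by rw [h2]
        _ = a ^ 4 := by group
    have hsN : s ∈ Subgroup.normalizer ((Subgroup.zpowers a : Subgroup S) : Set S) := by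
      rw [Subgroup.mem_normalizer_iff]
      intro h
      constructor
      · rintro ⟨k, rfl⟩
        refine ⟨2 * k, ?_⟩
        change a ^ (2 * k) = s * a ^ k * s⁻¹
        rw [← conj_zpow, hs, zpow_mul, zpow_ofNat]
      · rintro ⟨k, hk⟩
        refine ⟨4 * k, ?_⟩
        have hk' : a ^ k = s * h * s⁻¹ := hk
        change a ^ (4 * k) = h
        have h3 : (s⁻¹ * a * s) ^ k = s⁻¹ * a ^ k * s := by
          have := conj_zpow (i := k) (a := s⁻¹) (b := a)
          simpa using this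
        calc a ^ (4 * k) = (a ^ 4) ^ k := by rw [zpow_mul, zpow_ofNat]
          _ = s⁻¹ * a ^ k * s := by rw [← hs4, h3]
          _ = s⁻¹ * (s * h * s⁻¹) * s := by rw [hk']
          _ = h := by group
    have hpow : ∀ i : ℕ, s ^ i * a * (s ^ i)⁻¹ = a ^ (2 ^ i) := hpowk s 2 hs
    have hconj : ∀ (i : ℕ) (c : S), c ∈ Subgroup.centralizer ({a} : Set S) →
        (s ^ i * c) * a * (s ^ i * c)⁻¹ = a ^ (2 ^ i) := by
      intro i c hc
      calc (s ^ i * c) * a * (s ^ i * c)⁻¹ = s ^ i * (c * a * c⁻¹) * (s ^ i)⁻¹ := by group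
        _ = a ^ (2 ^ i) := by rw [(hCmem c).1 hc, hpow]
    -- the bijection
    let f : ↥(Subgroup.centralizer ({a} : Set S)) × Fin 3 →
        ↥(Subgroup.normalizer ((Subgroup.zpowers a : Subgroup S) : Set S)) :=
      fun x => ⟨s ^ (x.2 : ℕ) * (x.1 : S),
        Subgroup.mul_mem _ (Subgroup.pow_mem _ hsN _) (hCN x.1.2)⟩
    have hinj : Function.Injective f := by
      rintro ⟨c, i⟩ ⟨c', j⟩ hEq
      have hEq' : s ^ (i : ℕ) * (c : S) = s ^ (j : ℕ) * (c' : S) := congrArg Subtype.val hEq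
      have h2 : a ^ (2 ^ (i : ℕ)) = a ^ (2 ^ (j : ℕ)) := by
        rw [← hconj i c c.2, ← hconj j c' c'.2, hEq']
      rw [pow_eq_pow_iff_modEq, ho] at h2
      have hij : i = j := by
        revert h2
        fin_cases i <;> fin_cases j <;> decide
      subst hij
      have hcc : (c : S) = (c' : S) := mul_left_cancel hEq'
      exact Prod.ext (Subtype.ext hcc) rfl
    have hsurj : Function.Surjective f := by
      rintro ⟨n, hnN⟩
      obtain ⟨m, hm7, hk7⟩ := hexp n hnN
      have key : ∀ i : Fin 3, n * a * n⁻¹ = a ^ (2 ^ (i : ℕ)) → ∃ x, f x = ⟨n, hnN⟩ := by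
        intro i hi
        have hc : (s ^ (i : ℕ))⁻¹ * n ∈ Subgroup.centralizer ({a} : Set S) := by
          rw [hCmem]
          calc (s ^ (i : ℕ))⁻¹ * n * a * ((s ^ (i : ℕ))⁻¹ * n)⁻¹
              = (s ^ (i : ℕ))⁻¹ * (n * a * n⁻¹) * s ^ (i : ℕ) := by group
            _ = (s ^ (i : ℕ))⁻¹ * (s ^ (i : ℕ) * a * (s ^ (i : ℕ))⁻¹) * s ^ (i : ℕ) := by
                rw [hi, hpow]
            _ = a := by group
        refine ⟨(⟨(s ^ (i : ℕ))⁻¹ * n, hc⟩, i), ?_⟩
        apply Subtype.ext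
        change s ^ (i : ℕ) * ((s ^ (i : ℕ))⁻¹ * n) = n
        group
      interval_cases m
      · exact absurd hk7 (hm0 n)
      · exact key 0 (by rw [← hk7]; norm_num)
      · exact key 1 (by rw [← hk7]; norm_num)
      · exact absurd hk7.symm (hn n).1
      · exact key 2 (by rw [← hk7]; norm_num)
      · exact absurd hk7.symm (hn n).2.1
      · exact absurd hk7.symm (hn n).2.2
    have hcard := Nat.card_congr (Equiv.ofBijective f ⟨hinj, hsurj⟩)
    rw [← hcard, Nat.card_prod, hC21, Nat.card_fin]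
  · left
    push Not at hex
    have hNC : Subgroup.normalizer ((Subgroup.zpowers a : Subgroup S) : Set S)
        ≤ Subgroup.centralizer ({a} : Set S) := by
      intro n hnN
      obtain ⟨m, hm7, hk7⟩ := hexp n hnN
      interval_cases m
      · exact absurd hk7 (hm0 n)
      · rw [hCmem, ← hk7, pow_one]
      · exact absurd hk7.symm (hex n)
      · exact absurd hk7.symm (hn n).1
      · exfalso
        apply hex (n ^ 2)
        rw [hpowk n 4 hk7.symm 2, hred]
        norm_num
      · exact absurd hk7.symm (hn n).2.1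
      · exact absurd hk7.symm (hn n).2.2
    rw [le_antisymm hNC hCN, hC21]

theorem absN : StAbsN.{u} := by
  intro S _ _ a h7 h1 hZ hC hn6
  classical
  have : Fact (Nat.Prime 7) := ⟨by norm_num⟩
  have hNcard := absN_card a h7 h1 hZ hC hn6
  set Z := Subgroup.center S with hZdef
  set π := QuotientGroup.mk' Z with hπ
  have hπs : Function.Surjective π := QuotientGroup.mk'_surjective Z
  have key : ∀ z : S, z ∈ Z → z ^ 7 = 1 → z = 1 := by
    intro z hz hz7
    have h3 : z ^ 3 = 1 := by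
      have h := pow_card_eq_one' (G := Z) (x := ⟨z, hz⟩)
      rw [hZ] at h
      exact congrArg Subtype.val h
    have h6 : z ^ 6 = 1 := by
      have h : z ^ 6 = (z ^ 3) ^ 2 := by rw [← pow_mul]
      rw [h, h3, one_pow]
    have h : z ^ 7 = z ^ 6 * z := pow_succ z 6
    rw [h6, hz7, one_mul] at h
    exact h.symm
  have ha_notZ : a ∉ Z := fun h => h1 (key a h h7)
  have hπa7 : π a ^ 7 = 1 := by rw [← map_pow, h7, map_one]
  have hπa1 : π a ≠ 1 := by
    intro h
    apply ha_notZ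
    have h2 : a ∈ π.ker := h
    rwa [hπ, QuotientGroup.ker_mk'] at h2
  have hord : orderOf (π a) = 7 := orderOf_eq_prime hπa7 hπa1
  have hX : (Subgroup.zpowers a).map π = Subgroup.zpowers (π a) := MonoidHom.map_zpowers π a
  have conj7 : ∀ n : S, (n * a * n⁻¹) ^ 7 = 1 := by
    intro n; rw [conj_pow, h7, mul_one, mul_inv_cancel]
  have pow7P : ∀ p ∈ Subgroup.zpowers a, p ^ 7 = 1 := by
    rintro p ⟨k, rfl⟩
    show (a ^ k) ^ 7 = 1
    rw [← zpow_natCast, ← zpow_mul, mul_comm, zpow_mul, zpow_natCast, h7, one_zpow]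
  have dec : ∀ (n p : S), p ∈ Subgroup.zpowers a → π (n * a * n⁻¹) = π p → n * a * n⁻¹ = p := by
    intro n p hp h
    have hz : p⁻¹ * (n * a * n⁻¹) ∈ Z := QuotientGroup.eq.mp h.symm
    have hcomm : Commute p (p⁻¹ * (n * a * n⁻¹)) := Subgroup.mem_center_iff.mp hz p
    have hz7 : (p⁻¹ * (n * a * n⁻¹)) ^ 7 = 1 := by
      have h2 : (p * (p⁻¹ * (n * a * n⁻¹))) ^ 7 = p ^ 7 * (p⁻¹ * (n * a * n⁻¹)) ^ 7 :=
        hcomm.mul_pow 7
      rw [mul_inv_cancel_left, conj7, pow7P p hp, one_mul] at h2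
      exact h2.symm
    have h3 := key _ hz hz7
    exact (inv_mul_eq_one.mp h3).symm
  have hNmap : Subgroup.normalizer ((Subgroup.zpowers (π a) : Subgroup (S ⧸ Z)) : Set (S ⧸ Z)) =
      (Subgroup.normalizer ((Subgroup.zpowers a : Subgroup S) : Set S)).map π := by
    apply le_antisymm
    · intro y hy
      obtain ⟨n, rfl⟩ := hπs y
      refine ⟨n, ?_, rfl⟩
      have h2 : π n * π a * (π n)⁻¹ ∈ Subgroup.zpowers (π a) :=
        (Subgroup.mem_normalizer_iff.mp hy (π a)).mp (Subgroup.mem_zpowers _)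
      rw [← hX] at h2
      obtain ⟨p, hp, hpe⟩ := h2
      have h3 : n * a * n⁻¹ = p := dec n p hp (by rw [hpe]; simp)
      have h4 : n * a * n⁻¹ ∈ Subgroup.zpowers a := h3 ▸ hp
      have h5 : ∀ h ∈ Subgroup.zpowers a, n * h * n⁻¹ ∈ Subgroup.zpowers a := by
        rintro h ⟨k, rfl⟩
        show n * a ^ k * n⁻¹ ∈ _
        rw [← conj_zpow]
        exact Subgroup.zpow_mem _ h4 k
      exact absN_mem_normalizer_of_conj_mem _ n h5
    · have h2 := Subgroup.le_normalizer_map π (H := Subgroup.zpowers a)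
      rwa [hX] at h2
  refine ⟨Subgroup.zpowers (π a), ?_, ?_⟩
  · rw [Nat.card_zpowers, hord]
  · rw [hNmap]
    have hle : Z ≤ Subgroup.normalizer ((Subgroup.zpowers a : Subgroup S) : Set S) := by
      intro z hz
      rw [Subgroup.mem_normalizer_iff]
      intro x
      have h2 : z * x * z⁻¹ = x := by
        have h3 := Subgroup.mem_center_iff.mp hz x
        rw [← h3, mul_inv_cancel_right]
      rw [h2]
    have h4 : Nat.card ((Subgroup.normalizer ((Subgroup.zpowers a : Subgroup S) : Set S)).map π)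
        * Nat.card Z = Nat.card (Subgroup.normalizer ((Subgroup.zpowers a : Subgroup S) : Set S)) :=
      absN_card_map_mk_mul Z _ hle
    rw [hZ] at h4
    rcases hNcard with h | h
    · rw [h] at h4
      have h5 : Nat.card ((Subgroup.normalizer
          ((Subgroup.zpowers a : Subgroup S) : Set S)).map π) = 7 := by omega
      rw [h5]
      norm_num
    · rw [h] at h4
      have h5 : Nat.card ((Subgroup.normalizer
          ((Subgroup.zpowers a : Subgroup S) : Set S)).map π) = 21 := by omega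
      rw [h5]

end Cfsg.Agent.H69.Uf

namespace Cfsg.Agent.H69.UfAbsNCheck

example : Cfsg.Agent.H77.Uf.StAbsN.{u} := Cfsg.Agent.H69.Uf.absN

end Cfsg.Agent.H69.UfAbsNCheck

#print axioms Cfsg.Agent.H69.Uf.absN
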