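import Mathlib
import Cfsg.Agent.H77.UfDefs

/-! UF-SYL7 (helper69, for helper77, S2149): if every subgroup of order 7 has normalizer of order
dividing 21, then there is no subgroup of order 6300, 5040 or 3150. -/

set_option autoImplicit false

universe u

namespace Cfsg.Agent.H69.Uf

open Cfsg.Agent.H77.Uf

theorem syl7 : StSyl7.{u} := by
  intro G _ _ hN H hH
  have : Fact (Nat.Prime 7) := ⟨by norm_num⟩
  obtain ⟨P⟩ : Nonempty (Sylow 7 H) := inferInstance
  have h7H : 7 ∣ Nat.card H := by
    rcases hH with h | h | h <;> rw [h] <;> norm_num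
  have h49H : ¬ 49 ∣ Nat.card H := by
    rcases hH with h | h | h <;> rw [h] <;> norm_num
  -- the Sylow subgroup has order 7
  have hPcard : Nat.card (P : Subgroup H) = 7 := by
    obtain ⟨k, hk⟩ := IsPGroup.iff_card.mp P.isPGroup'
    have h7P : 7 ∣ Nat.card (P : Subgroup H) := P.dvd_card_of_dvd_card h7H
    have hPH : Nat.card (P : Subgroup H) ∣ Nat.card H := Subgroup.card_subgroup_dvd_card _
    rw [hk] at h7P hPH ⊢
    have hk1 : k ≠ 0 := by
      rintro rfl
      norm_num at h7P
    have hk2 : k < 2 := by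
      by_contra hlt
      push Not at hlt
      exact h49H (dvd_trans (pow_dvd_pow 7 hlt) hPH)
    have : k = 1 := by omega
    rw [this, pow_one]
  -- the normalizer in H
  set N : Subgroup H := Subgroup.normalizer ((P : Subgroup H) : Set H) with hNdef
  have hidx : Nat.card (Sylow 7 H) = N.index := Sylow.card_eq_index_normalizer P
  have hmod : Nat.card (Sylow 7 H) ≡ 1 [MOD 7] := card_sylow_modEq_one 7 H
  have hPN : (P : Subgroup H) ≤ N := Subgroup.le_normalizer
  have h7N : 7 ∣ Nat.card N := by
    have h := Subgroup.card_dvd_of_le hPN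
    rwa [hPcard] at h
  -- image in G
  set X : Subgroup G := (P : Subgroup H).map H.subtype with hXdef
  have hXcard : Nat.card X = 7 := by
    rw [hXdef, Subgroup.card_map_of_injective H.subtype_injective, hPcard]
  have hNle : N.map H.subtype ≤ Subgroup.normalizer (X : Set G) := by
    rintro _ ⟨n, hn, rfl⟩
    have hn : ∀ h : H, h ∈ (P : Subgroup H) ↔ n * h * n⁻¹ ∈ (P : Subgroup H) :=
      fun h => Subgroup.mem_normalizer_iff.mp hn h
    rw [Subgroup.mem_normalizer_iff]
    intro x
    constructor
    · rintro ⟨p, hp, rfl⟩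
      exact ⟨n * p * n⁻¹, (hn p).mp hp, by simp⟩
    · rintro ⟨q, hq, hqe⟩
      refine ⟨n⁻¹ * q * n, (hn _).mpr ?_, ?_⟩
      · have : n * (n⁻¹ * q * n) * n⁻¹ = q := by group
        rw [this]
        exact hq
      · have h1 : (H.subtype q : G) = H.subtype n * x * (H.subtype n)⁻¹ := hqe
        rw [map_mul, map_mul, map_inv, h1]
        group
  have hN21 : Nat.card N ∣ 21 := by
    have h1 : Nat.card (N.map H.subtype) = Nat.card N :=
      Subgroup.card_map_of_injective H.subtype_injective
    have h2 := Subgroup.card_dvd_of_le hNle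
    rw [h1] at h2
    exact dvd_trans h2 (hN X hXcard)
  have hNcases : Nat.card N = 7 ∨ Nat.card N = 21 := by
    have hle : Nat.card N ≤ 21 := Nat.le_of_dvd (by norm_num) hN21
    obtain ⟨c, hc⟩ := h7N
    have hc3 : c ≤ 3 := by omega
    interval_cases c
    · rw [hc] at hN21; norm_num at hN21
    · left; omega
    · rw [hc] at hN21; norm_num at hN21
    · right; omega
  have hmul : Nat.card N * N.index = Nat.card H := Subgroup.card_mul_index N
  rw [hidx] at hmod
  have hm : N.index % 7 = 1 := by
    have := hmod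
    unfold Nat.ModEq at this
    simpa using this
  rcases hNcases with h | h <;> rcases hH with h' | h' | h' <;> rw [h, h'] at hmul <;> omega

end Cfsg.Agent.H69.Uf

namespace Cfsg.Agent.H69.UfSyl7Check

example : Cfsg.Agent.H77.Uf.StSyl7.{u} := Cfsg.Agent.H69.Uf.syl7

end Cfsg.Agent.H69.UfSyl7Check

#print axioms Cfsg.Agent.H69.Uf.syl7
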