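import Mathlib
import Cfsg.Agent.H17.HermBasis
import Cfsg.Agent.H7.Herm
import Cfsg.Agent.H69.UniONB

/-!
S5982-STD piece (helper99's team project): a similarity of a Hermitian Gram matrix is conjugate
to a similarity of the standard Hermitian form.
-/

set_option autoImplicit false

open scoped MatrixGroups

namespace Cfsg.Agent.H69.Uni

variable {F : Type*} [Field F] [Fintype F]

theorem exists_std_of_gram (q₀ n : ℕ) (hF : Fintype.card F = q₀ ^ 2)
    (A : Matrix (Fin n) (Fin n) F) (hA : IsUnit A.det) (hAh : ∀ i j, A j i = (A i j) ^ q₀)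
    (y : Matrix (Fin n) (Fin n) F) (c : F)
    (hy : y.transpose * A * y.map (fun a => a ^ q₀) = c • A) :
    ∃ (Q s : Matrix (Fin n) (Fin n) F), IsUnit Q.det ∧ y * Q = Q * s ∧
      s.transpose * s.map (fun a => a ^ q₀) = c • (1 : Matrix (Fin n) (Fin n) F) := by
  classical
  obtain ⟨σ, hσ⟩ := Cfsg.Agent.H7.exists_frobQ hF
  have hq := Cfsg.Agent.H7.two_le_of_card_sq hF
  have hq0 : q₀ ≠ 0 := by omega
  have hmap : ∀ M : Matrix (Fin n) (Fin n) F, M.map (fun a => a ^ q₀) = σ.mapMatrix M := by
    intro M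
    ext i j
    rw [RingHom.mapMatrix_apply, Matrix.map_apply, Matrix.map_apply, hσ]
  have hmapmul : ∀ M N : Matrix (Fin n) (Fin n) F,
      (M * N).map (fun a => a ^ q₀) = M.map (fun a => a ^ q₀) * N.map (fun a => a ^ q₀) := by
    intro M N
    rw [hmap, hmap, hmap, map_mul]
  have hmapone : (1 : Matrix (Fin n) (Fin n) F).map (fun a => a ^ q₀) = 1 := by
    rw [hmap, map_one]
  let f : (Fin n → F) → (Fin n → F) → F := fun u v => u ⬝ᵥ (A.mulVec (fun j => (v j) ^ q₀))
  have hfdef : ∀ u v, f u v = u ⬝ᵥ (A.mulVec (fun j => (v j) ^ q₀)) := fun u v => rfl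
  have hherm : ∀ v w, f v w = (f w v) ^ q₀ := by
    intro v w
    rw [hfdef, hfdef]
    simp only [dotProduct, Matrix.mulVec]
    rw [Cfsg.Agent.H7.sum_pow_q hF]
    simp only [mul_pow, Cfsg.Agent.H7.sum_pow_q hF, Finset.mul_sum,
      Cfsg.Agent.H7.pow_q_pow_q hF, ← hAh]
    rw [Finset.sum_comm]
    refine Finset.sum_congr rfl fun i _ => Finset.sum_congr rfl fun j _ => ?_
    ring
  have hf : Cfsg.Geo.IsUnitaryFormPow q₀ f := by
    refine ⟨fun x y v => add_dotProduct _ _ _, fun c x v => ?_, hherm, fun v hv => ?_⟩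
    · rw [hfdef, hfdef, smul_dotProduct, smul_eq_mul]
    · have hv' : (fun j => v j ^ q₀) ≠ 0 := by
        intro h
        apply hv
        funext j
        have := congrFun h j
        exact (pow_eq_zero_iff hq0).mp this
      have hAv : A.mulVec (fun j => v j ^ q₀) ≠ 0 := by
        intro h
        apply hv'
        have : A⁻¹.mulVec (A.mulVec (fun j => v j ^ q₀)) = fun j => v j ^ q₀ := by
          rw [Matrix.mulVec_mulVec, Matrix.nonsing_inv_mul _ hA, Matrix.one_mulVec]
        rw [← this, h, Matrix.mulVec_zero]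
      obtain ⟨k, hk⟩ : ∃ k, A.mulVec (fun j => v j ^ q₀) k ≠ 0 := by
        by_contra hcon
        apply hAv
        funext k
        by_contra hk
        exact hcon ⟨k, hk⟩
      have h1 : f (Pi.single k 1) v ≠ 0 := by
        rw [hfdef, single_one_dotProduct]
        exact hk
      refine ⟨⟨_, h1⟩, ⟨Pi.single k 1, ?_⟩⟩
      rw [hherm]
      exact pow_ne_zero _ h1
  obtain ⟨B, hBu, hB⟩ := exists_orthonormal_basis hF f hf
  have hM : B.transpose * A * B.map (fun a => a ^ q₀) = 1 := by
    ext i j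
    have h1 := hB (Pi.single i 1) (Pi.single j 1)
    have h2 : f (B.mulVec (Pi.single i 1)) (B.mulVec (Pi.single j 1)) =
        (B.transpose * A * B.map (fun a => a ^ q₀)) i j := by
      rw [hfdef, Matrix.mulVec_single_one, Matrix.mulVec_single_one]
      simp only [Matrix.mul_apply, Matrix.transpose_apply, dotProduct, Matrix.mulVec,
        Matrix.map_apply, Matrix.col_apply, Finset.sum_mul, Finset.mul_sum, mul_assoc]
      rw [Finset.sum_comm]
    rw [h2] at h1
    rw [h1, Matrix.one_apply]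
    simp only [Pi.single_apply, ite_pow, one_pow, zero_pow hq0, mul_ite, mul_one, mul_zero,
      Finset.sum_ite_eq', Finset.mem_univ, if_true]
    by_cases hij : i = j
    · rw [if_pos hij, if_pos hij.symm]
    · rw [if_neg hij, if_neg (Ne.symm hij)]
  have hBinv : B * B⁻¹ = 1 := Matrix.mul_nonsing_inv _ hBu
  refine ⟨B, B⁻¹ * y * B, hBu, ?_, ?_⟩
  · rw [← Matrix.mul_assoc, ← Matrix.mul_assoc, hBinv, Matrix.one_mul]
  · have h3 : B.map (fun a => a ^ q₀) * B⁻¹.map (fun a => a ^ q₀) = 1 := by
      rw [← hmapmul, hBinv, hmapone]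
    have h4 : B⁻¹.transpose * B.transpose = 1 := by
      rw [← Matrix.transpose_mul, hBinv, Matrix.transpose_one]
    have hAeq : A = B⁻¹.transpose * B⁻¹.map (fun a => a ^ q₀) := by
      calc A = (B⁻¹.transpose * B.transpose) * A *
            (B.map (fun a => a ^ q₀) * B⁻¹.map (fun a => a ^ q₀)) := by
            rw [h3, h4, Matrix.one_mul, Matrix.mul_one]
        _ = B⁻¹.transpose * (B.transpose * A * B.map (fun a => a ^ q₀)) *
            B⁻¹.map (fun a => a ^ q₀) := by simp only [Matrix.mul_assoc]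
        _ = B⁻¹.transpose * B⁻¹.map (fun a => a ^ q₀) := by rw [hM, Matrix.mul_one]
    calc (B⁻¹ * y * B).transpose * (B⁻¹ * y * B).map (fun a => a ^ q₀)
        = B.transpose * (y.transpose * (B⁻¹.transpose * B⁻¹.map (fun a => a ^ q₀)) *
            y.map (fun a => a ^ q₀)) * B.map (fun a => a ^ q₀) := by
          rw [hmapmul, hmapmul, Matrix.transpose_mul, Matrix.transpose_mul]
          simp only [Matrix.mul_assoc]
      _ = B.transpose * (c • A) * B.map (fun a => a ^ q₀) := by rw [← hAeq, hy]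
      _ = c • (B.transpose * A * B.map (fun a => a ^ q₀)) := by
          rw [Matrix.mul_smul, Matrix.smul_mul]
      _ = c • 1 := by rw [hM]

end Cfsg.Agent.H69.Uni
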